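import Mathlib
import Cfsg.Agent.BNP.Comm

/-!
From local information to membership in root groups.
-/

set_option autoImplicit false
set_option linter.unusedSectionVars false

namespace Cfsg.Agent.BNP

open Cfsg.Agent.Chev Cfsg.Agent.St
open scoped commutatorElement

variable {G ι W : Type*} [Group G] [Group W] {T : Tits G ι W} [Finite W]

set_option hygiene false in
local notation "δ" => dist T
set_option hygiene false in
local notation "𝐬" => T.s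
set_option hygiene false in
local notation "ℓ" => wlen T.s

/-- Parallel panels. -/
theorem Kr_par {g : G} {x y : Ch T} {i j : ι} (h : g ∈ Kr T x {i})
    (e : 𝐬 i * δ x y = δ x y * 𝐬 j) (hd : ¬ RD 𝐬 (δ x y) j) (hy : g • y = y) :
    g ∈ Kr T y {j} := by
  refine fixR_one hy fun z hz => ?_
  obtain ⟨x', h2, h3⟩ := exists_mid (x := x) (z := z) ((dist_right_up hz hd).trans e.symm)
  have h4 : ¬ RD 𝐬 (δ x' z) j := h3 ▸ hd
  refine gate_unique_one (x := x') ?_ h4 (Rs.trans (y := y) (rs_gen ?_) (rs_gen hz))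
  · rwa [dist_of_fix (h x' (rs_gen h2))]
  · rw [dist_comm, dist_of_fix hy, hz, gen_inv T.cox]

theorem Kr_par_ap {g : G} {x d : W} {i j : ι} (h : g ∈ Kr T (ap T x) {i})
    (e : 𝐬 i * d = d * 𝐬 j) (hd : ¬ RD 𝐬 d j) (hy : g • ap T (x * d) = ap T (x * d)) :
    g ∈ Kr T (ap T (x * d)) {j} :=
  Kr_par h (by rwa [dist_ap_mul]) (by rwa [dist_ap_mul]) hy

theorem Kr_par_gen {g : G} {x : W} {i j : ι} (h : g ∈ Kr T (ap T x) {i}) (hij : i ≠ j)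
    (e : 𝐬 i * 𝐬 j = 𝐬 j * 𝐬 i) (hy : g • ap T (x * 𝐬 j) = ap T (x * 𝐬 j)) :
    g ∈ Kr T (ap T (x * 𝐬 j)) {i} :=
  Kr_par_ap h e (by rwa [RD_gen T.cox]) hy

theorem Kr_ap_mul (x : W) {J : Set ι} {v : W} (hv : v ∈ WJ 𝐬 J) :
    Kr T (ap T (x * v)) J = Kr T (ap T x) J := (Kr_congr (rs_ap_mul x hv)).symm

theorem Kr_ap_gen (x : W) (i : ι) : Kr T (ap T (x * 𝐬 i)) {i} = Kr T (ap T x) {i} :=
  Kr_ap_mul x (gen_mem_WJ rfl)

theorem Kr_le_one {x v : W} {J : Set ι} (hv : v ∈ WJ 𝐬 J) {j : ι} (hj : j ∈ J) :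
    Kr T (ap T x) J ≤ Kr T (ap T (x * v)) {j} :=
  Kr_mono (Set.singleton_subset_iff.2 hj) (rs_ap_mul x hv)

theorem IsRt.mul_mem_of_not_inJ {A : Set W} (hA : IsRt 𝐬 A) {J : Set ι} {x : W} (hx : x ∈ A)
    (h : ¬ InJ 𝐬 J (BNP.tr x⁻¹ A)) {v : W} (hv : v ∈ WJ 𝐬 J) : x * v ∈ A := by
  by_contra h1
  exact h (hA.inJ_tr T.cox hx (by rwa [inv_mul_cancel_left]) h1)

/-- Rigidity for a residue whose apartment lies in `A`. -/
theorem mem_Kr_of_subset {A : Set W} {g : G} (hg : g ∈ Fx T A) {J : Set ι} {x : W}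
    (h : ∀ v ∈ WJ 𝐬 J, x * v ∈ A) (h1 : ∀ j ∈ J, g ∈ Kr T (ap T x) {j}) : g ∈ Kr T (ap T x) J :=
  rigid_ap (fun v hv => hg _ (h v hv)) h1

theorem mem_rt_one_of_notMem {J : Set ι} {j : ι} (hj : j ∉ J) {v : W} (hv : v ∈ WJ 𝐬 J) :
    v ∈ rt 𝐬 1 j := fun h => hj (T.cox.mem_of_LD hv (by simpa using h))

/-- Globalisation by induction on the length. -/
theorem mem_X_of_cut {A : Set W} (hA : IsRt 𝐬 A) (h1 : (1 : W) ∈ A) {g : G} (hg : g ∈ Fx T A)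
    (h0 : ∀ k, 𝐬 k ∈ A → g ∈ Kr T (ap T 1) {k})
    (hc : ∀ x i k, i ≠ k → x ∈ A → ¬ RD 𝐬 x i → ¬ RD 𝐬 x k → InJ 𝐬 {i, k} (tr x⁻¹ A) →
      (∀ l ∈ ({i, k} : Set ι), x * 𝐬 l ∈ A → g ∈ Kr T (ap T x) {l}) →
      ∀ v ∈ WJ 𝐬 {i, k}, ∀ l ∈ ({i, k} : Set ι), x * v ∈ A → x * v * 𝐬 l ∈ A →
        g ∈ Kr T (ap T (x * v)) {l}) : g ∈ X T A := by
  refine ⟨hg, fun w => ?_⟩
  generalize hn : ℓ w = n
  induction n using Nat.strong_induction_on generalizing w with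
  | _ n ih =>
  intro hw k hk
  by_cases hd : RD 𝐬 w k
  · rw [← Kr_ap_gen]
    exact ih _ (hn ▸ hd) _ rfl hk k (by rwa [cancel_r T.cox])
  by_cases hw1 : w = 1
  · subst hw1; exact h0 k (by rwa [one_mul] at hk)
  obtain ⟨i, -, hi⟩ := T.cox.exists_RD (mem_WJ_univ w) hw1
  obtain ⟨v, hv, hx⟩ := T.cox.exists_not_RD {i, k} w
  have hv' := inv_mem hv
  have e := T.cox.wlen_mul_of_not_RD hx hv'
  rw [mul_inv_cancel_right] at e
  have h2 : ℓ v⁻¹ ≠ 0 := fun h2 => hx i (by simp) (by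
    rwa [inv_eq_one.1 ((wlen_eq_zero T.cox).1 h2), mul_one])
  have h3 : w * v ∈ A := hA.convex T.cox (btw_one.2 (by
    rwa [mul_inv_rev, mul_assoc, inv_mul_cancel, mul_one])) h1 hw
  have h4 := ih _ (by omega) (w * v) rfl h3
  rw [← mul_inv_cancel_right w v] at hw hk ⊢
  by_cases hJ : InJ 𝐬 {i, k} (tr (w * v)⁻¹ A)
  · exact hc _ i k (by rintro rfl; exact hd hi) h3 (hx i (by simp)) (hx k (by simp)) hJ
      (fun l _ => h4 l) _ hv' k (by simp) hw hk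
  · exact Kr_le_one hv' (by simp) (mem_Kr_of_subset hg
      (fun u hu => hA.mul_mem_of_not_inJ h3 hJ hu)
      fun j hj => h4 j (hA.mul_mem_of_not_inJ h3 hJ (gen_mem_WJ hj)))

theorem mem_XJ_pair {a b : ι} {g : G} (hg : g ∈ Fx T (rt 𝐬 1 b))
    (h : ∀ k, k + 2 ≤ orderOf (𝐬 a * 𝐬 b) → g ∈ Kr T (ap T (av 𝐬 a b k)) {lt a b k}) :
    g ∈ XJ T {a, b} (rt 𝐬 1 b) := by
  refine ⟨hg, fun x hx hx' l hl hl' => ?_⟩
  have hm := ord_pos T.cox a b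
  obtain ⟨k, hk, e⟩ := eq_av T.cox hx'
  have e' : x = av 𝐬 a b k := e.elim id fun e => by
    rw [← bt_last a b, e, av_mem_bt' T.cox hk (by omega)] at hx
    rw [e, show k = 0 by omega]; rfl
  subst e'
  rw [← bt_last a b] at hx hl'
  rw [av_mem_bt T.cox hk (by omega)] at hx
  rcases eq_lt_or hl k with rfl | rfl
  · rw [← av_succ', av_mem_bt T.cox (by omega) (by omega)] at hl'
    exact h k (by omega)
  · cases k with
    | zero => exact absurd (bt_last (T := T) a b ▸ hl') (mul_gen_notMem_rt T.cox 1 b)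
    | succ k => rw [av_succ', lt_succ, Kr_ap_gen]; exact h k (by omega)

theorem mem_XJ_of_mv {J : Set ι} {A : Set W} {g : G} (h : Mv T g 1) (hg : g ∈ Kr T (ap T 1) J) :
    g ∈ XJ T J A :=
  ⟨h.mem_Fx A, fun x _ hx k hk _ => by simpa using Kr_le_one hx hk hg⟩

theorem MoufJ.mem_XJ {J : Set ι} {i : ι} (hm : MoufJ T J i) {g : G} (hg : g ∈ Fx T (rt 𝐬 1 i))
    {z : W} (hz : z ∈ WJ 𝐬 J) (h1 : z ∈ rt 𝐬 1 i) (h2 : ∀ j ∈ J, z * 𝐬 j ∈ rt 𝐬 1 i)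
    (h3 : ∀ j ∈ J, g ∈ Kr T (ap T z) {j}) : g ∈ XJ T J (rt 𝐬 1 i) := by
  obtain ⟨u, hu, e⟩ := hm (g • ap T (𝐬 i)) (by
    rw [dist_of_fix (hg 1 (self_mem_rt T.cox 1 i)), dist_ap_one])
  have h4 : Mv T (u⁻¹ * g) 1 := mv_one_of_Fx (mul_mem (inv_mem hu.1) hg)
    (by rw [mul_smul, ← e, inv_smul_smul])
  have h5 := mem_Kr_of_mv h4 fun j hj => mul_mem (inv_mem (hu.2 z h1 hz j hj (h2 j hj))) (h3 j hj)
  rw [← Kr_congr (rs_ap_one hz)] at h5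
  simpa using mul_mem hu (mem_XJ_of_mv h4 h5)

/-- The local Moufang condition: both panels at an interior chamber determine the rest. -/
theorem MoufJ.mem_Kr {J : Set ι} {i : ι} (hm : MoufJ T J i) {A : Set W} {g : G} (hg : g ∈ Fx T A)
    {x y : W} (hy : y ∈ WJ 𝐬 J) (e : rt 𝐬 (x * y) i = A) {z : W} (hz : z ∈ WJ 𝐬 J)
    (h1 : x * z ∈ A) (h2 : ∀ j ∈ J, x * z * 𝐬 j ∈ A) (h3 : ∀ j ∈ J, g ∈ Kr T (ap T (x * z)) {j})
    {v : W} (hv : v ∈ WJ 𝐬 J) {l : ι} (hl : l ∈ J) (h4 : x * v ∈ A) (h5 : x * v * 𝐬 l ∈ A) :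
    g ∈ Kr T (ap T (x * v)) {l} := by
  obtain ⟨n, hn⟩ := exists_mv T (x * y)
  have e1 : ∀ u, y⁻¹ * u ∈ rt 𝐬 1 i ↔ x * u ∈ A := fun u => by
    rw [← e, ← mul_one (x * y), ← tr_rt, mem_tr]; simp [mul_assoc]
  have h6 := hm.mem_XJ (g := n⁻¹ * g * n⁻¹⁻¹) (z := y⁻¹ * z) (by
      simpa [← e, tr_rt] using hn.inv.conj_mem_Fx hg) (mul_mem (inv_mem hy) hz) ((e1 z).2 h1)
    (fun j hj => by rw [mul_assoc, e1, ← mul_assoc]; exact h2 j hj)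
    fun j hj => by simpa [mul_assoc] using hn.inv.conj_mem_Kr (h3 j hj)
  have h7 := hn.conj_mem_Kr (h6.2 (y⁻¹ * v) ((e1 v).2 h4) (mul_mem (inv_mem hy) hv) l hl
    (by rw [mul_assoc, e1, ← mul_assoc]; exact h5))
  simpa [mul_assoc] using h7

theorem odd_of_rt_eq {i k : ι} (hik : i ≠ k) {v : W} (hv : v ∈ WJ 𝐬 {i, k})
    (e : rt 𝐬 v i = rt 𝐬 1 k) : Odd (orderOf (𝐬 i * 𝐬 k)) := by
  have hd : ¬ RD 𝐬 v i := (one_mem_rt T.cox).1 (e ▸ self_mem_rt T.cox 1 k)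
  obtain ⟨r, hr, h⟩ := eq_av T.cox hv
  cases r with
  | zero =>
    obtain rfl : v = 1 := h.elim id id
    exact absurd (rt_index_unique T.cox e) hik
  | succ r =>
    rcases h with rfl | rfl
    · obtain ⟨h1, h2⟩ := eq_lt_of_not_RD T.cox hr (by simp) hd
      have h3 := bt_inj T.cox h1 (l := orderOf (𝐬 i * 𝐬 k) - 1) (by omega)
        (by rw [bt_last, bt, ← h2, e])
      unfold lt at h2
      split_ifs at h2 with h4
      · exact Nat.odd_iff.2 (by omega)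
      · exact absurd h2 hik
    · rw [← ord_comm T.cox] at hr
      obtain ⟨h1, h2⟩ := eq_lt_of_not_RD T.cox hr (by simp) hd
      exact absurd (bt_inj T.cox h1 (l := 0) (by omega) (by rw [bt_zero, bt, ← h2, e])) (by omega)

/-- Roots of different types are conjugate only along simple bonds. -/
theorem eq_or_lin (ho : ∀ k l, k ≠ l → orderOf (𝐬 k * 𝐬 l) ∈ ({2, 3, 4} : Set ℕ)) {w : W}
    {i j : ι} (e : rt 𝐬 w i = rt 𝐬 1 j) :
    i = j ∨ (∃ l, orderOf (𝐬 i * 𝐬 l) = 3) ∧ ∃ l, orderOf (𝐬 j * 𝐬 l) = 3 := by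
  refine groupoid T.cox (P := fun _ i j => i = j ∨ (∃ l, orderOf (𝐬 i * 𝐬 l) = 3) ∧
    ∃ l, orderOf (𝐬 j * 𝐬 l) = 3) (fun _ => Or.inl rfl) ?_ e
  rintro - i j l k v hk hv (rfl | rfl) e1 - ih
  · exact ih
  · have h1 := odd_of_rt_eq hk.symm hv e1
    have h3 : orderOf (𝐬 i * 𝐬 l) = 3 := by
      rcases ho i l hk.symm with h | h | h <;> rw [h] at h1 ⊢ <;> revert h1 <;> decide
    exact Or.inr ⟨⟨l, h3⟩, ih.elim (fun h => ⟨i, by rw [← h, ord_comm T.cox, h3]⟩) And.right⟩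

theorem commute_iff_two {i j : ι} (hij : i ≠ j) :
    𝐬 i * 𝐬 j = 𝐬 j * 𝐬 i ↔ orderOf (𝐬 i * 𝐬 j) = 2 := by
  have h2 := two_le_ord T.cox hij
  constructor
  · intro e
    refine le_antisymm (Nat.le_of_dvd two_pos (orderOf_dvd_of_pow_eq_one ?_)) h2
    rw [sq, mul_assoc, ← mul_assoc (𝐬 j), ← e, mul_assoc, T.cox.sq, mul_one, T.cox.sq]
  · intro e
    have := av_ord T.cox i j
    rwa [e, av_two, av_two] at this

theorem ne_of_ord {i j : ι} {m : ℕ} (h : orderOf (𝐬 i * 𝐬 j) = m) (hm : m ≠ 1) : i ≠ j := by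
  rintro rfl
  rw [T.cox.sq, orderOf_one] at h
  exact hm h.symm

theorem not_commute_of_ord {i j : ι} {m : ℕ} (h : orderOf (𝐬 i * 𝐬 j) = m) (hm : 3 ≤ m) :
    𝐬 i * 𝐬 j ≠ 𝐬 j * 𝐬 i := fun e => by
  rw [commute_iff_two (ne_of_ord h (by omega))] at e
  omega

theorem braid_of_three {i j : ι} (h : orderOf (𝐬 i * 𝐬 j) = 3) :
    𝐬 i * 𝐬 j * 𝐬 i = 𝐬 j * 𝐬 i * 𝐬 j := by
  have := av_ord T.cox i j
  rwa [h, av_three, av_three] at this

theorem exists_pPart [Finite G] {p : ℕ} (hp : p.Prime) (g : G) :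
    ∃ m k : ℕ, (g ^ (p * m + 1)) ^ p ^ k = 1 := by
  obtain ⟨k, n, hn, e⟩ := Nat.exists_eq_pow_mul_and_not_dvd (orderOf_pos g).ne' p hp.ne_one
  obtain ⟨x, h1, h2⟩ := Nat.chineseRemainder ((Nat.Prime.coprime_iff_not_dvd hp).2 hn) 1 0
  have h3 : p * (x / p) + 1 = x := by
    have := Nat.div_add_mod x p
    rwa [(show x % p = 1 % p from h1).trans (Nat.mod_eq_of_lt hp.one_lt)] at this
  refine ⟨x / p, k, ?_⟩
  rw [h3, ← pow_mul, ← orderOf_dvd_iff_pow_eq_one, e, mul_comm]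
  exact Nat.mul_dvd_mul_right ((Nat.modEq_zero_iff_dvd).1 h2) _

end Cfsg.Agent.BNP
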