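import Mathlib
import Cfsg.Agent.BNP.Glob

/-!
The commutation type of a double bond.
-/

set_option autoImplicit false

namespace Cfsg.Agent.BNP

open Cfsg.Agent.St

variable {G ι W : Type*} [Group G] [Group W] (T : Tits G ι W)

/-- The first and third root groups of the rank two subsystem `{b, c}` commute. -/
def Bt (b c : ι) : Prop :=
  ∀ x ∈ X T (bt T.s b c 0), ∀ y ∈ X T (bt T.s b c 2), Commute x y

end Cfsg.Agent.BNP
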