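import Mathlib
import Cfsg.Agent.BNP.Comm

/-!
Comparison of two Coxeter groups along a parabolic subgroup.
-/

set_option autoImplicit false
set_option linter.unusedSectionVars false

namespace Cfsg.Agent.BNP

open Cfsg.Agent.Chev Cfsg.Agent.St

variable {ι W W' : Type*} [Group W] [Group W'] {s : ι → W} {s' : ι → W'}

theorem exists_lift [Finite W] (h : Cox s) (K : Set ι) {H : Type*} [Group H] (f : ι → H)
    (hsq : ∀ i ∈ K, f i * f i = 1)
    (hbr : ∀ a ∈ K, ∀ b ∈ K, a ≠ b →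
      wprod f (alt a b (orderOf (s a * s b))) = wprod f (alt b a (orderOf (s a * s b)))) :
    ∃ φ : W → H, φ 1 = 1 ∧ ∀ w ∈ WJ s K, ∀ i ∈ K, φ (w * s i) = φ w * f i := by
  classical
  let f0 : ι → WithZero H := fun i => if i ∈ K then (f i : WithZero H) else 0
  have h0 : ∀ l : List ι, (∀ i ∈ l, i ∈ K) → wprod f0 l = (wprod f l : H) := fun l hl => by
    induction l with
    | nil => rfl
    | cons a t ih =>
      rw [wprod_cons, wprod_cons, ih fun i hi => hl i (by simp [hi]), WithZero.coe_mul]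
      simp only [f0, if_pos (hl a (by simp))]
  have hal : ∀ a ∈ K, ∀ b ∈ K, ∀ k, ∀ i ∈ alt a b k, i ∈ K := fun a ha b hb k => by
    induction k generalizing a b with
    | zero => simp [alt_zero]
    | succ k ih =>
      intro i hi
      rw [alt_succ, List.mem_cons] at hi
      exact hi.elim (fun e => e ▸ ha) (ih b hb a ha i)
  have hmat := h.ex.matsumoto h.inv f0 (fun a b _ => by
    by_cases hab : a = b
    · rw [hab]
    by_cases hK : a ∈ K ∧ b ∈ K
    · rw [h0 _ (hal a hK.1 b hK.2 _), h0 _ (hal b hK.2 a hK.1 _), hbr a hK.1 b hK.2 hab]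
    obtain ⟨k, hk⟩ := Nat.exists_eq_add_of_le' (two_le_ord h hab)
    rw [hk, alt_succ, alt_succ, alt_succ, alt_succ]
    simp only [wprod_cons]
    rcases not_and_or.1 hK with h1 | h1 <;> simp [f0, h1])
  choose r hr1 hr2 hr3 using fun w (hw : w ∈ WJ s K) => h.exists_reduced_mem hw
  let φ : W → H := fun w => if hw : w ∈ WJ s K then wprod f (r w hw) else 1
  have hg : ∀ l : List ι, (∀ i ∈ l, i ∈ K) → Reduced s l → φ (wprod s l) = wprod f l := by
    intro l hl hl'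
    have hw := wprod_mem_WJ (s := s) hl
    have := hmat l (r _ hw) hl' (hr3 _ hw) (by rw [← hr2 _ hw, hr3 _ hw, hl'])
    rw [h0 _ hl, h0 _ (hr1 _ hw), WithZero.coe_inj] at this
    simp only [φ, dif_pos hw, this]
  have key : ∀ w ∈ WJ s K, ∀ i ∈ K, ¬ RD s w i → φ (w * s i) = φ w * f i := fun w hw i hi hd => by
    have h1 : w * s i = wprod s (r w hw ++ [i]) := by rw [wprod_append, hr3, wprod_singleton]
    rw [h1, hg _ (by
        intro j hj
        rw [List.mem_append, List.mem_singleton] at hj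
        exact hj.elim (hr1 w hw j) (fun e => e ▸ hi))
      (by rw [Reduced, ← h1, h.not_RD_iff.1 hd, List.length_append, ← hr2 w hw, hr3]; rfl),
      wprod_append, wprod_singleton]
    simp only [φ, dif_pos hw]
  refine ⟨φ, hg [] (by simp) (wlen_one s), fun w hw i hi => ?_⟩
  by_cases hd : RD s w i
  · have := key (w * s i) (mul_mem hw (gen_mem_WJ hi)) i hi (fun h1 => h.RD_mul_gen.1 h1 hd)
    rw [cancel_r h] at this
    rw [this, mul_assoc, hsq i hi, mul_one]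
  · exact key w hw i hi hd

theorem lift_mul (h : Cox s) {K : Set ι} {H : Type*} [Group H] {f : ι → H} {φ : W → H}
    (h1 : φ 1 = 1) (h2 : ∀ w ∈ WJ s K, ∀ i ∈ K, φ (w * s i) = φ w * f i) {u v : W}
    (hu : u ∈ WJ s K) (hv : v ∈ WJ s K) : φ (u * v) = φ u * φ v := by
  refine WJ_induction h (P := fun v => φ (u * v) = φ u * φ v) (by rw [mul_one, h1, mul_one])
    (fun x hx k hk _ ih => ?_) hv
  rw [← mul_assoc, h2 _ (mul_mem hu hx) k hk, ih, h2 _ hx k hk, mul_assoc]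

variable (s s') in
/-- `φ` restricts to a length preserving isomorphism of the parabolic subgroups of type `K`. -/
structure Cmp (K : Set ι) (φ : W → W') : Prop where
  cox : Cox s
  cox' : Cox s'
  one : φ 1 = 1
  step : ∀ w ∈ WJ s K, ∀ i ∈ K, φ (w * s i) = φ w * s' i
  len : ∀ w ∈ WJ s K, wlen s' (φ w) = wlen s w

theorem exists_cmp [Finite W] [Finite W'] (h : Cox s) (h' : Cox s') (K : Set ι)
    (ho : ∀ a ∈ K, ∀ b ∈ K, a ≠ b → orderOf (s' a * s' b) = orderOf (s a * s b)) :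
    ∃ φ, Cmp s s' K φ := by
  obtain ⟨φ, h1, h2⟩ := exists_lift h K s' (fun i _ => h'.sq i) (fun a ha b hb hab => by
    rw [← ho a ha b hb hab]; exact av_ord h' a b)
  obtain ⟨ψ, h3, h4⟩ := exists_lift h' K s (fun i _ => h.sq i) (fun a ha b hb hab => by
    rw [ho a ha b hb hab]; exact av_ord h a b)
  have k1 : ∀ w ∈ WJ s K, φ w ∈ WJ s' K ∧ ψ (φ w) = w ∧ wlen s' (φ w) ≤ wlen s w := fun w hw => by
    refine WJ_induction h (P := fun w => φ w ∈ WJ s' K ∧ ψ (φ w) = w ∧ wlen s' (φ w) ≤ wlen s w)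
      (by rw [h1, h3, wlen_one, wlen_one]; exact ⟨one_mem _, rfl, le_rfl⟩)
      (fun x hx k hk hd ih => ?_) hw
    rw [h2 x hx k hk, h4 _ ih.1 k hk, ih.2.1, h.not_RD_iff.1 hd]
    have := h'.inv.wlen_mul_simple_le k (φ x)
    exact ⟨mul_mem ih.1 (gen_mem_WJ hk), rfl, by omega⟩
  have k2 : ∀ w ∈ WJ s' K, wlen s (ψ w) ≤ wlen s' w := fun w hw => by
    refine WJ_induction h' (P := fun w => wlen s (ψ w) ≤ wlen s' w)
      (by rw [h3, wlen_one, wlen_one]) (fun x hx k hk hd ih => ?_) hw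
    rw [h4 x hx k hk, h'.not_RD_iff.1 hd]
    have := h.inv.wlen_mul_simple_le k (ψ x)
    omega
  refine ⟨φ, h, h', h1, h2, fun w hw => le_antisymm (k1 w hw).2.2 ?_⟩
  have := k2 _ (k1 w hw).1
  rwa [(k1 w hw).2.1] at this

namespace Cmp

variable {K : Set ι} {φ : W → W'} (c : Cmp s s' K φ)
include c

theorem mono {J : Set ι} (hJ : J ⊆ K) : Cmp s s' J φ :=
  ⟨c.cox, c.cox', c.one, fun w hw i hi => c.step w (WJ_mono hJ hw) i (hJ hi),
    fun w hw => c.len w (WJ_mono hJ hw)⟩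

theorem mul {u v : W} (hu : u ∈ WJ s K) (hv : v ∈ WJ s K) : φ (u * v) = φ u * φ v :=
  lift_mul c.cox c.one c.step hu hv

theorem gen {i : ι} (hi : i ∈ K) : φ (s i) = s' i := by
  have := c.step 1 (one_mem _) i hi
  rwa [one_mul, c.one, one_mul] at this

theorem inv {u : W} (hu : u ∈ WJ s K) : φ u⁻¹ = (φ u)⁻¹ :=
  eq_inv_of_mul_eq_one_left (by rw [← c.mul (inv_mem hu) hu, inv_mul_cancel, c.one])

theorem mem {u : W} (hu : u ∈ WJ s K) : φ u ∈ WJ s' K :=
  WJ_induction c.cox (P := fun u => φ u ∈ WJ s' K) (by rw [c.one]; exact one_mem _)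
    (fun x hx k hk _ ih => by rw [c.step x hx k hk]; exact mul_mem ih (gen_mem_WJ hk)) hu

theorem surj {u' : W'} (hu : u' ∈ WJ s' K) : ∃ u ∈ WJ s K, φ u = u' :=
  WJ_induction c.cox' (P := fun u' => ∃ u ∈ WJ s K, φ u = u') ⟨1, one_mem _, c.one⟩
    (fun _ _ k hk _ ⟨u, hu, e⟩ => ⟨u * s k, mul_mem hu (gen_mem_WJ hk), by
      rw [c.step u hu k hk, e]⟩) hu

theorem eq_one {u : W} (hu : u ∈ WJ s K) (h : φ u = 1) : u = 1 := by
  have := c.len u hu
  rw [h, wlen_one] at this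
  exact (wlen_eq_zero c.cox).1 this.symm

theorem inj {u v : W} (hu : u ∈ WJ s K) (hv : v ∈ WJ s K) (h : φ u = φ v) : u = v :=
  inv_mul_eq_one.1 (c.eq_one (mul_mem (inv_mem hu) hv) (by
    rw [c.mul (inv_mem hu) hv, c.inv hu, h, inv_mul_cancel]))

theorem rd {u : W} (hu : u ∈ WJ s K) {i : ι} (hi : i ∈ K) : RD s' (φ u) i ↔ RD s u i := by
  unfold RD
  rw [← c.step u hu i hi, c.len _ hu, c.len _ (mul_mem hu (gen_mem_WJ hi))]

theorem ld {u : W} (hu : u ∈ WJ s K) {i : ι} (hi : i ∈ K) : LD s' (φ u) i ↔ LD s u i := by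
  unfold LD
  rw [← c.gen hi, ← c.mul (gen_mem_WJ hi) hu, c.len _ hu, c.len _ (mul_mem (gen_mem_WJ hi) hu)]

theorem mem_rt {v x : W} (hv : v ∈ WJ s K) (hx : x ∈ WJ s K) {i : ι} (hi : i ∈ K) :
    φ x ∈ rt s' (φ v) i ↔ x ∈ rt s v i := by
  rw [BNP.mem_rt, BNP.mem_rt, ← c.inv hv, ← c.mul (inv_mem hv) hx,
    c.ld (mul_mem (inv_mem hv) hx) hi]

theorem rt_eq {v w : W} (hv : v ∈ WJ s K) (hw : w ∈ WJ s K) {i j : ι} (hi : i ∈ K) (hj : j ∈ K)
    (e : rt s v i = rt s w j) : rt s' (φ v) i = rt s' (φ w) j := by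
  refine ((isRt_rt _ j).eq_of_cross c.cox' ?_ ?_).symm
  · rw [c.mem_rt hw hv hj, ← e]; exact self_mem_rt c.cox v i
  · rw [← c.step v hv i hi, c.mem_rt hw (mul_mem hv (gen_mem_WJ hi)) hj, ← e]
    exact mul_gen_notMem_rt c.cox v i

theorem isTop {w : W} (hw : IsTop s K w) : IsTop s' K (φ w) :=
  ⟨c.mem hw.1, fun j hj => (c.rd hw.1 hj).2 (hw.2 j hj)⟩

theorem av {a b : ι} (ha : a ∈ K) (hb : b ∈ K) (k : ℕ) : φ (av s a b k) = av s' a b k := by
  have hK : ({a, b} : Set ι) ⊆ K := by rintro _ (rfl | rfl) <;> assumption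
  induction k with
  | zero => exact c.one
  | succ k ih =>
    rw [av_succ', av_succ', c.step _ (WJ_mono hK (av_mem a b k)) _ (hK (lt_mem a b k)), ih]

end Cmp

end Cfsg.Agent.BNP
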