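import Mathlib
import Cfsg.Agent.BNP.CmpA

/-!
A compatible family of isomorphisms of positive root groups induces an isometry of residues.
-/

set_option autoImplicit false
set_option linter.unusedSectionVars false

namespace Cfsg.Agent.BNP

open Cfsg.Agent.Chev Cfsg.Agent.St
open scoped commutatorElement Pointwise

variable {G ι W : Type*} [Group G] [Group W] {T : Tits G ι W} [Finite W]
variable {G' W' : Type*} [Group G'] [Group W'] {T' : Tits G' ι W'} [Finite W']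

set_option hygiene false in
local notation "δ" => dist T
set_option hygiene false in
local notation "δ'" => dist T'
set_option hygiene false in
local notation "𝐬" => T.s
set_option hygiene false in
local notation "𝐬'" => T'.s

variable (T) in
/-- The group generated by the graphs of the roots containing `1` and `z`. -/
def GP (K : Set ι) (Γ : Set W → Subgroup (G × G')) (z : W) : Subgroup (G × G') :=
  ⨆ (B : Set W) (_ : InJ 𝐬 K B ∧ 1 ∈ B ∧ z ∈ B), Γ B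

variable (T T') in
/-- A compatible family of graphs for the positive roots of type `K`. -/
structure Fam (K : Set ι) (φ : W → W') (Γ : Set W → Subgroup (G × G')) : Prop where
  cmp : Cmp 𝐬 𝐬' K φ
  gr : ∀ v ∈ WJ 𝐬 K, ∀ i ∈ K, ¬ RD 𝐬 v i →
    Graph (X T (rt 𝐬 v i)) (X T' (rt 𝐬' (φ v) i)) (Γ (rt 𝐬 v i))
  nm : ∀ v ∈ WJ 𝐬 K, ∀ i ∈ K, ¬ RD 𝐬 v i → ∀ x ∈ Γ (rt 𝐬 v i), ∀ B, InJ 𝐬 K B → 1 ∈ B →
    v * 𝐬 i ∈ B → ∀ y ∈ Γ B, ⁅x, y⁆ ∈ GP T K Γ (v * 𝐬 i)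

variable (T T') in
/-- An isometry of the standard residues of type `K` matching the standard apartments. -/
structure Th (K : Set ι) (φ : W → W') (Θ : Ch T → Ch T' → Prop) : Prop where
  cmp : Cmp 𝐬 𝐬' K φ
  tot : ∀ y, Rs T K (ap T 1) y → ∃ y', Θ y y'
  tot' : ∀ y', Rs T' K (ap T' 1) y' → ∃ y, Θ y y'
  rs : ∀ {y y'}, Θ y y' → Rs T K (ap T 1) y
  rs' : ∀ {y y'}, Θ y y' → Rs T' K (ap T' 1) y'
  dist : ∀ {y y' z z'}, Θ y y' → Θ z z' → δ' y' z' = φ (δ y z)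
  ap : ∀ w ∈ WJ 𝐬 K, Θ (ap T w) (ap T' (φ w))

/-- The pairs preserving a relation between chambers. -/
def CT (Θ : Ch T → Ch T' → Prop) : Subgroup (G × G') where
  carrier := {g | ∀ y y', Θ (g.1 • y) (g.2 • y') ↔ Θ y y'}
  one_mem' y y' := by simp
  mul_mem' {a b} ha hb y y' := by
    rw [Prod.fst_mul, Prod.snd_mul, mul_smul, mul_smul, ha, hb]
  inv_mem' {a} ha y y' := by
    rw [← ha, Prod.fst_inv, Prod.snd_inv, smul_inv_smul, smul_inv_smul]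

variable {K : Set ι} {φ : W → W'} {Γ : Set W → Subgroup (G × G')}

theorem le_GP {B : Set W} {z : W} (h1 : InJ 𝐬 K B) (h2 : 1 ∈ B) (h3 : z ∈ B) :
    Γ B ≤ GP T K Γ z :=
  le_iSup₂_of_le (f := fun B (_ : InJ 𝐬 K B ∧ 1 ∈ B ∧ z ∈ B) => Γ B) B ⟨h1, h2, h3⟩ le_rfl

theorem GP_le {z : W} {H : Subgroup (G × G')}
    (h : ∀ B, InJ 𝐬 K B → 1 ∈ B → z ∈ B → Γ B ≤ H) : GP T K Γ z ≤ H :=
  iSup₂_le fun B hB => h B hB.1 hB.2.1 hB.2.2

theorem GP_le_one (z : W) : GP T K Γ z ≤ GP T K Γ 1 := GP_le fun _ h1 h2 _ => le_GP h1 h2 h2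

namespace Fam

variable (F : Fam T T' K φ Γ)
include F

theorem fix {z : W} (hz : z ∈ WJ 𝐬 K) {g : G × G'} (hg : g ∈ GP T K Γ z) :
    g.1 • ap T z = ap T z ∧ g.2 • ap T' (φ z) = ap T' (φ z) := by
  refine (GP_le (H := (MulAction.stabilizer G (ap T z)).prod
    (MulAction.stabilizer G' (ap T' (φ z)))) ?_) hg
  rintro _ ⟨v, hv, i, hi, rfl⟩ h1 h2 x hx
  have := F.gr v hv i hi ((one_mem_rt T.cox).1 h1)
  exact ⟨(this.fst x hx).1 z h2, (this.snd x hx).1 _ ((F.cmp.mem_rt hv hz hi).2 h2)⟩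

theorem fix_one {g : G × G'} (hg : g ∈ GP T K Γ 1) :
    g.1 • ap T 1 = ap T 1 ∧ g.2 • ap T' 1 = ap T' 1 := by
  have := F.fix (one_mem _) hg
  rwa [F.cmp.one] at this

theorem dec {v : W} (hv : v ∈ WJ 𝐬 K) {i : ι} (hi : i ∈ K) (hd : ¬ RD 𝐬 v i) {g : G × G'}
    (hg : g ∈ GP T K Γ v) : ∃ x ∈ Γ (rt 𝐬 v i), ∃ h ∈ GP T K Γ (v * 𝐬 i), x * h = g := by
  have h1 : Γ (rt 𝐬 v i) ≤ Subgroup.normalizer (GP T K Γ (v * 𝐬 i)) := by
    refine Subgroup.le_normalizer_iff.2 fun x hx y hy => ?_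
    refine (GP_le (H := (GP T K Γ (v * 𝐬 i)).comap (MulAut.conj x).toMonoidHom)
      fun B h1 h2 h3 y hy => ?_) hy
    have := mul_mem (F.nm v hv i hi hd x hx B h1 h2 h3 y hy) (le_GP h1 h2 h3 hy)
    rwa [commutatorElement_def, inv_mul_cancel_right] at this
  have h2 : g ∈ Γ (rt 𝐬 v i) ⊔ GP T K Γ (v * 𝐬 i) := by
    refine (GP_le fun B h1 h2 h3 => ?_) hg
    by_cases h4 : v * 𝐬 i ∈ B
    · exact le_sup_of_le_right (le_GP h1 h2 h4)
    · rw [h1.isRt.eq_of_cross T.cox h3 h4]; exact le_sup_left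
  have h3 : g ∈ ((Γ (rt 𝐬 v i) ⊔ GP T K Γ (v * 𝐬 i) : Subgroup _) : Set (G × G')) := h2
  rw [Subgroup.coe_mul_of_left_le_normalizer_right _ _ h1] at h3
  exact h3

theorem mem_of_fix (M : MH T) (M' : MH T') {g : G × G'} (hg : g ∈ GP T K Γ 1) {w : W}
    (hw : w ∈ WJ 𝐬 K) (h : g.1 • ap T w = ap T w ∨ g.2 • ap T' (φ w) = ap T' (φ w)) :
    g ∈ GP T K Γ w := by
  revert h
  refine WJ_induction T.cox (P := fun w => g.1 • ap T w = ap T w ∨
    g.2 • ap T' (φ w) = ap T' (φ w) → g ∈ GP T K Γ w) (fun _ => hg) (fun v hv i hi hd ih h => ?_) hw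
  have hv' := mul_mem hv (gen_mem_WJ (s := 𝐬) hi)
  have hd' : ¬ RD 𝐬' (φ v) i := fun h => hd ((F.cmp.rd hv hi).1 h)
  rw [F.cmp.step v hv i hi] at h
  obtain ⟨x, hx, u, hu, rfl⟩ := F.dec hv hi hd (ih (h.imp
    (fix_of_btw (btw_gen T.cox hd) (F.fix_one hg).1)
    (fix_of_btw (btw_gen T'.cox hd') (F.fix_one hg).2)))
  have h1 := F.fix hv' hu
  rw [F.cmp.step v hv i hi] at h1
  have h2 := F.gr v hv i hi hd
  have h3 : x.1 = 1 := by
    rcases h with h | h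
    · rw [Prod.fst_mul, mul_smul, h1.1] at h
      exact M.eq_one (h2.fst x hx) (dist_ap_mul _ _) h
    · rw [Prod.snd_mul, mul_smul, h1.2] at h
      exact (h2.iff x hx).2 (M'.eq_one (h2.snd x hx) (dist_ap_mul _ _) h)
  rwa [show x = 1 from Prod.ext h3 ((h2.iff x hx).1 h3), one_mul]

theorem fix_iff (M : MH T) (M' : MH T') {g : G × G'} (hg : g ∈ GP T K Γ 1) {w : W}
    (hw : w ∈ WJ 𝐬 K) : g.1 • ap T w = ap T w ↔ g.2 • ap T' (φ w) = ap T' (φ w) :=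
  ⟨fun h => (F.fix hw (F.mem_of_fix M M' hg hw (Or.inl h))).2,
    fun h => (F.fix hw (F.mem_of_fix M M' hg hw (Or.inr h))).1⟩

end Fam

variable (T T' K φ Γ) in
/-- The relation between chambers defined by a family of graphs. -/
def ThR (y : Ch T) (y' : Ch T') : Prop :=
  ∃ g ∈ GP T K Γ 1, ∃ w ∈ WJ 𝐬 K, y = g.1 • ap T w ∧ y' = g.2 • ap T' (φ w)

theorem GP_le_CT : GP T K Γ 1 ≤ CT (ThR T T' K φ Γ) := by
  have key : ∀ g ∈ GP T K Γ 1, ∀ y y', ThR T T' K φ Γ y y' →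
      ThR T T' K φ Γ (g.1 • y) (g.2 • y') := by
    rintro g hg _ _ ⟨u, hu, w, hw, rfl, rfl⟩
    exact ⟨g * u, mul_mem hg hu, w, hw, (mul_smul _ _ _).symm, (mul_smul _ _ _).symm⟩
  intro g hg y y'
  refine ⟨fun h => ?_, key g hg y y'⟩
  simpa using key _ (inv_mem hg) _ _ h

namespace Fam

variable (F : Fam T T' K φ Γ) (M : MH T) (M' : MH T')
include F M M'

theorem eq_iff {y z : Ch T} {y' z' : Ch T'} (hy : ThR T T' K φ Γ y y') (hz : ThR T T' K φ Γ z z') :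
    y = z ↔ y' = z' := by
  obtain ⟨g, hg, w, hw, rfl, rfl⟩ := hy
  obtain ⟨u, hu, v, hv, rfl, rfl⟩ := hz
  have h1 := F.fix_iff M M' (mul_mem (inv_mem hu) hg) hw
  rw [Prod.fst_mul, Prod.snd_mul, mul_smul, mul_smul, Prod.fst_inv, Prod.snd_inv, inv_smul_eq_iff,
    inv_smul_eq_iff] at h1
  refine ⟨fun h => ?_, fun h => ?_⟩
  · have := congrArg (δ (ap T 1)) h
    rw [dist_of_fix (F.fix_one hg).1, dist_of_fix (F.fix_one hu).1, dist_ap_one,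
      dist_ap_one] at this
    subst this
    exact h1.1 h
  · have := congrArg (δ' (ap T' 1)) h
    rw [dist_of_fix (F.fix_one hg).2, dist_of_fix (F.fix_one hu).2, dist_ap_one,
      dist_ap_one] at this
    obtain rfl := F.cmp.inj hw hv this
    exact h1.2 h

theorem adj_up {g : G × G'} (hg : g ∈ GP T K Γ 1) {w : W} (hw : w ∈ WJ 𝐬 K) {i : ι} (hi : i ∈ K)
    (hd : ¬ RD 𝐬 w i) {z : Ch T} {z' : Ch T'} (hz : ThR T T' K φ Γ z z')
    (h : δ (g.1 • ap T w) z = 𝐬 i) : δ' (g.2 • ap T' (φ w)) z' = 𝐬' i := by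
  rw [dist_smul_left] at h
  obtain ⟨x, hx, e⟩ := M.exists_X h
  have h2 := F.gr w hw i hi hd
  obtain ⟨x', hx'⟩ := h2.ex1 x hx
  have h3 : ThR T T' K φ Γ z ((g.2 * x') • ap T' (φ (w * 𝐬 i))) :=
    ⟨g * (x, x'), mul_mem hg (le_GP (inJ_rt hw hi) ((one_mem_rt T.cox).2 hd)
      ((one_mem_rt T.cox).2 hd) hx'), _, mul_mem hw (gen_mem_WJ hi), by
        rw [Prod.fst_mul, mul_smul, e, smul_inv_smul], rfl⟩
  rw [(F.eq_iff M M' hz h3).1 rfl, mul_smul, dist_smul,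
    dist_of_fix ((h2.snd _ hx').1 _ (self_mem_rt T'.cox _ _)), F.cmp.step w hw i hi, dist_ap_mul]

theorem adj {y z : Ch T} {y' z' : Ch T'} (hy : ThR T T' K φ Γ y y') (hz : ThR T T' K φ Γ z z')
    {i : ι} (hi : i ∈ K) (h : δ y z = 𝐬 i) : δ' y' z' = 𝐬' i := by
  have hne : y' ≠ z' := fun e => ne_of_dist_gen h ((F.eq_iff M M' hy hz).2 e)
  have hy0 := hy
  obtain ⟨g, hg, w, hw, rfl, rfl⟩ := hy
  by_cases hd : RD 𝐬 w i
  swap
  · exact F.adj_up M M' hg hw hi hd hz h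
  have hw' := mul_mem hw (gen_mem_WJ (s := 𝐬) hi)
  have hd' : ¬ RD 𝐬 (w * 𝐬 i) i := fun h1 => T.cox.RD_mul_gen.1 h1 hd
  have h1 : δ (g.1 • ap T (w * 𝐬 i)) (g.1 • ap T w) = 𝐬 i := by
    rw [dist_smul]; exact dist_gen_symm (dist_ap_mul _ _)
  have h2 := F.adj_up M M' hg hw' hi hd' hy0 h1
  rcases rs_one.1 ((rs_gen h1).trans (rs_gen h)) with e | e
  · rw [← (F.eq_iff M M' ⟨g, hg, _, hw', rfl, rfl⟩ hz).1 e]
    exact dist_gen_symm h2
  · exact ((rs_gen h2).symm.trans (rs_gen (F.adj_up M M' hg hw' hi hd' hz e))).dist_eq hne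

theorem th : Th T T' K φ (ThR T T' K φ Γ) := by
  have rs : ∀ {y y'}, ThR T T' K φ Γ y y' → Rs T K (ap T 1) y := by
    rintro _ _ ⟨g, hg, w, hw, rfl, rfl⟩
    exact (rs_ap_one hw).smul_of_fix (F.fix_one hg).1
  have tot : ∀ y, Rs T K (ap T 1) y → ∃ y', ThR T T' K φ Γ y y' := fun y hy => by
    obtain ⟨u, hu, e⟩ := M.exists_UU (v := 1) (z := δ (ap T 1) y) (y := y) (by simp)
    obtain ⟨g, hg, rfl⟩ : u ∈ (GP T K Γ 1).map (MonoidHom.fst G G') := by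
      refine (UU_le fun A hA h1 h2 x hx => ?_) hu
      obtain ⟨v, hv, i, hi, rfl⟩ := hA.inJ T.cox h1 hy h2
      obtain ⟨x', hx'⟩ := (F.gr v hv i hi ((one_mem_rt T.cox).1 h1)).ex1 x hx
      exact ⟨_, le_GP (inJ_rt hv hi) h1 h1 hx', rfl⟩
    exact ⟨_, g, hg, _, hy, e.symm, rfl⟩
  refine ⟨F.cmp, tot, fun y' hy => ?_, rs, ?_, ?_, fun w hw => ⟨1, one_mem _, w, hw, by simp, by simp⟩⟩
  · obtain ⟨u, hu, e⟩ := M'.exists_UU (v := 1) (z := δ' (ap T' 1) y') (y := y') (by simp)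
    obtain ⟨g, hg, rfl⟩ : u ∈ (GP T K Γ 1).map (MonoidHom.snd G G') := by
      refine (UU_le fun A hA h1 h2 x hx => ?_) hu
      obtain ⟨v', hv', i, hi, rfl⟩ := hA.inJ T'.cox h1 hy h2
      obtain ⟨v, hv, rfl⟩ := F.cmp.surj hv'
      have hd : ¬ RD 𝐬 v i := fun h => (one_mem_rt T'.cox).1 h1 ((F.cmp.rd hv hi).2 h)
      obtain ⟨x', hx'⟩ := (F.gr v hv i hi hd).ex2 x hx
      have h3 := (one_mem_rt T.cox).2 hd
      exact ⟨_, le_GP (inJ_rt hv hi) h3 h3 hx', rfl⟩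
    obtain ⟨w, hw, e1⟩ := F.cmp.surj hy
    exact ⟨_, g, hg, w, hw, rfl, by rw [e1]; exact e.symm⟩
  · rintro _ _ ⟨g, hg, w, hw, rfl, rfl⟩
    exact (rs_ap_one (F.cmp.mem hw)).smul_of_fix (F.fix_one hg).2
  · intro y y' z z' hy hz
    refine Rs.induction (J := K) (x := y)
      (P := fun z => ∀ z', ThR T T' K φ Γ z z' → δ' y' z' = φ (δ y z)) (fun z' hz => ?_)
      (fun z u j hj h1 h2 h3 ih u' hu => ?_) ((rs hy).symm.trans (rs hz)) z' hz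
    · rw [(F.eq_iff M M' hy hz).1 rfl, dist_self, dist_self, F.cmp.one]
    · obtain ⟨z', hz⟩ := tot z ((rs hy).trans h1)
      rw [dist_right_up h2 h3, F.cmp.step _ h1 j hj, ← ih z' hz]
      refine dist_right_up (F.adj M M' hz hu hj h2) ?_
      rw [ih z' hz, F.cmp.rd h1 hj]; exact h3

end Fam

end Cfsg.Agent.BNP
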