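import Mathlib
import Cfsg.Agent.BNP.CmpB

/-!
Consequences of an isometry of residues; the rank two case.
-/

set_option autoImplicit false
set_option linter.unusedSectionVars false

namespace Cfsg.Agent.BNP

open Cfsg.Agent.Chev Cfsg.Agent.St
open scoped commutatorElement Pointwise

variable {G ι W : Type*} [Group G] [Group W] {T : Tits G ι W} [Finite W]
variable {G' W' : Type*} [Group G'] [Group W'] {T' : Tits G' ι W'} [Finite W']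

set_option hygiene false in
local notation "δ" => BNP.dist T
set_option hygiene false in
local notation "δ'" => BNP.dist T'
set_option hygiene false in
local notation "𝐬" => T.s
set_option hygiene false in
local notation "𝐬'" => T'.s

theorem Graph.eq_of_le {A : Subgroup G} {A' : Subgroup G'} {Γ Δ : Subgroup (G × G')}
    (h : Graph A A' Γ) (h' : Graph A A' Δ) (hle : Γ ≤ Δ) : Γ = Δ := by
  refine le_antisymm hle fun g hg => ?_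
  obtain ⟨y, hy⟩ := h.ex1 _ (h'.fst g hg)
  have := (h'.iff _ (mul_mem (inv_mem (hle hy)) hg)).1 (inv_mul_cancel g.1)
  rw [Prod.snd_mul, Prod.snd_inv, inv_mul_eq_one] at this
  subst this
  exact hy

theorem not_commute_of_three {s : ι → W} (h : Cox s) {a b : ι} (h3 : 3 ≤ orderOf (s a * s b)) :
    s a * s b ≠ s b * s a := fun e => by
  have : (s a * s b) ^ 2 = 1 := by
    rw [sq]; nth_rewrite 2 [e]; rw [mul_assoc, cancel_l h, h.sq]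
  have := orderOf_le_of_pow_eq_one (by omega) this
  omega

theorem commute_of_two {s : ι → W} (h : Cox s) {a b : ι} (h2 : orderOf (s a * s b) = 2) :
    s a * s b = s b * s a := by
  have := av_ord h a b
  rwa [h2, av_two, av_two] at this

variable {K : Set ι} {φ : W → W'} {Θ : Ch T → Ch T' → Prop}

variable (φ Θ) in
/-- The graph induced on a root group. -/
def GR (v : W) (i : ι) : Subgroup (G × G') :=
  CT Θ ⊓ (X T (rt 𝐬 v i)).prod (X T' (rt 𝐬' (φ v) i))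

namespace Th

variable (H : Th T T' K φ Θ)
include H

theorem eq_iff {y z : Ch T} {y' z' : Ch T'} (hy : Θ y y') (hz : Θ z z') : y = z ↔ y' = z' := by
  rw [← dist_eq_one, ← dist_eq_one, H.dist hy hz]
  exact ⟨fun e => by rw [e, H.cmp.one], H.cmp.eq_one ((H.rs hy).symm.trans (H.rs hz))⟩

theorem ap_one : Θ (BNP.ap T 1) (BNP.ap T' 1) := by
  have := H.ap 1 (one_mem _)
  rwa [H.cmp.one] at this

theorem ap_gen {i : ι} (hi : i ∈ K) : Θ (BNP.ap T (𝐬 i)) (BNP.ap T' (𝐬' i)) := by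
  have := H.ap _ (gen_mem_WJ hi)
  rwa [H.cmp.gen hi] at this

theorem mem_CT {g : G × G'} (h1 : g.1 ∈ LJ T K) (h2 : g.2 ∈ LJ T' K) {z x : W}
    (hz : z ∈ WJ 𝐬 K) (hx : x ∈ WJ 𝐬 K) (e1 : Θ (g.1 • BNP.ap T z) (g.2 • BNP.ap T' (φ z)))
    (e2 : Θ (g.1 • BNP.ap T (z * wJ T K)) (g.2 • BNP.ap T' (φ (z * wJ T K))))
    (e3 : ∀ j ∈ K, ∀ y y', Rs T {j} (BNP.ap T x) y → Θ y y' → Θ (g.1 • y) (g.2 • y')) :
    g ∈ CT Θ := by
  classical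
  have h3 : ∀ y, ∃ u, Rs T K (BNP.ap T 1) y → ∃ y', Θ y y' ∧ Θ (g.1 • u) (g.2 • y') := fun y => by
    by_cases hy : Rs T K (BNP.ap T 1) y
    · obtain ⟨y', h⟩ := H.tot y hy
      obtain ⟨u, h'⟩ := H.tot' _ (LJ_rs h2 (H.rs' h))
      exact ⟨g.1⁻¹ • u, fun _ => ⟨y', h, by rwa [smul_inv_smul]⟩⟩
    · exact ⟨y, fun h => absurd h hy⟩
  choose f hf using h3
  have k1 : ∀ y z, Rs T K (BNP.ap T 1) y → Rs T K (BNP.ap T 1) z → δ (f y) (f z) = δ y z := by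
    intro y z hy hz
    obtain ⟨y', a1, a2⟩ := hf y hy
    obtain ⟨z', b1, b2⟩ := hf z hz
    have c1 := H.dist a2 b2
    rw [dist_smul, H.dist a1 b1] at c1
    rw [← dist_smul g.1]
    exact (H.cmp.inj (hy.symm.trans hz) ((H.rs a2).symm.trans (H.rs b2)) c1).symm
  have k2 : ∀ y y', Θ y y' → (f y = y ↔ Θ (g.1 • y) (g.2 • y')) := fun y y' h => by
    obtain ⟨y'', a1, a2⟩ := hf y (H.rs h)
    obtain rfl := (H.eq_iff h a1).1 rfl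
    exact ⟨fun e => by rwa [e] at a2, fun e => MulAction.injective _ ((H.eq_iff a2 e).2 rfl)⟩
  have hz' := mul_mem hz (wJ_mem (T := T) K)
  have k3 : ∀ w ∈ WJ 𝐬 K, f (BNP.ap T w) = BNP.ap T w := fun w hw =>
    eq_ap_of_btw (btw_top T.cox (isTop_wJ K) (mul_mem (inv_mem hz) hw))
      (by rw [← (k2 _ _ (H.ap z hz)).2 e1, k1 _ _ (rs_ap_one hz) (rs_ap_one hw), dist_ap])
      (by rw [← (k2 _ _ (H.ap _ hz')).2 e2, k1 _ _ (rs_ap_one hw) (rs_ap_one hz'), dist_ap])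
  have k4 := rigid (J := K) (c := BNP.ap T x) (φ := f)
    (fun y z hy hz => k1 y z ((rs_ap_one hx).trans hy) ((rs_ap_one hx).trans hz)) (k3 x hx)
    (fun j hj y hy => by
      obtain ⟨y', h⟩ := H.tot y ((rs_ap_one hx).trans (hy.mono (Set.singleton_subset_iff.2 hj)))
      exact (k2 y y' h).2 (e3 j hj y y' hy h))
    (y := BNP.ap T (x * wJ T K)) (by rw [dist_ap_mul]; exact isTop_wJ K)
    (k3 _ (mul_mem hx (wJ_mem K)))
  have k5 : ∀ y y', Θ y y' → Θ (g.1 • y) (g.2 • y') := fun y y' h =>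
    (k2 y y' h).1 (k4 y ((rs_ap_one hx).symm.trans (H.rs h)))
  intro y y'
  refine ⟨fun h => ?_, k5 y y'⟩
  obtain ⟨y'', h'⟩ := H.tot y (by simpa using LJ_rs (inv_mem h1) (H.rs h))
  rwa [MulAction.injective _ ((H.eq_iff h (k5 y y'' h')).1 rfl)]

theorem mv_snd {g : G × G'} (hg : g ∈ CT Θ) (h2 : g.2 ∈ LJ T' K) {w : W} (hw : w ∈ WJ 𝐬 K)
    (h : Mv T g.1 w) : Mv T' g.2 (φ w) := by
  have key : ∀ v ∈ WJ 𝐬 K, g.2 • BNP.ap T' (φ v) = BNP.ap T' (φ w * φ v) := fun v hv => by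
    rw [← H.cmp.mul hw hv]
    exact (H.eq_iff ((hg _ _).2 (H.ap v hv)) (H.ap _ (mul_mem hw hv))).1 (h v)
  refine mv_of_LJ h2 (H.cmp.mem hw) (one_mem _) ?_ ?_
  · simpa [H.cmp.one] using key 1 (one_mem _)
  · rw [one_mul, ← T'.cox.isTop_unique (H.cmp.isTop (isTop_wJ K)) (isTop_wJ K)]
    exact key _ (wJ_mem K)

theorem mem_CT_of_X {v : W} (hv : v ∈ WJ 𝐬 K) {i j : ι} (hi : i ∈ K) (hj : j ∈ K)
    (hc : 𝐬 i * 𝐬 j ≠ 𝐬 j * 𝐬 i) {x : G} {x' : G'} (hx : x ∈ X T (rt 𝐬 v i))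
    (hx' : x' ∈ X T' (rt 𝐬' (φ v) i))
    (h : Θ (x • BNP.ap T (v * 𝐬 i)) (x' • BNP.ap T' (φ (v * 𝐬 i)))) : (x, x') ∈ CT Θ := by
  have hm : ∀ {u}, u ∈ WJ 𝐬 K → ∀ {k}, k ∈ K → u * 𝐬 k ∈ WJ 𝐬 K := fun hu _ hk =>
    mul_mem hu (gen_mem_WJ hk)
  have h1 : v * 𝐬 i * wJ T K ∈ rt 𝐬 v i :=
    ((inJ_rt hv hi).mul_top_mem T.cox (isTop_wJ K) (hm hv hi)).2 (mul_gen_notMem_rt T.cox v i)
  have h1' := mul_mem (hm hv hi) (wJ_mem (T := T) K)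
  have h2 : v * 𝐬 j ∈ rt 𝐬 v i := mul_gen_mem_rt T.cox (by rintro rfl; exact hc rfl)
  refine H.mem_CT (X_le_LJ (inJ_rt hv hi) hx) (X_le_LJ (inJ_rt (H.cmp.mem hv) hi) hx') (hm hv hi)
    (hm hv hj) h ?_ fun k hk y y' hy e => ?_
  · change Θ (x • _) (x' • _)
    rw [hx.1 _ h1, hx'.1 _ ((H.cmp.mem_rt hv h1' hi).2 h1)]
    exact H.ap _ h1'
  · have h3 : v * 𝐬 j * 𝐬 k ∈ rt 𝐬 v i := by
      have := gen_mul_gen_mem_rt T.cox hc k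
      rwa [← mul_mem_tr (w := v), tr_rt, mul_one, ← mul_assoc] at this
    change Θ (x • _) (x' • _)
    rw [mem_Kr.1 (hx.2 _ h2 k h3) y hy, mem_Kr.1 (hx'.2 _ ((H.cmp.mem_rt hv (hm hv hj) hi).2 h2) k (by
      rw [← H.cmp.step _ (hm hv hj) k hk]
      exact (H.cmp.mem_rt hv (hm (hm hv hj) hk) hi).2 h3)) y' (by
      rw [Rs, H.dist (H.ap _ (hm hv hj)) e]
      exact (H.cmp.mono (Set.singleton_subset_iff.2 hk)).mem hy)]
    exact e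

theorem graph (M : MH T) (M' : MH T') {v : W} (hv : v ∈ WJ 𝐬 K) {i j : ι} (hi : i ∈ K)
    (hj : j ∈ K) (hc : 𝐬 i * 𝐬 j ≠ 𝐬 j * 𝐬 i) :
    Graph (X T (rt 𝐬 v i)) (X T' (rt 𝐬' (φ v) i)) (GR φ Θ v i) := by
  have hv' := mul_mem hv (gen_mem_WJ (s := 𝐬) hi)
  have h0 := H.ap _ hv'
  refine ⟨fun g hg => hg.2.1, fun g hg => hg.2.2, fun g hg => ?_, fun x hx => ?_, fun x' hx' => ?_⟩
  · have h1 := H.eq_iff ((hg.1 _ _).2 h0) h0
    rw [H.cmp.step v hv i hi] at h1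
    exact ⟨fun e => M'.eq_one hg.2.2 (dist_ap_mul _ _) (h1.1 (by rw [e, one_smul])),
      fun e => M.eq_one hg.2.1 (dist_ap_mul _ _) (h1.2 (by rw [e, one_smul]))⟩
  · obtain ⟨y', h1⟩ := H.tot _ (LJ_rs (X_le_LJ (inJ_rt hv hi) hx) (rs_ap_one hv'))
    have h2 := H.dist (H.ap v hv) h1
    rw [dist_of_fix (hx.1 _ (self_mem_rt T.cox v i)), dist_ap_mul, H.cmp.gen hi] at h2
    obtain ⟨x', hx', e⟩ := M'.exists_X h2
    exact ⟨x', H.mem_CT_of_X hv hi hj hc hx hx' (by rwa [H.cmp.step v hv i hi, e]), hx, hx'⟩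
  · obtain ⟨y, h1⟩ := H.tot' _ (LJ_rs (X_le_LJ (inJ_rt (H.cmp.mem hv) hi) hx')
      (rs_ap_one (H.cmp.mem hv')))
    have h2 := H.dist (H.ap v hv) h1
    rw [dist_of_fix (hx'.1 _ (self_mem_rt T'.cox _ i)), H.cmp.step v hv i hi, dist_ap_mul,
      ← H.cmp.gen hi] at h2
    obtain ⟨x, hx, e⟩ := M.exists_X (H.cmp.inj ((rs_ap_one hv).symm.trans (H.rs h1))
      (gen_mem_WJ hi) h2.symm)
    exact ⟨x, H.mem_CT_of_X hv hi hj hc hx hx' (by rwa [e]), hx, hx'⟩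

theorem GR_congr {v w : W} (hv : v ∈ WJ 𝐬 K) (hw : w ∈ WJ 𝐬 K) {i j : ι} (hi : i ∈ K)
    (hj : j ∈ K) (e : rt 𝐬 v i = rt 𝐬 w j) : GR φ Θ v i = GR φ Θ w j := by
  rw [GR, GR, e, H.cmp.rt_eq hv hw hi hj e]

theorem conj_GR {n : G × G'} (hn : n ∈ CT Θ) {w v : W} (hw : w ∈ WJ 𝐬 K) (hv : v ∈ WJ 𝐬 K)
    (h1 : Mv T n.1 w) (h2 : Mv T' n.2 (φ w)) {i : ι} {g : G × G'} (hg : g ∈ GR φ Θ v i) :
    n * g * n⁻¹ ∈ GR φ Θ (w * v) i :=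
  ⟨(CT Θ).mul_mem ((CT Θ).mul_mem hn hg.1) ((CT Θ).inv_mem hn), by rw [← tr_rt]; exact h1.conj_mem_X hg.2.1, by
    rw [H.cmp.mul hw hv, ← tr_rt]; exact h2.conj_mem_X hg.2.2⟩

theorem mem_CT_of_mv (M : MH T) {h : G × G'} (h1 : Mv T h.1 1) (h2 : Mv T' h.2 1)
    {Γ : ι → Subgroup (G × G')}
    (hΓ : ∀ j ∈ K, Graph (X T (rt 𝐬 1 j)) (X T' (rt 𝐬' 1 j)) (Γ j)) (hle : ∀ j ∈ K, Γ j ≤ CT Θ)
    (hn : ∀ j ∈ K, ∀ x ∈ Γ j, h * x * h⁻¹ ∈ Γ j) : h ∈ CT Θ := by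
  refine H.mem_CT (h1.mem_LJ (one_mem _)) (h2.mem_LJ (one_mem _)) (one_mem _) (one_mem _) ?_ ?_
    fun j hj y y' hy e => ?_
  · rw [h1.fix, h2.fix]; exact H.ap _ (one_mem _)
  · rw [h1.fix, h2.fix]; exact H.ap _ (mul_mem (one_mem _) (wJ_mem K))
  rcases rs_one.1 hy with rfl | hy
  · rw [(H.eq_iff e H.ap_one).1 rfl, h1.fix, h2.fix]; exact H.ap_one
  obtain ⟨u, hu, rfl⟩ := M.exists_X hy
  obtain ⟨u', hu'⟩ := (hΓ j hj).ex1 u hu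
  rw [one_mul] at e ⊢
  rw [(H.eq_iff e ((hle j hj hu' _ _).2 (H.ap_gen hj))).1 rfl]
  have := (hle j hj (hn j hj _ hu') _ _).2 (H.ap_gen hj)
  simp only [Prod.fst_mul, Prod.snd_mul, Prod.fst_inv, Prod.snd_inv, mul_smul] at this
  rwa [inv_smul_eq_iff.2 (h1.fix _).symm, inv_smul_eq_iff.2 (h2.fix _).symm] at this

theorem graph_neg (M : MH T) (M' : MH T') {i j : ι} (hi : i ∈ K) (hj : j ∈ K)
    (hc : 𝐬 i * 𝐬 j ≠ 𝐬 j * 𝐬 i) :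
    Graph (X T (rt 𝐬 1 i)ᶜ) (X T' (rt 𝐬' 1 i)ᶜ) (GR φ Θ (𝐬 i) i) := by
  have := H.graph M M' (gen_mem_WJ hi) hi hj hc
  rwa [H.cmp.gen hi, rt_gen_self, rt_gen_self] at this

theorem rk1_iff {i : ι} (hi : i ∈ K) {x y : G × G'} (hx : x ∈ CT Θ) (hy : y ∈ CT Θ) :
    x.1 • BNP.ap T 1 = y.1 • BNP.ap T (𝐬 i) ↔ x.2 • BNP.ap T' 1 = y.2 • BNP.ap T' (𝐬' i) :=
  H.eq_iff ((hx _ _).2 H.ap_one) ((hy _ _).2 (H.ap_gen hi))

end Th

theorem comm_mem_GP {a b : ι} {u v : W} {i : ι} {k r : ℕ} (hk : k < orderOf (𝐬 a * 𝐬 b))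
    (hr : r < orderOf (𝐬 a * 𝐬 b)) (hd : ¬ RD 𝐬 v i) (e : rt 𝐬 v i = tr u (bt 𝐬 a b k))
    (h1 : 1 ∈ tr u (bt 𝐬 a b r)) (h2 : v * 𝐬 i ∈ tr u (bt 𝐬 a b r)) {l : ℕ}
    (hl : (k < l ∧ l < r) ∨ (r < l ∧ l < k)) :
    1 ∈ tr u (bt 𝐬 a b l) ∧ v * 𝐬 i ∈ tr u (bt 𝐬 a b l) := by
  have key : ∀ x, x ∈ rt 𝐬 v i → x ∈ tr u (bt 𝐬 a b r) → x ∈ tr u (bt 𝐬 a b l) := by
    intro x h3 h4
    rw [e] at h3
    rcases hl with hl | hl
    · exact bt_interval T.cox hl.1.le hl.2.le hr h3 h4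
    · exact bt_interval T.cox hl.1.le hl.2.le hk h4 h3
  refine ⟨key 1 ((one_mem_rt T.cox).2 hd) h1, by_contra fun h3 => ?_⟩
  have h4 := ((isRt_bt a b l).tr u).eq_of_cross T.cox (key v (self_mem_rt T.cox v i)
    (((isRt_bt a b r).tr u).convex T.cox (btw_gen T.cox hd) h1 h2)) h3
  have := bt_inj T.cox (by omega) hk (tr_injective u (h4.trans e))
  omega

theorem Loc.exists_th (M : MH T) (M' : MH T') {a b : ι} (c : Cmp 𝐬 𝐬' {a, b} φ)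
    {Γ : ℕ → Subgroup (G × G')} (L : Loc T T' a b Γ) :
    ∃ Θ, Th T T' {a, b} φ Θ ∧ ∀ l < orderOf (𝐬 a * 𝐬 b), Γ l ≤ CT Θ := by
  let Δ : Set W → Subgroup (G × G') := fun A =>
    ⨆ (l : ℕ) (_ : l < orderOf (𝐬 a * 𝐬 b) ∧ A = bt 𝐬 a b l), Γ l
  have hΔ : ∀ l < orderOf (𝐬 a * 𝐬 b), Δ (bt 𝐬 a b l) = Γ l := fun l hl =>
    le_antisymm (iSup₂_le fun k hk => by rw [bt_inj T.cox hl hk.1 hk.2])
      (le_iSup₂_of_le (f := fun k (_ : k < orderOf (𝐬 a * 𝐬 b) ∧ bt 𝐬 a b l = bt 𝐬 a b k) => Γ k)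
        l ⟨hl, rfl⟩ le_rfl)
  have F : Fam T T' {a, b} φ Δ := ⟨c, fun v hv i hi hd => ?_, fun v hv i hi hd x hx B hB h1 h2 y hy => ?_⟩
  · refine ⟨_, F.th M M', fun l hl => le_trans ?_ GP_le_CT⟩
    rw [← hΔ l hl]
    exact le_GP (inJ_bt a b l) (one_mem_bt T.cox hl) (one_mem_bt T.cox hl)
  · obtain ⟨l, hl, e⟩ := (inJ_rt hv hi).eq_bt T.cox ((one_mem_rt T.cox).2 hd)
    rw [c.rt_eq hv (av_mem a b l) hi (lt_mem a b l) e, c.av (by simp) (by simp), e, hΔ l hl]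
    exact L.gr l hl
  · obtain ⟨k, hk, e⟩ := (inJ_rt hv hi).eq_bt T.cox ((one_mem_rt T.cox).2 hd)
    obtain ⟨r, hr, rfl⟩ := hB.eq_bt T.cox h1
    rw [e, hΔ k hk] at hx
    rw [hΔ r hr] at hy
    have key : ∀ l, (k < l ∧ l < r) ∨ (r < l ∧ l < k) → Γ l ≤ GP T {a, b} Δ (v * 𝐬 i) := by
      intro l hl
      have := comm_mem_GP (u := 1) hk hr hd (by rwa [tr_one]) (by rwa [tr_one]) (by rwa [tr_one]) hl
      rw [tr_one] at this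
      rw [← hΔ l (by omega)]
      exact le_GP (inJ_bt a b l) this.1 this.2
    rcases lt_trichotomy k r with h | rfl | h
    · exact (iSup₂_le fun l hl => key l (Or.inl hl) : _ ≤ GP T {a, b} Δ (v * 𝐬 i))
        (L.cm k r h hr x hx y hy)
    · exact absurd (e ▸ h2) (mul_gen_notMem_rt T.cox v i)
    · rw [← commutatorElement_inv]
      exact inv_mem ((iSup₂_le fun l hl => key l (Or.inr hl) : _ ≤ GP T {a, b} Δ (v * 𝐬 i))
        (L.cm r k h hk y hy x hx))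

end Cfsg.Agent.BNP
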