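import Mathlib
import Cfsg.Agent.BNP.CmpC

/-!
Local comparison data: rank one compatibility and the lifts of the simple reflections.
-/

set_option autoImplicit false
set_option linter.unusedSectionVars false

namespace Cfsg.Agent.BNP

open Cfsg.Agent.Chev Cfsg.Agent.St
open scoped commutatorElement Pointwise

variable {G ι W : Type*} [Group G] [Group W] {T : Tits G ι W} [Finite W]
variable {G' W' : Type*} [Group G'] [Group W'] {T' : Tits G' ι W'} [Finite W']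

set_option hygiene false in
local notation "δ" => BNP.dist T
set_option hygiene false in
local notation "δ'" => BNP.dist T'
set_option hygiene false in
local notation "𝐬" => T.s
set_option hygiene false in
local notation "𝐬'" => T'.s

theorem ord_eq_two {s : ι → W} (h : Cox s) {a b : ι} (hab : a ≠ b) (hc : s a * s b = s b * s a) :
    orderOf (s a * s b) = 2 := by
  have h1 := two_le_ord h hab
  by_contra h2
  exact not_commute_of_three h (by omega) hc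

theorem MH.commute_LL (M : MH T) {a b : ι} (hab : a ≠ b) (hc : 𝐬 a * 𝐬 b = 𝐬 b * 𝐬 a) {x y : G}
    (hx : x ∈ X T (rt 𝐬 1 a) ⊔ X T (rt 𝐬 1 a)ᶜ) (hy : y ∈ X T (rt 𝐬 1 b) ⊔ X T (rt 𝐬 1 b)ᶜ) :
    Commute x y := by
  have key : ∀ a b : ι, a ≠ b → 𝐬 a * 𝐬 b = 𝐬 b * 𝐬 a → bt 𝐬 a b 1 = rt 𝐬 1 b ∧
      bt 𝐬 a b 2 = (rt 𝐬 1 a)ᶜ := fun a b hab hc => by
    have h1 := bt_last (T := T) a b
    have h2 := bt_ord (T := T) a b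
    rw [ord_eq_two T.cox hab hc] at h1 h2
    exact ⟨h1, h2⟩
  obtain ⟨a1, a2⟩ := key a b hab hc
  obtain ⟨b1, b2⟩ := key b a hab.symm hc.symm
  have a3 : bt 𝐬 a b 3 = (rt 𝐬 1 b)ᶜ := by
    rw [bt_succ, b2, tr_compl, tr_rt, mul_one, ← bt_one, a1]
  refine Subgroup.mem_centralizer_singleton_iff.1 ((sup_le (fun x hx => ?_) (fun x hx => ?_) :
    _ ≤ Subgroup.centralizer {y}) hx) <;>
  refine Subgroup.mem_centralizer_singleton_iff.2 (Eq.symm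
    (Subgroup.mem_centralizer_singleton_iff.1 ((sup_le (fun y hy => ?_) (fun y hy => ?_) :
      _ ≤ Subgroup.centralizer {x}) hy))) <;> rw [Subgroup.mem_centralizer_singleton_iff]
  · exact (M.commute_bt hab (k := 0) hx (by rwa [a1])).symm.eq
  · exact (M.commute_bt hab.symm (k := 1) (by rwa [b1]) (by rwa [b2])).symm.eq
  · exact (M.commute_bt hab (k := 1) (by rwa [a1]) (by rwa [a2])).eq
  · exact (M.commute_bt hab (k := 2) (by rwa [a2]) (by rwa [a3])).symm.eq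

theorem LocP.symm {a b : ι} (h' : orderOf (𝐬' a * 𝐬' b) = orderOf (𝐬 a * 𝐬 b))
    {A B : Subgroup (G × G')} (H : LocP T T' b a B A) : LocP T T' a b A B := by
  obtain ⟨Γ, L, rfl, rfl⟩ := H
  have e := ord_comm T.cox a b
  refine ⟨fun k => Γ (orderOf (𝐬 a * 𝐬 b) - 1 - k), ⟨fun k hk => ?_, fun k r h1 h2 x hx y hy => ?_⟩,
    by rw [e]; rfl, by simp⟩
  · have := L.gr (orderOf (𝐬 a * 𝐬 b) - 1 - k) (by omega)
    rwa [bt_symm T.cox (l := k) (by omega), bt_symm T'.cox (l := k) (by omega)] at this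
  · rw [← commutatorElement_inv]
    refine inv_mem (SetLike.le_def.1 (iSup₂_le fun l hl => ?_)
      (L.cm _ _ (by omega) (by omega) y hy x hx))
    exact le_iSup₂_of_le (f := fun l (_ : k < l ∧ l < r) => Γ (orderOf (𝐬 a * 𝐬 b) - 1 - l))
      (orderOf (𝐬 a * 𝐬 b) - 1 - l) ⟨by omega, by omega⟩ (le_of_eq (by congr 1; omega))

theorem LocP.graph {a b : ι} {A B : Subgroup (G × G')} (H : LocP T T' a b A B) :
    Graph (X T (rt 𝐬 1 a)) (X T' (rt 𝐬' 1 a)) A := by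
  obtain ⟨Γ, L, rfl, rfl⟩ := H
  exact L.gr 0 (ord_pos T.cox a b)

theorem rk1_unique (M : MH T) (M' : MH T') {i : ι} {A B C : Subgroup (G × G')}
    (hA : Graph (X T (rt 𝐬 1 i)) (X T' (rt 𝐬' 1 i)) A)
    (hB : Graph (X T (rt 𝐬 1 i)ᶜ) (X T' (rt 𝐬' 1 i)ᶜ) B)
    (hC : Graph (X T (rt 𝐬 1 i)ᶜ) (X T' (rt 𝐬' 1 i)ᶜ) C)
    (h1 : ∀ x ∈ B, ∀ y ∈ A, x.1 • ap T 1 = y.1 • ap T (𝐬 i) → x.2 • ap T' 1 = y.2 • ap T' (𝐬' i))
    (h2 : ∀ x ∈ C, ∀ y ∈ A, x.1 • ap T 1 = y.1 • ap T (𝐬 i) → x.2 • ap T' 1 = y.2 • ap T' (𝐬' i)) :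
    B ≤ C := fun x hx => by
  by_cases h : x.1 = 1
  · rw [show x = 1 from Prod.ext h ((hB.iff x hx).1 h)]; exact one_mem _
  have h3 := hB.fst x hx
  obtain ⟨x', hx'⟩ := hC.ex1 _ h3
  have h4 : δ (ap T (𝐬 i)) (ap T 1) = 𝐬 i := dist_gen_symm (dist_ap_one _)
  have h5 : δ (ap T 1) (x.1 • ap T 1) = 𝐬 i :=
    ((rs_gen h4).symm.trans ((rs_gen h4).smul_of_fix (h3.1 _ (gen_mem_compl i)))).dist_eq
      fun e => h (M.eq_one (by rwa [rt_gen_self]) h4 e.symm)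
  obtain ⟨u, hu, e⟩ := M.exists_X h5
  obtain ⟨u', hu'⟩ := hA.ex1 u hu
  rw [one_mul] at e
  have h6 : x.2 = x' := M'.eq_of_smul_eq (x := 𝐬' i) (i := i)
    (by rw [rt_gen_self]; exact hB.snd x hx) (by rw [rt_gen_self]; exact hC.snd _ hx')
    (dist_gen_symm (dist_ap_one _)) ((h1 x hx _ hu' e.symm).trans (h2 _ hx' _ hu' e.symm).symm)
  subst h6
  exact hx'

variable {φ : W → W'}

theorem Th.eq_GR {K : Set ι} {Θ : Ch T → Ch T' → Prop} (H : Th T T' K φ Θ) (M : MH T) (M' : MH T')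
    {v : W} (hv : v ∈ WJ 𝐬 K) {i j : ι} (hi : i ∈ K) (hj : j ∈ K) (hc : 𝐬 i * 𝐬 j ≠ 𝐬 j * 𝐬 i)
    {A : Subgroup (G × G')} (hA : Graph (X T (rt 𝐬 v i)) (X T' (rt 𝐬' (φ v) i)) A)
    (hle : A ≤ CT Θ) : A = GR φ Θ v i :=
  hA.eq_of_le (H.graph M M' hv hi hj hc) fun g hg => ⟨hle hg, hA.fst g hg, hA.snd g hg⟩

theorem Th.rk1 {K : Set ι} {Θ : Ch T → Ch T' → Prop} (H : Th T T' K φ Θ) (M : MH T) (M' : MH T')
    {i j : ι} (hi : i ∈ K) (hj : j ∈ K) (hc : 𝐬 i * 𝐬 j ≠ 𝐬 j * 𝐬 i) {A : Subgroup (G × G')}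
    (hle : A ≤ CT Θ) : Rk1 T T' i A :=
  ⟨_, H.graph_neg M M' hi hj hc, fun _ hx _ hy => H.rk1_iff hi hx.1 (hle hy)⟩

theorem LocP.exists_th (M : MH T) (M' : MH T') {a b : ι} (c : Cmp 𝐬 𝐬' {a, b} φ)
    (hc : 𝐬 a * 𝐬 b ≠ 𝐬 b * 𝐬 a) {A B : Subgroup (G × G')} (H : LocP T T' a b A B) :
    ∃ Θ, Th T T' {a, b} φ Θ ∧ A ≤ CT Θ ∧ B ≤ CT Θ ∧ ∀ r, 0 < r → r < orderOf (𝐬 a * 𝐬 b) →
      ∀ x ∈ A, ∀ y ∈ GR φ Θ (av 𝐬 a b r) (lt a b r),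
        ⁅x, y⁆ ∈ ⨆ (l : ℕ) (_ : 0 < l ∧ l < r), GR φ Θ (av 𝐬 a b l) (lt a b l) := by
  obtain ⟨Γ, L, rfl, rfl⟩ := H
  obtain ⟨Θ, H, hle⟩ := L.exists_th M M' c
  have h0 := ord_pos T.cox a b
  have key : ∀ l < orderOf (𝐬 a * 𝐬 b), Γ l = GR φ Θ (av 𝐬 a b l) (lt a b l) := fun l hl => by
    refine H.eq_GR M M' (av_mem a b l) (lt_mem a b l) (j := lt b a l)
      (by rw [Set.pair_comm]; exact lt_mem b a l) ?_ ?_ (hle l hl)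
    · rcases lt_cases a b l with ⟨h1, h2⟩ | ⟨h1, h2⟩ <;> rw [h1, h2]
      exacts [hc, hc.symm]
    · rw [c.av (by simp) (by simp)]; exact L.gr l hl
  refine ⟨Θ, H, hle 0 h0, hle _ (by omega), fun r h1 h2 x hx y hy => ?_⟩
  rw [← key r h2] at hy
  exact SetLike.le_def.1 (iSup₂_mono fun l hl => (key l (by omega)).le) (L.cm 0 r h1 h2 x hx y hy)

variable (T T' φ) in
/-- Global comparison data. -/
structure Glb (Γ Δ : ι → Subgroup (G × G')) (m : ι → G × G') : Prop where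
  M : MH T
  M' : MH T'
  cmp : Cmp 𝐬 𝐬' Set.univ φ
  gr : ∀ i, Graph (X T (rt 𝐬 1 i)) (X T' (rt 𝐬' 1 i)) (Γ i)
  grn : ∀ i, Graph (X T (rt 𝐬 1 i)ᶜ) (X T' (rt 𝐬' 1 i)ᶜ) (Δ i)
  mem : ∀ i, m i ∈ Γ i ⊔ Δ i
  mv : ∀ i, Mv T (m i).1 (𝐬 i)
  mv' : ∀ i, Mv T' (m i).2 (𝐬' i)
  loc : ∀ a b, 𝐬 a * 𝐬 b ≠ 𝐬 b * 𝐬 a → ∃ Θ, Th T T' {a, b} φ Θ ∧
    (∀ i ∈ ({a, b} : Set ι), Γ i = GR φ Θ 1 i ∧ Δ i = GR φ Θ (𝐬 i) i) ∧
    ∀ r, 0 < r → r < orderOf (𝐬 a * 𝐬 b) → ∀ x ∈ Γ a, ∀ y ∈ GR φ Θ (av 𝐬 a b r) (lt a b r),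
      ⁅x, y⁆ ∈ ⨆ (l : ℕ) (_ : 0 < l ∧ l < r), GR φ Θ (av 𝐬 a b l) (lt a b l)

theorem exists_glb (M : MH T) (M' : MH T') (c : Cmp 𝐬 𝐬' Set.univ φ) (Γ : ι → Subgroup (G × G'))
    (H : ∀ a b, a ≠ b → LocP T T' a b (Γ a) (Γ b)) : ∃ Δ m, Glb T T' φ Γ Δ m := by
  have hne : ∀ {a b}, 𝐬 a * 𝐬 b ≠ 𝐬 b * 𝐬 a → a ≠ b := by rintro a _ h rfl; exact h rfl
  have gr : ∀ i, Graph (X T (rt 𝐬 1 i)) (X T' (rt 𝐬' 1 i)) (Γ i) := fun i =>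
    (H i _ (hne (M.nb i).choose_spec)).graph
  have h0 := fun a b (hc : 𝐬 a * 𝐬 b ≠ 𝐬 b * 𝐬 a) =>
    (H a b (hne hc)).exists_th M M' (c.mono (Set.subset_univ _)) hc
  have h1 : ∀ i, Rk1 T T' i (Γ i) := fun i => by
    obtain ⟨j, hj⟩ := M.nb i
    obtain ⟨Θ, H, h1, -⟩ := h0 i j hj
    exact H.rk1 M M' (by simp) (by simp) hj h1
  choose Δ grn hΔ using h1
  have loc : ∀ a b, 𝐬 a * 𝐬 b ≠ 𝐬 b * 𝐬 a → ∃ Θ, Th T T' {a, b} φ Θ ∧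
      (∀ i ∈ ({a, b} : Set ι), Γ i = GR φ Θ 1 i ∧ Δ i = GR φ Θ (𝐬 i) i) ∧
      ∀ r, 0 < r → r < orderOf (𝐬 a * 𝐬 b) → ∀ x ∈ Γ a, ∀ y ∈ GR φ Θ (av 𝐬 a b r) (lt a b r),
        ⁅x, y⁆ ∈ ⨆ (l : ℕ) (_ : 0 < l ∧ l < r), GR φ Θ (av 𝐬 a b l) (lt a b l) := by
    intro a b hc
    obtain ⟨Θ, H, h1, h2, h3⟩ := h0 a b hc
    have key : ∀ i ∈ ({a, b} : Set ι), ∀ j ∈ ({a, b} : Set ι), 𝐬 i * 𝐬 j ≠ 𝐬 j * 𝐬 i →
        Γ i ≤ CT Θ → Γ i = GR φ Θ 1 i ∧ Δ i = GR φ Θ (𝐬 i) i := fun i hi j hj hc hle =>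
      ⟨H.eq_GR M M' (one_mem _) hi hj hc (by rw [c.one]; exact gr i) hle,
        (grn i).eq_of_le (H.graph_neg M M' hi hj hc) (rk1_unique M M' (gr i) (grn i)
          (H.graph_neg M M' hi hj hc) (fun x hx y hy => (hΔ i x hx y hy).1)
          (fun x hx y hy => (H.rk1_iff hi hx.1 (hle hy)).1))⟩
    refine ⟨Θ, H, ?_, h3⟩
    rintro i (rfl | rfl)
    · exact key i (by simp) b (by simp) hc h1
    · exact key i (by simp) a (by simp) hc.symm h2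
  have h2 : ∀ i, ∃ m ∈ Γ i ⊔ Δ i, Mv T m.1 (𝐬 i) ∧ Mv T' m.2 (𝐬' i) := fun i => by
    obtain ⟨j, hj⟩ := M.nb i
    obtain ⟨Θ, H, h1, -⟩ := loc i j hj
    obtain ⟨u, hu, h2⟩ := M.exists_ne_one (isRt_rt (s := 𝐬) 1 i)
    obtain ⟨k, hk, l, hl, h3⟩ := M.exists_m hu h2
    obtain ⟨u', hu'⟩ := (gr i).ex1 u hu
    obtain ⟨k', hk'⟩ := (grn i).ex1 k hk
    obtain ⟨l', hl'⟩ := (grn i).ex1 l hl
    have hi : i ∈ ({i, j} : Set ι) := by simp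
    have hm : (k, k') * (u, u') * (l, l') ∈ Γ i ⊔ Δ i :=
      mul_mem (mul_mem (Subgroup.mem_sup_right hk') (Subgroup.mem_sup_left hu'))
        (Subgroup.mem_sup_right hl')
    have h4 : InJ 𝐬' {i, j} (rt 𝐬' 1 i) := inJ_rt (one_mem _) hi
    refine ⟨_, hm, h3, ?_⟩
    rw [← H.cmp.gen hi]
    refine H.mv_snd ((sup_le ?_ ?_ : _ ≤ CT Θ) hm) ?_ (gen_mem_WJ hi) h3
    · rw [(h1 i hi).1]; exact inf_le_left
    · rw [(h1 i hi).2]; exact inf_le_left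
    · exact mul_mem (mul_mem (X_le_LJ (h4.compl T'.cox) ((grn i).snd _ hk'))
        (X_le_LJ h4 ((gr i).snd _ hu'))) (X_le_LJ (h4.compl T'.cox) ((grn i).snd _ hl'))
  choose m mem mv mv' using h2
  exact ⟨Δ, m, M, M', c, gr, grn, mem, mv, mv', loc⟩

end Cfsg.Agent.BNP
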