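import Mathlib
import Cfsg.Agent.BNP.CmpD

/-!
The lift of the Weyl group to pairs and the global family of graphs.
-/

set_option autoImplicit false
set_option linter.unusedSectionVars false

namespace Cfsg.Agent.BNP

open Cfsg.Agent.Chev Cfsg.Agent.St
open scoped commutatorElement Pointwise

variable {G ι W : Type*} [Group G] [Group W] {T : Tits G ι W} [Finite W]
variable {G' W' : Type*} [Group G'] [Group W'] {T' : Tits G' ι W'} [Finite W']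

set_option hygiene false in
local notation "𝐬" => T.s
set_option hygiene false in
local notation "𝐬'" => T'.s

variable (T T') in
/-- Pairs fixing the apartments and normalising the simple graphs. -/
def HH (Γ : ι → Subgroup (G × G')) : Subgroup (G × G') :=
  (Fx T Set.univ).prod (Fx T' Set.univ) ⊓ ⨅ j, Subgroup.normalizer (Γ j : Set (G × G'))

variable {φ : W → W'} {Γ Δ : ι → Subgroup (G × G')} {m : ι → G × G'}

theorem mem_HH {h : G × G'} : h ∈ HH T T' Γ ↔ Mv T h.1 1 ∧ Mv T' h.2 1 ∧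
    ∀ j g, g ∈ Γ j ↔ h * g * h⁻¹ ∈ Γ j := by
  rw [HH, Subgroup.mem_inf, Subgroup.mem_prod, Subgroup.mem_iInf, and_assoc]
  exact and_congr ⟨fun h => mv_one_of fun v => h v trivial, fun h => h.mem_Fx _⟩
    (and_congr ⟨fun h => mv_one_of fun v => h v trivial, fun h => h.mem_Fx _⟩ Iff.rfl)

theorem Th.conj_GR_iff {K : Set ι} {Θ : Ch T → Ch T' → Prop} (H : Th T T' K φ Θ) {n : G × G'}
    (hn : n ∈ CT Θ) {w v : W} (hw : w ∈ WJ 𝐬 K) (hv : v ∈ WJ 𝐬 K) (h1 : Mv T n.1 w)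
    (h2 : Mv T' n.2 (φ w)) {i : ι} {g : G × G'} :
    g ∈ GR φ Θ v i ↔ n * g * n⁻¹ ∈ GR φ Θ (w * v) i := by
  refine ⟨H.conj_GR hn hw hv h1 h2, fun h => ?_⟩
  have := H.conj_GR (inv_mem hn) (inv_mem hw) (mul_mem hw hv) h1.inv
    (by rw [H.cmp.inv hw]; exact h2.inv) h
  simpa [mul_assoc] using this

theorem mv_av {f : ι → G} (h : ∀ i, Mv T (f i) (𝐬 i)) (a b : ι) (k : ℕ) :
    Mv T (av f a b k) (av 𝐬 a b k) := by
  induction k with
  | zero => exact Mv.one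
  | succ k ih => rw [av_succ', av_succ']; exact ih.mul (h _)

theorem av_fst (a b : ι) (k : ℕ) : (av m a b k).1 = av (fun i => (m i).1) a b k :=
  map_wprod m (MonoidHom.fst G G') _

theorem av_snd (a b : ι) (k : ℕ) : (av m a b k).2 = av (fun i => (m i).2) a b k :=
  map_wprod m (MonoidHom.snd G G') _

namespace Glb

variable (L : Glb T T' φ Γ Δ m)
include L

theorem commute {a b : ι} (hab : a ≠ b) (hc : 𝐬 a * 𝐬 b = 𝐬 b * 𝐬 a) {x y : G × G'}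
    (hx : x ∈ Γ a ⊔ Δ a) (hy : y ∈ Γ b ⊔ Δ b) : Commute x y := by
  have key : ∀ a, Γ a ⊔ Δ a ≤ (X T (rt 𝐬 1 a) ⊔ X T (rt 𝐬 1 a)ᶜ).prod
      (X T' (rt 𝐬' 1 a) ⊔ X T' (rt 𝐬' 1 a)ᶜ) := fun a =>
    sup_le (fun g hg => ⟨Subgroup.mem_sup_left ((L.gr a).fst g hg),
      Subgroup.mem_sup_left ((L.gr a).snd g hg)⟩)
      (fun g hg => ⟨Subgroup.mem_sup_right ((L.grn a).fst g hg),
        Subgroup.mem_sup_right ((L.grn a).snd g hg)⟩)
  have hc' : 𝐬' a * 𝐬' b = 𝐬' b * 𝐬' a := by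
    rw [← L.cmp.gen (Set.mem_univ a), ← L.cmp.step _ (mem_WJ_univ _) b trivial, hc,
      L.cmp.step _ (mem_WJ_univ _) a trivial, L.cmp.gen (Set.mem_univ b),
      L.cmp.gen (Set.mem_univ a)]
  exact Prod.ext (L.M.commute_LL hab hc (key a hx).1 (key b hy).1)
    (L.M'.commute_LL hab hc' (key a hx).2 (key b hy).2)

theorem HH_le {a b : ι} {Θ : Ch T → Ch T' → Prop} (H : Th T T' {a, b} φ Θ)
    (h : ∀ i ∈ ({a, b} : Set ι), Γ i = GR φ Θ 1 i ∧ Δ i = GR φ Θ (𝐬 i) i) : HH T T' Γ ≤ CT Θ :=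
  fun _ hg => H.mem_CT_of_mv L.M (mem_HH.1 hg).1 (mem_HH.1 hg).2.1 (fun j _ => L.gr j)
    (fun j hj => by rw [(h j hj).1]; exact inf_le_left)
    (fun j _ x hx => ((mem_HH.1 hg).2.2 j x).1 hx)

theorem cases (i j : ι) : (i ≠ j ∧ 𝐬 i * 𝐬 j = 𝐬 j * 𝐬 i) ∨ ∃ k Θ, Th T T' {i, k} φ Θ ∧
    Γ j = GR φ Θ 1 j ∧ Γ i ⊔ Δ i ≤ CT Θ ∧ HH T T' Γ ≤ CT Θ := by
  obtain ⟨k, hk, hj⟩ | h : (∃ k, 𝐬 i * 𝐬 k ≠ 𝐬 k * 𝐬 i ∧ j ∈ ({i, k} : Set ι)) ∨
      (i ≠ j ∧ 𝐬 i * 𝐬 j = 𝐬 j * 𝐬 i) := by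
    by_cases hij : i = j
    · obtain ⟨k, hk⟩ := L.M.nb i
      exact Or.inl ⟨k, hk, by simp [hij]⟩
    by_cases hc : 𝐬 i * 𝐬 j = 𝐬 j * 𝐬 i
    · exact Or.inr ⟨hij, hc⟩
    · exact Or.inl ⟨j, hc, by simp⟩
  · obtain ⟨Θ, H, h1, -⟩ := L.loc i k hk
    refine Or.inr ⟨k, Θ, H, (h1 j hj).1, sup_le ?_ ?_, L.HH_le H h1⟩
    · rw [(h1 i (by simp)).1]; exact inf_le_left
    · rw [(h1 i (by simp)).2]; exact inf_le_left
  · exact Or.inl h

theorem conj_mem_HH {i : ι} {x y h : G × G'} (hx : x ∈ Γ i ⊔ Δ i) (hy : y ∈ Γ i ⊔ Δ i)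
    (hh : h ∈ HH T T' Γ) (h1 : Mv T (x * h * y).1 1) (h2 : Mv T' (x * h * y).2 1) :
    x * h * y ∈ HH T T' Γ := by
  refine mem_HH.2 ⟨h1, h2, fun j g => ?_⟩
  rcases L.cases i j with ⟨hij, hc⟩ | ⟨k, Θ, H, e, h3, h4⟩
  · have key : ∀ x ∈ Γ i ⊔ Δ i, ∀ g, g ∈ Γ j ↔ x * g * x⁻¹ ∈ Γ j := fun x hx g =>
      ⟨fun hg => by
        rwa [(L.commute hij hc hx (Subgroup.mem_sup_left hg)).eq, mul_inv_cancel_right],
      fun hg => by
        have := (L.commute hij hc hx (Subgroup.mem_sup_left hg)).eq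
        rw [inv_mul_cancel_right, mul_right_inj] at this
        rwa [this] at hg⟩
    rw [key y hy, (mem_HH.1 hh).2.2 j, key x hx]
    simp only [mul_assoc, mul_inv_rev]
  · rw [e, H.conj_GR_iff (mul_mem (mul_mem (h3 hx) (h4 hh)) (h3 hy)) (one_mem _) (one_mem _) h1
      (by rwa [L.cmp.one]), one_mul]

theorem mem_HH_of {i : ι} {x : G × G'} (hx : x ∈ Γ i ⊔ Δ i) (h1 : Mv T x.1 1)
    (h2 : Mv T' x.2 1) : x ∈ HH T T' Γ := by
  simpa using L.conj_mem_HH hx (one_mem _) (one_mem _) (by simpa) (by simpa)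

theorem mem_normalizer (i : ι) : m i ∈ Subgroup.normalizer (HH T T' Γ : Set (G × G')) := by
  have key : ∀ x ∈ Γ i ⊔ Δ i, Mv T x.1 (𝐬 i) → Mv T' x.2 (𝐬' i) → ∀ h ∈ HH T T' Γ,
      x * h * x⁻¹ ∈ HH T T' Γ := fun x hx h1 h2 h hh =>
    L.conj_mem_HH hx (inv_mem hx) hh (by simpa using (h1.mul (mem_HH.1 hh).1).mul h1.inv)
      (by simpa using (h2.mul (mem_HH.1 hh).2.1).mul h2.inv)
  refine Subgroup.mem_normalizer_iff.2 fun h => ⟨key _ (L.mem i) (L.mv i) (L.mv' i) h, fun hh => ?_⟩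
  simpa [mul_assoc] using key _ (inv_mem (L.mem i)) (by simpa [gen_inv T.cox] using (L.mv i).inv)
    (by simpa [gen_inv T'.cox] using (L.mv' i).inv) _ hh

theorem mv_av' (a b : ι) (k : ℕ) :
    Mv T (av m a b k).1 (av 𝐬 a b k) ∧ Mv T' (av m a b k).2 (φ (av 𝐬 a b k)) := by
  rw [av_fst, av_snd, L.cmp.av trivial trivial]
  exact ⟨mv_av L.mv a b k, mv_av L.mv' a b k⟩

theorem braid {a b : ι} (hab : a ≠ b) :
    av m a b (orderOf (𝐬 a * 𝐬 b)) * (av m b a (orderOf (𝐬 a * 𝐬 b)))⁻¹ ∈ HH T T' Γ := by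
  by_cases hc : 𝐬 a * 𝐬 b = 𝐬 b * 𝐬 a
  · rw [ord_eq_two T.cox hab hc, av_two, av_two, (L.commute hab hc (L.mem a) (L.mem b)).eq,
      mul_inv_cancel]
    exact one_mem _
  obtain ⟨Θ, H, h1, -⟩ := L.loc a b hc
  have h2 := (L.mv_av' a b (orderOf (𝐬 a * 𝐬 b))).1.mul (L.mv_av' b a (orderOf (𝐬 a * 𝐬 b))).1.inv
  have h3 := (L.mv_av' a b (orderOf (𝐬 a * 𝐬 b))).2.mul (L.mv_av' b a (orderOf (𝐬 a * 𝐬 b))).2.inv
  rw [av_ord T.cox a b, mul_inv_cancel] at h2 h3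
  refine L.mem_HH_of (i := b) ?_ h2 h3
  have h4 := bt_last (T := T) a b
  obtain ⟨k, hk⟩ := Nat.exists_eq_succ_of_ne_zero (ord_pos T.cox a b).ne'
  rw [hk] at h4 ⊢
  rw [av_succ', av_succ, mul_inv_rev, ← mul_assoc]
  refine mul_mem ?_ (inv_mem (L.mem b))
  have h5 : ∀ i ∈ ({a, b} : Set ι), m i ∈ CT Θ := fun i hi => by
    have := L.mem i
    rw [(h1 i hi).1, (h1 i hi).2] at this
    exact (sup_le inf_le_left inf_le_left : _ ≤ CT Θ) this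
  have h6 : ∀ k, av m a b k ∈ CT Θ := fun k => by
    induction k with
    | zero => exact one_mem _
    | succ k ih => rw [av_succ']; exact mul_mem ih (h5 _ (lt_mem a b k))
  have hb : b ∈ ({a, b} : Set ι) := by simp
  have hx := lt_mem a b k
  refine (sup_le (fun g hg => ?_) (fun g hg => ?_) :
    _ ≤ (Γ b ⊔ Δ b).comap (MulAut.conj (av m a b k)).toMonoidHom) (L.mem (lt a b k))
  · rw [(h1 _ hx).1] at hg
    have := H.conj_GR (h6 k) (av_mem a b k) (one_mem _) (L.mv_av' a b k).1 (L.mv_av' a b k).2 hg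
    rw [mul_one, H.GR_congr (av_mem a b k) (one_mem _) hx hb h4, ← (h1 b hb).1] at this
    exact Subgroup.mem_sup_left this
  · rw [(h1 _ hx).2] at hg
    have := H.conj_GR (h6 k) (av_mem a b k) (gen_mem_WJ hx) (L.mv_av' a b k).1
      (L.mv_av' a b k).2 hg
    rw [H.GR_congr (mul_mem (av_mem a b k) (gen_mem_WJ hx)) (gen_mem_WJ hb) hx hb (by
      rw [rt_mul_gen T.cox, rt_gen_self]; exact congrArg _ h4), ← (h1 b hb).2] at this
    exact Subgroup.mem_sup_right this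

/-- The lift of the Weyl group. -/
theorem exists_N : ∃ N : W → G × G' → Prop, (∀ w, ∃ n, N w n) ∧
    (∀ {w v n n'}, N w n → N v n' → N (w * v) (n * n')) ∧ (∀ {w n}, N w n → N w⁻¹ n⁻¹) ∧
    (∀ {h}, N 1 h → h ∈ HH T T' Γ) ∧ ∀ i, N (𝐬 i) (m i) := by
  let P := Subgroup.normalizer (HH T T' Γ : Set (G × G'))
  let f : ι → P := fun i => ⟨m i, L.mem_normalizer i⟩
  let π := QuotientGroup.mk' ((HH T T' Γ).subgroupOf P)
  have hπ : ∀ x y : P, π x = π y ↔ x.1 * y.1⁻¹ ∈ HH T T' Γ := fun x y => by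
    rw [QuotientGroup.mk'_apply, QuotientGroup.mk'_apply, QuotientGroup.eq_iff_div_mem,
      div_eq_mul_inv]; rfl
  obtain ⟨σ, h1, h2⟩ := exists_lift T.cox Set.univ (fun i => π (f i)) (fun i _ => by
    rw [← map_mul, ← map_one π, hπ]
    simpa using L.mem_HH_of (mul_mem (L.mem i) (L.mem i))
      (by simpa [T.cox.sq] using (L.mv i).mul (L.mv i))
      (by simpa [T'.cox.sq] using (L.mv' i).mul (L.mv' i))) (fun a _ b _ hab => by
    rw [← map_wprod f π, ← map_wprod f π, hπ]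
    have e : ∀ l, (wprod f l).1 = wprod m l := fun l => map_wprod f P.subtype l
    rw [e, e]
    exact L.braid hab)
  have h3 : ∀ u v, σ (u * v) = σ u * σ v := fun u v =>
    lift_mul T.cox h1 h2 (mem_WJ_univ u) (mem_WJ_univ v)
  refine ⟨fun w n => ∃ hn : n ∈ P, π ⟨n, hn⟩ = σ w, fun w => ?_, ?_, ?_, ?_, fun i => ?_⟩
  · obtain ⟨n, hn⟩ := QuotientGroup.mk'_surjective _ (σ w)
    exact ⟨n.1, n.2, hn⟩
  · rintro w v n n' ⟨hn, e⟩ ⟨hn', e'⟩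
    exact ⟨mul_mem hn hn', by rw [h3, ← e, ← e', ← map_mul]; rfl⟩
  · rintro w n ⟨hn, e⟩
    refine ⟨inv_mem hn, ?_⟩
    rw [eq_inv_of_mul_eq_one_left (show σ w⁻¹ * σ w = 1 by rw [← h3, inv_mul_cancel, h1]), ← e,
      ← map_inv]
    rfl
  · rintro h ⟨hn, e⟩
    rw [h1, ← map_one π, hπ] at e
    simpa using e
  · have := h2 1 (one_mem _) i trivial
    rw [one_mul, h1, one_mul] at this
    exact ⟨L.mem_normalizer i, this.symm⟩

end Glb

end Cfsg.Agent.BNP
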