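import Mathlib
import Cfsg.Agent.BNP.CmpE
import Cfsg.Prelude.Def_Classification2

/-!
The comparison theorem: compatible isomorphisms in rank two give an isomorphism of the groups.
-/

set_option autoImplicit false
set_option linter.unusedSectionVars false

namespace Cfsg.Agent.BNP

open Cfsg Cfsg.Agent.St Cfsg.Agent.Chev
open scoped commutatorElement

universe u v
variable {G : Type u} {ι : Type*} {W : Type v} [Group G] [Group W] {T : Tits G ι W} [Finite W]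
variable {G' W' : Type*} [Group G'] [Group W'] {T' : Tits G' ι W'} [Finite W']

set_option hygiene false in
local notation "𝐬" => T.s
set_option hygiene false in
local notation "𝐬'" => T'.s

theorem Graph.conj {A B : Subgroup G} {A' B' : Subgroup G'} {Γ Δ : Subgroup (G × G')}
    (h : Graph A A' Γ) {n : G × G'} (h1 : ∀ x, x ∈ B ↔ n.1⁻¹ * x * n.1 ∈ A)
    (h2 : ∀ x, x ∈ B' ↔ n.2⁻¹ * x * n.2 ∈ A') (h3 : ∀ x, x ∈ Δ ↔ n⁻¹ * x * n ∈ Γ) :
    Graph B B' Δ := by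
  refine ⟨fun g hg => (h1 _).2 (h.fst _ ((h3 g).1 hg)), fun g hg => (h2 _).2 (h.snd _ ((h3 g).1 hg)),
    fun g hg => ?_, fun x hx => ?_, fun x hx => ?_⟩
  · simpa [mul_assoc, inv_mul_eq_iff_eq_mul] using h.iff _ ((h3 g).1 hg)
  · obtain ⟨y, hy⟩ := h.ex1 _ ((h1 x).1 hx)
    exact ⟨n.2 * y * n.2⁻¹, (h3 _).2 (by convert hy using 1; ext <;> simp [mul_assoc])⟩
  · obtain ⟨y, hy⟩ := h.ex2 _ ((h2 x).1 hx)
    exact ⟨n.1 * y * n.1⁻¹, (h3 _).2 (by convert hy using 1; ext <;> simp [mul_assoc])⟩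

theorem Mv.mem_X_iff {n : G} {w : W} (hn : Mv T n w) {i : ι} (x : G) :
    x ∈ X T (rt 𝐬 w i) ↔ n⁻¹ * x * n ∈ X T (rt 𝐬 1 i) :=
  ⟨fun h => hn.conj_mem_X' (by rwa [tr_rt, mul_one]), fun h => by
    simpa [tr_rt, mul_assoc] using hn.conj_mem_X h⟩

theorem Glb.exists_fam {φ : W → W'} {Γ Δ : ι → Subgroup (G × G')} {m : ι → G × G'}
    (L : Glb T T' φ Γ Δ m) : ∃ D, Fam T T' Set.univ φ D := by
  obtain ⟨N, N1, N2, N3, N4, N5⟩ := L.exists_N
  have u : ∀ x : W, x ∈ WJ 𝐬 Set.univ := mem_WJ_univ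
  have N6 : ∀ {x k n}, N (x * 𝐬 k) n → N x (n * (m k)⁻¹) := fun {x k n} h => by
    simpa using N2 h (N3 (N5 k))
  have N7 : ∀ w n, N w n → Mv T n.1 w ∧ Mv T' n.2 (φ w) := fun w => by
    induction w using W_induction T.cox with
    | h1 => exact fun n h => ⟨(mem_HH.1 (N4 h)).1, by
        rw [L.cmp.one]; exact (mem_HH.1 (N4 h)).2.1⟩
    | h2 x k _ ih =>
      intro n h
      rw [L.cmp.step _ (u x) k trivial]
      exact ⟨by simpa using (ih _ (N6 h)).1.mul (L.mv k),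
        by simpa using (ih _ (N6 h)).2.mul (L.mv' k)⟩
  have N8 : ∀ {a b Θ}, Th T T' {a, b} φ Θ →
      (∀ i ∈ ({a, b} : Set ι), Γ i = GR φ Θ 1 i ∧ Δ i = GR φ Θ (𝐬 i) i) →
      ∀ w ∈ WJ 𝐬 {a, b}, ∀ n, N w n → n ∈ CT Θ := fun {a b Θ} H h w hw => by
    refine WJ_induction T.cox (P := fun w => ∀ n, N w n → n ∈ CT Θ)
      (fun n hn => L.HH_le H h (N4 hn)) (fun x _ k hk _ ih n hn => ?_) hw
    have := L.mem k
    rw [(h k hk).1, (h k hk).2] at this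
    simpa using mul_mem (ih _ (N6 hn)) ((sup_le inf_le_left inf_le_left : _ ≤ CT Θ) this)
  have N9 : ∀ {w i j}, rt 𝐬 w i = rt 𝐬 1 j → ∀ n, N w n → ∀ g ∈ Γ i, n * g * n⁻¹ ∈ Γ j := by
    intro w i j e
    refine groupoid T.cox (P := fun w i j => ∀ n, N w n → ∀ g ∈ Γ i, n * g * n⁻¹ ∈ Γ j)
      (fun i n hn g hg => ((mem_HH.1 (N4 hn)).2.2 i g).1 hg)
      (fun w i j l k v hk hv hl e _ ih n hn g hg => ?_) e
    obtain ⟨n', hn'⟩ := N1 v
    have h1 := ih _ (by simpa using N2 hn (N3 hn')) (n' * g * n'⁻¹) ?_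
    · simpa [mul_assoc] using h1
    by_cases hc : 𝐬 i * 𝐬 k = 𝐬 k * 𝐬 i
    · have h2 : ¬ RD 𝐬 v i := (one_mem_rt T.cox).1 (e ▸ self_mem_rt T.cox 1 l)
      have h3 := ord_eq_two T.cox hk.symm hc
      have h4 : v = 1 ∨ v = 𝐬 k := by
        obtain ⟨r, hr, h4⟩ := eq_av T.cox hv
        have h5 := (isTop_av T.cox i k).2 i (by simp)
        have h6 := av_ord T.cox i k
        rw [h3] at hr h5 h6
        interval_cases r
        · exact Or.inl (by simpa using h4)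
        · rw [av_one, av_one] at h4
          exact h4.elim (fun h4 => absurd ((RD_gen T.cox).2 rfl) (h4 ▸ h2)) Or.inr
        · rw [← h6, or_self] at h4
          exact absurd h5 (h4 ▸ h2)
      rcases h4 with rfl | rfl
      · rw [← rt_index_unique T.cox e]
        exact ((mem_HH.1 (N4 hn')).2.2 i g).1 hg
      · rw [← rt_index_unique T.cox ((rt_eq_of_conj T.cox hc h2).symm.trans e)]
        have h5 := ((mem_HH.1 (N4 (N6 (x := 1) (by rwa [one_mul])))).2.2 i g).1 hg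
        rwa [mul_assoc n', ← ((L.commute hk.symm hc (Subgroup.mem_sup_left hg)
          (inv_mem (L.mem k))).eq), mul_inv_rev, inv_inv, mul_assoc n', mul_assoc g,
          inv_mul_cancel_left, ← mul_assoc] at h5
    · obtain ⟨Θ, H, h2, -⟩ := L.loc i k hc
      have hi : i ∈ ({i, k} : Set ι) := by simp
      rw [(h2 i hi).1] at hg
      have := H.conj_GR (N8 H h2 v hv _ hn') hv (one_mem _) (N7 _ _ hn').1 (N7 _ _ hn').2 hg
      rwa [mul_one, H.GR_congr hv (one_mem _) hi hl e, ← (h2 l hl).1] at this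
  let D : Set W → Subgroup (G × G') := fun A =>
    ⨅ (w) (i) (n) (_ : N w n ∧ rt 𝐬 w i = A), (Γ i).comap (MulAut.conj n⁻¹).toMonoidHom
  have D1 : ∀ {w n}, N w n → ∀ i g, g ∈ D (rt 𝐬 w i) ↔ n⁻¹ * g * n ∈ Γ i := by
    intro w n hn i g
    simp only [D, Subgroup.mem_iInf, Subgroup.mem_comap]
    refine ⟨fun h => by simpa using h w i n ⟨hn, rfl⟩, fun h w' i' n' h' => ?_⟩
    have := N9 (w := w'⁻¹ * w) (i := i) (j := i') (by
      rw [← tr_rt, ← h'.2, tr_rt, inv_mul_cancel]) _ (N2 (N3 h'.1) hn) _ h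
    simpa [mul_assoc] using this
  have D2 : ∀ {w n}, N w n → ∀ {A}, IsRt 𝐬 A → ∀ g, g ∈ D (tr w A) ↔ n⁻¹ * g * n ∈ D A := by
    rintro w n hn _ ⟨v, i, rfl⟩ g
    obtain ⟨n', hn'⟩ := N1 v
    rw [tr_rt, D1 (N2 hn hn'), D1 hn']
    simp only [mul_assoc, mul_inv_rev]
  have D3 : ∀ v i, Graph (X T (rt 𝐬 v i)) (X T' (rt 𝐬' (φ v) i)) (D (rt 𝐬 v i)) := fun v i => by
    obtain ⟨n, hn⟩ := N1 v
    exact (L.gr i).conj (N7 _ _ hn).1.mem_X_iff (N7 _ _ hn).2.mem_X_iff (D1 hn i)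
  have D4 : ∀ a b r, a ≠ b → 0 < r → r < orderOf (𝐬 a * 𝐬 b) → ∀ x ∈ D (bt 𝐬 a b 0),
      ∀ y ∈ D (bt 𝐬 a b r), ⁅x, y⁆ ∈ ⨆ (l : ℕ) (_ : 0 < l ∧ l < r), D (bt 𝐬 a b l) := by
    intro a b r hab h0 hr x hx y hy
    by_cases hc : 𝐬 a * 𝐬 b = 𝐬 b * 𝐬 a
    · obtain rfl : r = 1 := by rw [ord_eq_two T.cox hab hc] at hr; omega
      have h1 := D3 (av 𝐬 a b 0) (lt a b 0)
      have h2 := D3 (av 𝐬 a b 1) (lt a b 1)
      rw [L.cmp.av trivial trivial] at h1 h2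
      rw [commutatorElement_eq_one_iff_commute.2 (show Commute x y from
        Prod.ext (L.M.commute_bt hab (h1.fst x hx) (h2.fst y hy))
          (L.M'.commute_bt hab (h1.snd x hx) (h2.snd y hy)))]
      exact one_mem _
    obtain ⟨Θ, H, h1, h2⟩ := L.loc a b hc
    have key : ∀ l, D (bt 𝐬 a b l) = GR φ Θ (av 𝐬 a b l) (lt a b l) := fun l => by
      obtain ⟨n, hn⟩ := N1 (av 𝐬 a b l)
      ext g
      rw [bt, D1 hn, (h1 _ (lt_mem a b l)).1, H.conj_GR_iff (N8 H h1 _ (av_mem a b l) _ hn)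
        (av_mem a b l) (one_mem _) (N7 _ _ hn).1 (N7 _ _ hn).2]
      simp only [mul_assoc, mul_inv_cancel, mul_one, mul_inv_cancel_left]
    simp only [key] at hx hy ⊢
    exact h2 r h0 hr x (by rw [(h1 a (by simp)).1]; exact hx) y hy
  refine ⟨D, L.cmp, fun v _ i _ _ => D3 v i, fun v _ i _ hd x hx B hB h1 h2 y hy => ?_⟩
  obtain ⟨w, a, b, r, hab, e1, h3, h4, e2⟩ := exists_rank_two T.cox (i := i) (hB.isRt.tr v⁻¹)
    (by rw [mem_tr, inv_inv, mul_one]; exact hB.isRt.convex T.cox (btw_gen T.cox hd) h1 h2)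
    (fun e => mul_gen_notMem_rt T.cox 1 i (by rwa [← e, mem_tr, inv_inv, one_mul]))
  have e3 : rt 𝐬 v i = tr (v * w) (bt 𝐬 a b 0) := by
    rw [← tr_tr, bt_zero, tr_rt w, mul_one, e1, tr_rt, mul_one]
  have e4 : B = tr (v * w) (bt 𝐬 a b r) := by rw [← tr_tr, ← e2, tr_tr, mul_inv_cancel, tr_one]
  obtain ⟨n, hn⟩ := N1 (v * w)
  rw [e3, D2 hn (isRt_bt _ _ _)] at hx
  rw [e4, D2 hn (isRt_bt _ _ _)] at hy
  have h5 : ⁅x, y⁆ = MulAut.conj n ⁅n⁻¹ * x * n, n⁻¹ * y * n⁆ := by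
    simp only [commutatorElement_def, MulAut.conj_apply]; group
  rw [h5]
  refine SetLike.le_def.1 (iSup₂_le (a := Subgroup.comap (MulAut.conj n).toMonoidHom
    (GP T Set.univ D (v * 𝐬 i))) fun l hl g hg => ?_) (D4 a b r hab h3 h4 _ hx _ hy)
  have h6 := comm_mem_GP (ord_pos T.cox a b) h4 hd e3 (e4 ▸ h1) (e4 ▸ h2) (Or.inl hl)
  refine le_GP (inJ_univ T.cox ((isRt_bt a b l).tr _)) h6.1 h6.2 ((D2 hn (isRt_bt _ _ _) _).2 ?_)
  simpa [mul_assoc] using hg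

theorem locP_of_commute (M : MH T) (M' : MH T') {a b : ι} (h : orderOf (T.s a * T.s b) = 2)
    (h' : orderOf (T'.s a * T'.s b) = 2) {A B : Subgroup (G × G')}
    (hA : Graph (X T (rt T.s 1 a)) (X T' (rt T'.s 1 a)) A)
    (hB : Graph (X T (rt T.s 1 b)) (X T' (rt T'.s 1 b)) B) : LocP T T' a b A B := by
  have hab : a ≠ b := by rintro rfl; rw [T.cox.sq, orderOf_one] at h; omega
  have h1 := bt_last (T := T) a b
  have h2 := bt_last (T := T') a b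
  rw [h] at h1
  rw [h'] at h2
  refine ⟨fun k => if k = 0 then A else B, ⟨fun k hk => ?_, fun k r h3 h4 x hx y hy => ?_⟩, rfl,
    by rw [h]; rfl⟩
  · rw [h] at hk
    interval_cases k
    · exact hA
    · rw [h1, h2]; exact hB
  · obtain ⟨rfl, rfl⟩ : k = 0 ∧ r = 1 := by omega
    rw [commutatorElement_eq_one_iff_commute.2 (show Commute x y from
      Prod.ext (M.commute_bt hab (k := 0) (hA.fst x hx) (by rw [h1]; exact hB.fst y hy))
        (M'.commute_bt hab (k := 0) (hA.snd x hx) (by rw [h2]; exact hB.snd y hy)))]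
    exact one_mem _

theorem LocP.rk1 (M : MH T) (M' : MH T') {a b : ι} (h : 3 ≤ orderOf (T.s a * T.s b))
    (h' : orderOf (T'.s a * T'.s b) = orderOf (T.s a * T.s b)) {A B : Subgroup (G × G')}
    (H : LocP T T' a b A B) : Rk1 T T' a A ∧ Rk1 T T' b B := by
  obtain ⟨φ, c⟩ := exists_cmp T.cox T'.cox {a, b} (by
    rintro i (rfl | rfl) j (rfl | rfl) hij
    · exact absurd rfl hij
    · exact h'
    · rw [ord_comm T.cox, ord_comm T'.cox, h']
    · exact absurd rfl hij)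
  have hc := not_commute_of_three T.cox h
  obtain ⟨Θ, H, h1, h2, -⟩ := H.exists_th M M' c hc
  exact ⟨H.rk1 M M' (by simp) (by simp) hc h1, H.rk1 M M' (by simp) (by simp) hc.symm h2⟩

theorem nonempty_equiv_of_locP (M : MH T) (M' : MH T')
    (ho : ∀ i j, orderOf (T'.s i * T'.s j) = orderOf (T.s i * T.s j))
    (hg : ⨆ i, X T (rt T.s 1 i) ⊔ X T (rt T.s 1 i)ᶜ = ⊤)
    (hg' : ⨆ i, X T' (rt T'.s 1 i) ⊔ X T' (rt T'.s 1 i)ᶜ = ⊤) (Γ : ι → Subgroup (G × G'))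
    (H : ∀ a b, a ≠ b → LocP T T' a b (Γ a) (Γ b) ∨ LocP T T' b a (Γ b) (Γ a)) :
    Nonempty (G ≃* G') := by
  obtain ⟨φ, c⟩ := exists_cmp T.cox T'.cox Set.univ fun a _ b _ _ => ho a b
  obtain ⟨Δ, m, L⟩ := exists_glb M M' c Γ fun a b hab => (H a b hab).elim id (LocP.symm (ho a b))
  obtain ⟨D, F⟩ := L.exists_fam
  have Θ := F.th M M'
  set C := CT (ThR T T' Set.univ φ D)
  have h1 : ∀ i, ∃ A B, A ≤ C ∧ B ≤ C ∧ Graph (X T (rt 𝐬 1 i)) (X T' (rt 𝐬' 1 i)) A ∧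
      Graph (X T (rt 𝐬 1 i)ᶜ) (X T' (rt 𝐬' 1 i)ᶜ) B := fun i => by
    obtain ⟨j, hj⟩ := M.nb i
    have := Θ.graph M M' (one_mem _) trivial trivial hj
    rw [c.one] at this
    exact ⟨_, _, inf_le_left, inf_le_left, this, Θ.graph_neg M M' trivial trivial hj⟩
  have b1 : Function.Bijective ((MonoidHom.fst G G').comp C.subtype) := by
    refine ⟨(injective_iff_map_eq_one _).2 fun g hg => ?_, fun x => ?_⟩
    · refine Subtype.ext (Prod.ext hg (M'.faith _ fun y' => ?_))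
      obtain ⟨y, hy⟩ := Θ.tot' y' (rs_univ _ _)
      exact (Θ.eq_iff ((g.2 _ _).2 hy) hy).1 (by rw [show g.1.1 = 1 from hg, one_smul])
    · obtain ⟨g, h2, h3⟩ : x ∈ C.map (MonoidHom.fst G G') := by
        refine SetLike.le_def.1 (hg.ge.trans (iSup_le fun i => ?_)) (Subgroup.mem_top x)
        obtain ⟨A, B, h1, h2, h3, h4⟩ := h1 i
        exact sup_le (fun x hx => ⟨_, h1 (h3.ex1 x hx).choose_spec, rfl⟩)
          (fun x hx => ⟨_, h2 (h4.ex1 x hx).choose_spec, rfl⟩)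
      exact ⟨⟨g, h2⟩, h3⟩
  have b2 : Function.Bijective ((MonoidHom.snd G G').comp C.subtype) := by
    refine ⟨(injective_iff_map_eq_one _).2 fun g hg => ?_, fun x => ?_⟩
    · refine Subtype.ext (Prod.ext (M.faith _ fun y => ?_) hg)
      obtain ⟨y', hy⟩ := Θ.tot y (rs_univ _ _)
      exact (Θ.eq_iff ((g.2 _ _).2 hy) hy).2 (by rw [show g.1.2 = 1 from hg, one_smul])
    · obtain ⟨g, h2, h3⟩ : x ∈ C.map (MonoidHom.snd G G') := by
        refine SetLike.le_def.1 (hg'.ge.trans (iSup_le fun i => ?_)) (Subgroup.mem_top x)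
        obtain ⟨A, B, h1, h2, h3, h4⟩ := h1 i
        exact sup_le (fun x hx => ⟨_, h1 (h3.ex2 x hx).choose_spec, rfl⟩)
          (fun x hx => ⟨_, h2 (h4.ex2 x hx).choose_spec, rfl⟩)
      exact ⟨⟨g, h2⟩, h3⟩
  exact ⟨(MulEquiv.ofBijective _ b1).symm.trans (MulEquiv.ofBijective _ b2)⟩

end Cfsg.Agent.BNP
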