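import Mathlib
import Cfsg.Agent.BNP.Defs
import Cfsg.Agent.Mult.Alt
import Cfsg.Agent.Class.U.Field
import Cfsg.Agent.Class.QF.Classify

/-!
Classification of the double bond data over finite fields.
-/

set_option autoImplicit false
set_option linter.unusedSectionVars false

namespace Cfsg.Agent.BNP

namespace DB

section Basic

variable {F X : Type*} [Field F] [Group X] (D : DB F X)

theorem f_one_left (v : X) : D.f 1 v = 0 := by simpa using D.f_mul_left 1 1 v

theorem f_one_right (v : X) : D.f v 1 = 0 := by simpa using D.f_mul_right v 1 1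

theorem f_inv_left (u v : X) : D.f u⁻¹ v = -D.f u v := by
  have := D.f_mul_left u⁻¹ u v
  rw [inv_mul_cancel, f_one_left] at this
  linear_combination -this

theorem a_one : D.a 1 = 0 := by simpa [f_one_left] using D.a_mul 1 1

theorem f_T_right (l k : F) (v : X) : D.f v (D.T l k) = 0 := by
  have h1 := D.a_mul (D.T l k) v
  have h2 := D.a_mul v (D.T l k)
  rw [D.T_comm, h2, D.f_T] at h1
  linear_combination h1

theorem tau₀ (v : X) (l m : F) : D.a (D.T l (D.a v * m)) =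
    D.σ l * (D.a v * m) + l * D.σ m * (D.a v + D.f v v) := by
  have h := D.a_act v (l + m)
  rw [D.act_add, D.a_mul, D.a_mul, D.f_T, D.f_mul_right, f_T_right, D.a_act, D.a_act,
    D.f_act_left, D.f_act_right, map_add] at h
  linear_combination h

/-- The constant `κ`. -/
def κ : F := D.a (D.T 1 1) - 1

theorem a_ne {v : X} (h : v ≠ 1) : D.a v ≠ 0 := fun e => h (D.a_eq_zero v e)

theorem a_add_f (v : X) : D.a v + D.f v v = D.κ * D.σ (D.a v) := by
  by_cases h : v = 1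
  · simp [h, a_one, f_one_left]
  have h1 := D.tau₀ v 1 (D.a v)⁻¹
  have h2 : D.σ (D.a v) ≠ 0 := (map_ne_zero _).2 (D.a_ne h)
  rw [mul_inv_cancel₀ (D.a_ne h), map_inv₀, map_one] at h1
  rw [κ, h1]
  field_simp
  ring

theorem tau [Nontrivial X] (l n : F) : D.a (D.T l n) = D.σ l * n + l * D.σ n * D.κ := by
  obtain ⟨v, h⟩ := exists_ne (1 : X)
  have h1 := D.tau₀ v l ((D.a v)⁻¹ * n)
  have h2 : D.σ (D.a v) ≠ 0 := (map_ne_zero _).2 (D.a_ne h)
  rw [mul_inv_cancel_left₀ (D.a_ne h), a_add_f, map_mul, map_inv₀] at h1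
  rw [h1]
  field_simp

theorem f_symm (v w : X) : D.f v w = -(D.κ * D.σ (D.f w v)) := by
  have h := D.a_add_f (v * w)
  rw [D.a_mul, D.f_mul_left, D.f_mul_right, D.f_mul_right, map_sub, map_add] at h
  linear_combination h - D.a_add_f v - D.a_add_f w

/-- The radical of `f`. -/
def rad : Subgroup X where
  carrier := {z | ∀ v, D.f z v = 0}
  one_mem' := D.f_one_left
  mul_mem' := fun ha hb v => by rw [D.f_mul_left, ha v, hb v, add_zero]
  inv_mem' := fun ha v => by rw [f_inv_left, ha v, neg_zero]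

theorem eq_of_rad {v w : X} (h : v * w⁻¹ ∈ D.rad) (e : D.a v = D.a w) : v = w := by
  have h1 := D.a_mul (v * w⁻¹) w
  rw [inv_mul_cancel_right, f_symm, h w, map_zero] at h1
  exact mul_inv_eq_one.1 (D.a_eq_zero _ (by linear_combination e - h1))

theorem a_rad {z : X} (h : z ∈ D.rad) : D.a z = D.κ * D.σ (D.a z) := by
  rw [← a_add_f, h z, add_zero]

/-- The compatibilities with `f` and `T` follow from the other ones. -/
theorem of_hom {F' X' : Type*} [Field F'] [Group X'] [Nontrivial X] (D' : DB F' X') (φ : F ≃+* F')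
    (ψ : X ≃* X') {c : F'} (hc : c ≠ 0) (h1 : ∀ v l, ψ (D.act v l) = D'.act (ψ v) (φ l))
    (h2 : ∀ v, D'.a (ψ v) = c * φ (D.a v)) :
    ∃ (φ : F ≃+* F') (ψ : X ≃* X') (c : F'), c ≠ 0 ∧
      (∀ v l, ψ (D.act v l) = D'.act (ψ v) (φ l)) ∧ (∀ v, D'.a (ψ v) = c * φ (D.a v)) ∧
      (∀ u v, D'.f (ψ u) (ψ v) = c * φ (D.f u v)) ∧
      ∀ l k, D'.T (φ l) (c * φ k) = ψ (D.T l k) := by
  refine ⟨φ, ψ, c, hc, h1, h2, fun u v => ?_, fun l k => ?_⟩
  · have h := h2 (v * u)
    rw [map_mul, D'.a_mul, D.a_mul, h2, h2, map_sub, map_add] at h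
    linear_combination -h
  · obtain ⟨v, h⟩ := exists_ne (1 : X)
    have h3 := h1 v (l + (D.a v)⁻¹ * k)
    rw [D.act_add, map_add, D'.act_add, map_mul, map_mul, h1, h1, h2,
      mul_inv_cancel_left₀ (D.a_ne h), mul_assoc c, ← map_mul, mul_inv_cancel_left₀ (D.a_ne h)] at h3
    exact (mul_left_cancel (mul_right_cancel h3)).symm

end Basic

section Lin

variable {F X : Type*} [Field F] [Group X] [Nontrivial X] (D : DB F X) (hT : ∀ l k, D.T l k = 1)
include hT

theorem κ_lin : D.κ = -1 := by rw [κ, hT, a_one, zero_sub]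

theorem σ_lin (l : F) : D.σ l = l := by
  have := D.tau l 1
  rw [hT, a_one, D.κ_lin hT, map_one] at this
  linear_combination -this

theorem add_lin (v : X) (l k : F) : D.act v (l + k) = D.act v l * D.act v k := by
  rw [add_comm, D.act_add, hT, mul_one]

theorem comm_lin (v w : X) : v * w = w * v := by
  have h := D.act_mul v w (1 + 1)
  simp only [D.add_lin hT, D.act_one, mul_assoc, mul_right_inj] at h
  simp only [← mul_assoc, mul_left_inj] at h
  exact h.symm

variable [Finite F] [Finite X]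

theorem lin_coord : (Nat.card X = Nat.card F ∧ ∃ (g : F ≃ X) (a₀ : F), a₀ ≠ 0 ∧
      (∀ x y, g (x + y) = g x * g y) ∧ (∀ l x, g (l * x) = D.act (g x) l) ∧
      ∀ x, D.a (g x) = x ^ 2 * a₀) ∨
    (Nat.card X = Nat.card F ^ 2 ∧ ∀ α β : F,
      (∀ z₁ z₂ : F, z₁ ^ 2 + α * z₁ * z₂ + β * z₂ ^ 2 = 0 → z₁ = 0 ∧ z₂ = 0) →
      ∃ g : (Fin 2 → F) ≃ X, (∀ x y, g (x + y) = g x * g y) ∧ (∀ l x, g (l • x) = D.act (g x) l) ∧
      ∀ z, D.a (g z) = z 0 ^ 2 + α * z 0 * z 1 + β * z 1 ^ 2) := by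
  let _ : CommGroup X := { ‹Group X› with mul_comm := D.comm_lin hT }
  let _ : Module F (Additive X) :=
    { smul := fun l v => Additive.ofMul (D.act v.toMul l)
      one_smul := fun v => D.act_one _
      mul_smul := fun l k v => by
        change D.act _ _ = D.act (D.act _ _) _
        rw [D.act_act, mul_comm]
      smul_zero := fun l => by
        have := D.act_mul 1 1 l
        rw [mul_one, left_eq_mul] at this
        exact this
      smul_add := fun l v w => D.act_mul _ _ _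
      add_smul := fun l k v => D.add_lin hT _ _ _
      zero_smul := fun v => D.act_zero _ }
  have hp : ∀ v w : Additive X, QuadraticMap.polar (fun v : Additive X => D.a v.toMul) v w =
      -D.f w.toMul v.toMul := fun v w => by
    rw [QuadraticMap.polar, toMul_add, D.a_mul]; ring
  let Q : QuadraticForm F (Additive X) := QuadraticMap.ofPolar (fun v => D.a v.toMul)
    (fun l v => (D.a_act _ _).trans (by rw [D.σ_lin hT]; rfl))
    (fun u v w => by rw [hp, hp, hp, toMul_add, D.f_mul_right, neg_add])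
    (fun l v w => by
      rw [hp, hp]
      exact (congrArg Neg.neg (D.f_act_right _ _ _)).trans (by rw [D.σ_lin hT]; simp))
  have hQ : ∀ v, Q v = 0 → v = 0 := fun v h => D.a_eq_zero _ h
  have h1 := Class.QF.finrank_le_two_of_anisotropic Q hQ
  have h2 : 0 < Module.finrank F (Additive X) := Module.finrank_pos
  have h3 : Nat.card X = Nat.card F ^ Module.finrank F (Additive X) :=
    Module.natCard_eq_pow_finrank (K := F) (V := Additive X)
  obtain e | e : Module.finrank F (Additive X) = 1 ∨ Module.finrank F (Additive X) = 2 := by omega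
  · let g := LinearEquiv.ofFinrankEq F (Additive X) ((Module.finrank_self F).trans e.symm)
    refine Or.inl ⟨by rw [h3, e, pow_one], g.toEquiv.trans Additive.toMul, Q (g 1),
      fun h => one_ne_zero (g.map_eq_zero_iff.1 (hQ _ h)), g.map_add, g.map_smul, fun x => ?_⟩
    change Q (g x) = _
    rw [← mul_one x, ← smul_eq_mul, g.map_smul, Q.map_smul]
    simp [pow_two]
  · refine Or.inr ⟨by rw [h3, e], fun α β h => ?_⟩
    obtain ⟨g, hg⟩ := Class.QF.anisotropic_plane Q e hQ h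
    exact ⟨g.toEquiv.trans Additive.toMul, g.map_add, g.map_smul, hg⟩

end Lin

section Tw

variable {F X : Type*} [Field F] [Group X] [Nontrivial X] (D : DB F X) (hT : ∃ l k, D.T l k ≠ 1)
include hT

theorem exists_a₀ : ∃ a₀ : F, a₀ ≠ 0 ∧ a₀ = D.κ * D.σ a₀ := by
  obtain ⟨l, k, h⟩ := hT
  exact ⟨_, D.a_ne h, D.a_rad (D.f_T l k)⟩

theorem σσ (l : F) : D.σ (D.σ l) = l := by
  obtain ⟨m, k, h⟩ := hT
  have h1 := D.a_rad (D.f_T m k)
  have h2 := D.a_rad (z := D.act (D.T m k) l) fun v => by rw [D.f_act_left, D.f_T, mul_zero]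
  by_cases h3 : l = 0
  · simp [h3]
  rw [D.a_act, map_mul, map_mul] at h2
  refine mul_right_cancel₀ (mul_ne_zero ((map_ne_zero D.σ).2 h3) (D.a_ne h)) ?_
  linear_combination -h2 + D.σ l * D.σ (D.σ l) * h1

theorem κ_id (h : ∀ x, D.σ x = x) : D.κ = 1 := by
  obtain ⟨a₀, h1, h2⟩ := D.exists_a₀ hT
  rw [h] at h2
  exact mul_right_cancel₀ h1 (by rw [← h2, one_mul])

theorem exists_tr : ∃ t, t + D.σ t = 1 := by
  by_cases h : ∀ s, s + D.σ s = 0
  · have h2 : ∀ s, D.σ s = s := fun s => by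
      have := h 1
      rw [map_one] at this
      linear_combination h s - s * this
    obtain ⟨l, k, e⟩ := id hT
    refine absurd (D.a_eq_zero _ ?_) e
    rw [tau, D.κ_id hT h2]
    linear_combination k * h l + l * h2 k
  · push Not at h
    obtain ⟨s, hs⟩ := h
    refine ⟨s / (s + D.σ s), ?_⟩
    rw [map_div₀, map_add, D.σσ hT, add_comm (D.σ s), ← add_div, div_self hs]

theorem rad_surj {x : F} (h : x = D.κ * D.σ x) : ∃ z ∈ D.rad, D.a z = x := by
  obtain ⟨t, ht⟩ := D.exists_tr hT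
  refine ⟨D.T 1 (x * t), D.f_T _ _, ?_⟩
  rw [tau, map_one, map_mul]
  linear_combination x * ht - D.σ t * h

theorem mem_rad {v : X} (h : D.f v v = 0) : v ∈ D.rad := by
  have h1 := D.a_add_f v
  obtain ⟨z, hz, e⟩ := D.rad_surj hT (x := -D.a v) (by rw [map_neg]; linear_combination -h1 + h)
  have h2 : v * z = 1 := D.a_eq_zero _ (by rw [D.a_mul, e, hz v]; ring)
  rw [eq_inv_of_mul_eq_one_left h2]
  exact inv_mem hz

theorem card_rad : Nat.card D.rad = Nat.card {y : F // D.σ y = y} := by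
  obtain ⟨a₀, h1, h2⟩ := D.exists_a₀ hT
  have h3 : D.σ a₀ ≠ 0 := (map_ne_zero _).2 h1
  refine Nat.card_eq_of_bijective (fun z => ⟨D.a z / a₀, ?_⟩) ⟨fun z w e => ?_, fun y => ?_⟩
  · rw [map_div₀, div_eq_div_iff h3 h1]
    linear_combination D.σ (D.a z) * h2 - D.σ a₀ * D.a_rad z.2
  · exact Subtype.ext (D.eq_of_rad (mul_mem z.2 (inv_mem w.2))
      ((div_left_inj' h1).1 (congrArg Subtype.val e)))
  · obtain ⟨z, hz, e⟩ := D.rad_surj hT (x := y * a₀) (by
      rw [map_mul, y.2]; linear_combination (y : F) * h2)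
    exact ⟨⟨z, hz⟩, Subtype.ext (by simp only [e]; exact mul_div_cancel_right₀ _ h1)⟩

variable [Finite F] [Finite X]

omit hT in
/-- Coordinates in the case `T ≠ 1`. -/
structure Co (μ : X → F) (f₀ : F) : Prop where
  mul : ∀ v w, μ (v * w) = μ v + μ w
  act : ∀ v l, μ (D.act v l) = l * μ v
  rad : ∀ v, μ v = 0 → v ∈ D.rad
  hf : ∀ v w, D.f v w = μ v * D.σ (μ w) * f₀
  zero : f₀ = 0 → ∀ v, μ v = 0
  surj : f₀ ≠ 0 → ∀ l, ∃ v, μ v = l
  f₀ : f₀ = -(D.κ * D.σ f₀)

theorem exists_co : ∃ μ f₀, D.Co μ f₀ ∧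
    ((∀ x, D.σ x = x) ∧ f₀ = 0 ∧ Nat.card X = Nat.card F ∨ ∃ r, (∀ x, D.σ x = x ^ r) ∧
      Nat.card F = r ^ 2 ∧ (f₀ = 0 ∧ Nat.card X = r ∨ f₀ ≠ 0 ∧ Nat.card X = r ^ 3)) := by
  have fx : ∀ r, (∀ x, D.σ x = x ^ r) → Nat.card F = r ^ 2 → Nat.card D.rad = r := fun r h1 h2 => by
    have : Class.U.UF F r := ⟨‹_›, h2⟩
    rw [D.card_rad hT]
    simp only [h1]
    exact Class.U.card_fixed F r
  by_cases h : ∀ v, D.f v v = 0
  · have h1 : D.rad = ⊤ := eq_top_iff.2 fun v _ => D.mem_rad hT (h v)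
    rw [h1, Subgroup.card_top] at fx
    refine ⟨fun _ => 0, 0, ⟨by simp, by simp, fun v _ => D.mem_rad hT (h v),
      fun v w => by simpa using D.mem_rad hT (h v) w, by simp, by simp, by simp⟩, ?_⟩
    by_cases h2 : D.σ = RingHom.id F
    · refine Or.inl ⟨fun x => by simp [h2], rfl, ?_⟩
      have := D.card_rad hT
      rw [h1, Subgroup.card_top, h2] at this
      simpa using this
    · obtain ⟨r, h3, h4⟩ := Mult.exists_pow_of_involution D.σ h2 (D.σσ hT)
      exact Or.inr ⟨r, h4, h3, Or.inl ⟨rfl, fx r h4 h3⟩⟩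
  push Not at h
  obtain ⟨u, hu⟩ := h
  have h2 : D.σ ≠ RingHom.id F := fun e => hu (by
    have := D.a_add_f u
    rw [D.κ_id hT fun x => by simp [e], e] at this
    simpa using this)
  obtain ⟨r, h3, h4⟩ := Mult.exists_pow_of_involution D.σ h2 (D.σσ hT)
  have : Class.U.UF F r := ⟨‹_›, h3⟩
  have hu' : D.σ (D.f u u) ≠ 0 := (map_ne_zero _).2 hu
  have key : ∀ v, D.f v u = 0 → v ∈ D.rad := fun v hv => by
    refine D.mem_rad hT (by_contra fun hvv => hu ?_)
    have hv' : D.σ (D.f v v) ≠ 0 := (map_ne_zero _).2 hvv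
    obtain ⟨m, hm⟩ := Class.U.exists_norm_eq (F := F) (q := r) (μ := -D.f u u / D.f v v) (by
      rw [Class.U.conj_apply, ← h4, map_div₀, map_neg, div_eq_div_iff hv' hvv]
      linear_combination D.σ (D.f v v) * D.f_symm u u - D.σ (D.f u u) * D.f_symm v v)
    rw [Class.U.conj_apply, ← h4, eq_div_iff hvv] at hm
    have h5 : D.f u v = 0 := by rw [f_symm, hv]; simp
    have h6 := D.mem_rad hT (v := D.act v m * u) (by
      simp only [D.f_mul_left, D.f_mul_right, D.f_act_left, D.f_act_right, hv, h5]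
      linear_combination hm) u
    rwa [D.f_mul_left, D.f_act_left, hv, mul_zero, zero_add] at h6
  have hs : ∀ l, D.f (D.act u l) u / D.f u u = l := fun l => by
    rw [D.f_act_left, mul_div_cancel_right₀ _ hu]
  have hm : ∀ v w, D.f (v * w) u / D.f u u = D.f v u / D.f u u + D.f w u / D.f u u :=
    fun v w => by rw [D.f_mul_left, add_div]
  refine ⟨fun v => D.f v u / D.f u u, D.f u u, ⟨hm,
    fun v l => by rw [D.f_act_left, mul_div_assoc],
    fun v hv => key v ((div_eq_zero_iff.1 hv).resolve_right hu), fun v w => ?_,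
    fun e => absurd e hu, fun _ l => ⟨_, hs l⟩, D.f_symm u u⟩,
    Or.inr ⟨r, h4, h3, Or.inr ⟨hu, ?_⟩⟩⟩
  · have h5 := key (v * (D.act u (D.f v u / D.f u u))⁻¹) (by
      rw [D.f_mul_left, f_inv_left, D.f_act_left, div_mul_cancel₀ _ hu, add_neg_cancel]) w
    rw [D.f_mul_left, f_inv_left, D.f_act_left, D.f_symm u w] at h5
    rw [map_div₀]
    have h6 := D.f_symm u u
    generalize D.f v u / D.f u u = c at *
    field_simp
    linear_combination D.σ (D.f u u) * h5 - c * D.σ (D.f w u) * h6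
  · let μ : X →* Multiplicative F := MonoidHom.mk' (fun v => .ofAdd (D.f v u / D.f u u)) hm
    have h5 : μ.ker = D.rad := Subgroup.ext fun v =>
      ⟨fun (hv : D.f v u / D.f u u = 0) => key v ((div_eq_zero_iff.1 hv).resolve_right hu), fun hv => by
        change D.f v u / D.f u u = 0
        rw [hv u, zero_div]⟩
    rw [← μ.ker.card_mul_index, Subgroup.index_ker, h5, fx r h4 h3,
      (MonoidHom.range_eq_top (f := μ)).2 fun l => ⟨_, hs l⟩, Subgroup.card_top]
    change r * Nat.card F = _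
    rw [h3]; ring

omit hT in
theorem Co.inj {D : DB F X} {μ : X → F} {f₀ : F} (h : D.Co μ f₀) {v w : X} (h1 : μ v = μ w)
    (h2 : D.a v = D.a w) : v = w := by
  refine D.eq_of_rad (h.rad _ ?_) h2
  have := h.mul (v * w⁻¹) w
  rw [inv_mul_cancel_right] at this
  linear_combination h1 - this

theorem Co.exists_eq {μ : X → F} {f₀ : F} (h : D.Co μ f₀) {l x : F} (h1 : f₀ = 0 → l = 0)
    (h2 : x + l * D.σ l * f₀ = D.κ * D.σ x) : ∃ v, μ v = l ∧ D.a v = x := by
  obtain ⟨v, rfl⟩ : ∃ v, μ v = l := by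
    by_cases e : f₀ = 0
    · exact ⟨1, by rw [h.zero e, h1 e]⟩
    · exact h.surj e l
  have h3 := D.a_add_f v
  rw [h.hf] at h3
  obtain ⟨z, hz, e⟩ := D.rad_surj hT (x := x - D.a v) (by rw [map_sub]; linear_combination h2 - h3)
  refine ⟨v * z, ?_, by rw [D.a_mul, hz v, e]; ring⟩
  by_cases e : f₀ = 0
  · rw [h.zero e, h.zero e]
  obtain ⟨w, hw⟩ := h.surj e 1
  have h4 := hz w
  rw [h.hf, hw, map_one, mul_one, mul_eq_zero] at h4
  rw [h.mul, h4.resolve_right e, add_zero]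

end Tw

end DB

section
variable {F X F' X' : Type*} [Field F] [Group X] [Field F'] [Group X'] [Finite F] [Finite X]
  [Finite F'] [Finite X'] [Nontrivial X] [Nontrivial X']

theorem DB.two_ne_zero_iff : (2 : F) ≠ 0 ↔ Odd (Nat.card F) := by
  have := Fintype.ofFinite F
  rw [Nat.card_eq_fintype_card, ← Nat.not_even_iff_odd, Nat.even_iff,
    ← FiniteField.even_card_iff_char_two, ne_eq, not_iff_not]
  exact ⟨fun h => CharP.ringChar_of_prime_eq_zero Nat.prime_two (by exact_mod_cast h),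
    fun h => by exact_mod_cast h ▸ ringChar.Nat.cast_ringChar (R := F)⟩

theorem DB.cases (D : DB F X) :
    ((∀ l k, D.T l k = 1) ∧ (Nat.card X = Nat.card F ∨ Nat.card X = Nat.card F ^ 2) ∧
      (Odd (Nat.card F) → ∃ u v, D.f u v ≠ 0)) ∨
    ((∃ l k, D.T l k ≠ 1) ∧ ((Nat.card X = Nat.card F ∧ Odd (Nat.card F) ∧ ∀ u v, D.f u v = 0) ∨
      Nat.card X ^ 2 = Nat.card F ∨ Nat.card X ^ 2 = Nat.card F ^ 3)) := by
  by_cases hT : ∀ l k, D.T l k = 1
  · refine Or.inl ⟨hT, (D.lin_coord hT).imp And.left And.left, fun h => ?_⟩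
    obtain ⟨v, hv⟩ := exists_ne (1 : X)
    refine ⟨v, v, fun e => mul_ne_zero (DB.two_ne_zero_iff.2 h) (D.a_ne hv) ?_⟩
    have := D.a_add_f v
    rw [D.κ_lin hT, D.σ_lin hT, e] at this
    linear_combination this
  push Not at hT
  refine Or.inr ⟨hT, ?_⟩
  obtain ⟨μ, f₀, h, ⟨h1, h2, h3⟩ | ⟨r, -, h1, ⟨-, h2⟩ | ⟨-, h2⟩⟩⟩ := D.exists_co hT
  · refine Or.inl ⟨h3, DB.two_ne_zero_iff.1 fun e => ?_, fun u v => by rw [h.hf, h2, mul_zero]⟩
    obtain ⟨t, ht⟩ := D.exists_tr hT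
    rw [h1] at ht
    exact one_ne_zero (by linear_combination t * e - ht)
  · exact Or.inr (Or.inl (by rw [h1, h2]))
  · exact Or.inr (Or.inr (by rw [h1, h2]; ring))

theorem DB.iso_of_co {D : DB F X} {D' : DB F' X'} (hT' : ∃ l k, D'.T l k ≠ 1) {μ : X → F} {f₀ : F}
    {μ' : X' → F'} {f₀' : F'} (h : D.Co μ f₀) (h' : D'.Co μ' f₀') (hX : Nat.card X = Nat.card X')
    (φ : F ≃+* F') (hσ : ∀ x, D'.σ (φ x) = φ (D.σ x)) {c : F'} (hc : c ≠ 0) (h1 : f₀' = c * φ f₀)
    (h2 : c * φ D.κ = D'.κ * D'.σ c) :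
    ∃ (φ : F ≃+* F') (ψ : X ≃* X') (c : F'), c ≠ 0 ∧
      (∀ v l, ψ (D.act v l) = D'.act (ψ v) (φ l)) ∧ (∀ v, D'.a (ψ v) = c * φ (D.a v)) ∧
      (∀ u v, D'.f (ψ u) (ψ v) = c * φ (D.f u v)) ∧
      ∀ l k, D'.T (φ l) (c * φ k) = ψ (D.T l k) := by
  have key : ∀ v, ∃ v', μ' v' = φ (μ v) ∧ D'.a v' = c * φ (D.a v) := fun v =>
    h'.exists_eq D' hT' (fun e => by
      rw [h1, mul_eq_zero, map_eq_zero] at e
      rw [h.zero (e.resolve_left hc), map_zero]) (by
      have := congrArg φ (D.a_add_f v)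
      simp only [h.hf, map_add, map_mul] at this
      rw [map_mul, hσ, hσ, h1]
      linear_combination c * this + φ (D.σ (D.a v)) * h2)
  choose ψ e1 e2 using key
  let ψ' : X →* X' := MonoidHom.mk' ψ fun v w => h'.inj (by rw [h'.mul, e1, e1, e1, h.mul, map_add])
    (by simp only [D'.a_mul, D.a_mul, e1, e2, h.hf, h'.hf, hσ, h1, map_add, map_sub, map_mul]; ring)
  have hi : Function.Injective ψ' := fun v w e => h.inj
    (φ.injective (by rw [← e1, ← e1]; exact congrArg μ' e))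
    (φ.injective (mul_left_cancel₀ hc (by rw [← e2, ← e2]; exact congrArg D'.a e)))
  refine D.of_hom D' φ (MulEquiv.ofBijective ψ' (hi.bijective_of_nat_card_le hX.ge)) hc
    (fun v l => h'.inj ?_ ?_) e2
  · change μ' (ψ _) = μ' (D'.act (ψ v) _)
    rw [h'.act, e1, e1, h.act, map_mul]
  · change D'.a (ψ _) = D'.a (D'.act (ψ v) _)
    rw [D'.a_act, e2, e2, D.a_act, map_mul, map_mul, hσ]; ring

theorem DB.exists_iso (D : DB F X) (D' : DB F' X') (hF : Nat.card F = Nat.card F')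
    (hX : Nat.card X = Nat.card X') (hT : (∀ l k, D.T l k = 1) ↔ ∀ l k, D'.T l k = 1) :
    ∃ (φ : F ≃+* F') (ψ : X ≃* X') (c : F'), c ≠ 0 ∧
      (∀ v l, ψ (D.act v l) = D'.act (ψ v) (φ l)) ∧ (∀ v, D'.a (ψ v) = c * φ (D.a v)) ∧
      (∀ u v, D'.f (ψ u) (ψ v) = c * φ (D.f u v)) ∧
      ∀ l k, D'.T (φ l) (c * φ k) = ψ (D.T l k) := by
  have := Fintype.ofFinite F
  have := Fintype.ofFinite F'
  let φ : F ≃+* F' := FiniteField.ringEquivOfCardEq (by simpa using hF)
  have hq : 1 < Nat.card F' := Finite.one_lt_card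
  by_cases h : ∀ l k, D.T l k = 1
  · have h' := hT.1 h
    rcases D.lin_coord h with ⟨e, g, a₀, h0, h1, h2, h3⟩ | ⟨e, hg⟩ <;>
      rcases D'.lin_coord h' with ⟨e', g', a₀', h0', h1', h2', h3'⟩ | ⟨e', hg'⟩
    · have h4 : φ a₀ ≠ 0 := (map_ne_zero _).2 h0
      refine D.of_hom D' φ (MulEquiv.mk (g.symm.trans (φ.toEquiv.trans g')) fun v w => ?_)
        (div_ne_zero h0' h4) (fun v l => ?_) fun v => ?_
      · obtain ⟨x, rfl⟩ := g.surjective v
        obtain ⟨y, rfl⟩ := g.surjective w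
        simp [← h1, ← h1']
      · obtain ⟨x, rfl⟩ := g.surjective v
        simp [← h2, ← h2']
      · obtain ⟨x, rfl⟩ := g.surjective v
        simp [h3, h3']
        field_simp
    · nlinarith
    · nlinarith
    · obtain ⟨ζ, hζ⟩ := Class.QF.exists_aniso (F := F)
      obtain ⟨g, h1, h2, h3⟩ := hg 1 ζ hζ
      obtain ⟨g', h1', h2', h3'⟩ := hg' 1 (φ ζ) fun z₁ z₂ e => by
        obtain ⟨x, rfl⟩ := φ.surjective z₁
        obtain ⟨y, rfl⟩ := φ.surjective z₂
        simpa using hζ x y (φ.injective (by simpa using e))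
      refine D.of_hom D' φ (MulEquiv.mk (g.symm.trans ((Equiv.piCongrRight fun _ => φ.toEquiv).trans
        g')) fun v w => ?_) one_ne_zero (fun v l => ?_) fun v => ?_
      · obtain ⟨x, rfl⟩ := g.surjective v
        obtain ⟨y, rfl⟩ := g.surjective w
        simp only [← h1, ← h1', Equiv.toFun_as_coe, Equiv.trans_apply, Equiv.symm_apply_apply]
        congr 1; ext i; simp
      · obtain ⟨x, rfl⟩ := g.surjective v
        simp only [← h2, ← h2', MulEquiv.coe_mk, Equiv.trans_apply, Equiv.symm_apply_apply]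
        congr 1; ext i; simp
      · obtain ⟨x, rfl⟩ := g.surjective v
        simp [h3, h3']
  have h' := mt hT.2 h
  push Not at h h'
  obtain ⟨μ, f₀, c, hc⟩ := D.exists_co h
  obtain ⟨μ', f₀', c', hc'⟩ := D'.exists_co h'
  have key : (∀ x, D'.σ (φ x) = φ (D.σ x)) ∧ (f₀ = 0 ↔ f₀' = 0) := by
    rcases hc with ⟨h1, h2, h3⟩ | ⟨r, h1, h2, h3⟩ <;>
      rcases hc' with ⟨h1', h2', h3'⟩ | ⟨r', h1', h2', h3'⟩
    · exact ⟨fun x => by rw [h1, h1'], by simp [h2, h2']⟩
    · exfalso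
      have : 1 < r' := by nlinarith
      rcases h3' with ⟨-, e⟩ | ⟨-, e⟩ <;> nlinarith
    · exfalso
      have : 1 < r := by nlinarith
      rcases h3 with ⟨-, e⟩ | ⟨-, e⟩ <;> nlinarith
    · obtain rfl : r = r' := by nlinarith
      have : 1 < r := by nlinarith
      refine ⟨fun x => by rw [h1, h1', map_pow], ?_⟩
      rcases h3 with ⟨a, e⟩ | ⟨a, e⟩ <;> rcases h3' with ⟨a', e'⟩ | ⟨a', e'⟩
      · simp [a, a']
      · nlinarith
      · nlinarith
      · simp [a, a']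
  by_cases e : f₀ = 0
  · obtain ⟨a₀, h1, h2⟩ := D.exists_a₀ h
    obtain ⟨a₀', h1', h2'⟩ := D'.exists_a₀ h'
    have h3 : φ a₀ ≠ 0 := (map_ne_zero _).2 h1
    have h4 : φ (D.σ a₀) ≠ 0 := (map_ne_zero _).2 ((map_ne_zero _).2 h1)
    refine DB.iso_of_co h' c c' hX φ key.1 (div_ne_zero h1' h3) (by simp [e, key.2.1 e]) ?_
    have h5 := congrArg φ h2
    rw [map_mul] at h5
    rw [map_div₀, key.1]
    field_simp
    linear_combination φ a₀ * h2' - a₀' * h5
  · have e' := mt key.2.2 e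
    have h3 : φ f₀ ≠ 0 := (map_ne_zero _).2 e
    have h4 : φ (D.σ f₀) ≠ 0 := (map_ne_zero _).2 ((map_ne_zero _).2 e)
    refine DB.iso_of_co h' c c' hX φ key.1 (div_ne_zero e' h3) (div_mul_cancel₀ _ h3).symm ?_
    have h5 := congrArg φ c.f₀
    rw [map_neg, map_mul] at h5
    rw [map_div₀, key.1]
    field_simp
    linear_combination f₀' * h5 - φ f₀ * c'.f₀

end

end Cfsg.Agent.BNP
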