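import Mathlib
import Cfsg.Agent.Proj.OW
import Cfsg.Agent.Proj.ONan
import Cfsg.Agent.KSG.StSL

/-!
Steinberg generators of a two-transitive collineation group of a finite projective plane.
-/

set_option autoImplicit false
set_option linter.unusedSectionVars false

namespace Cfsg.Agent.BNP

open Cfsg.Agent.Proj Cfsg.Agent.KSG Configuration ProjectivePlane
open scoped LinearAlgebra.Projectivization

variable {G P L : Type*} [Group G] [Membership P L] [MulAction G P] [MulAction G L] [Coll G P L]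
  [ProjectivePlane P L] [Finite P] [Finite L]

theorem axis_pow {g : G} {l : L} (h : Axis P g l) (k : ℕ) : Axis P (g ^ k) l := by
  induction k with
  | zero => intro p _; rw [pow_zero, one_smul]
  | succ k ih => rw [pow_succ]; exact ih.mul h

theorem centre_mem_axis {l : L} {c : P} {r : ℕ} (hr : r.Prime) (hd : r ∣ order P L) (k : ℕ)
    {g : G} (h1 : g ≠ 1) (hk : g ^ r ^ k = 1) (ha : Axis P g l) (hc : Centre L g c) : c ∈ l := by
  induction k generalizing g with
  | zero => exact absurd (by simpa using hk) h1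
  | succ k ih =>
    by_cases h2 : g ^ r = 1
    · by_contra h3
      exact not_dvd_of_homology h1 hc ha h3 hr h2 hd
    · exact ih h2 (by rw [← pow_mul, ← pow_succ', hk]) (axis_pow ha r) (hc.pow r)

theorem centre_of_axis {g : G} {l m : L} {p : P} {r k : ℕ} (hr : r.Prime) (hd : r ∣ order P L)
    (hk : g ^ r ^ k = 1) (ha : Axis P g l) (hp : p ∈ l) (hp' : p ∈ m) (hlm : m ≠ l)
    (hm : g • m = m) : Centre L g p := by
  by_cases h1 : g = 1
  · intro l _; rw [h1, one_smul]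
  obtain ⟨c, hc⟩ := ha.exists_centre
  have h2 := centre_mem_axis hr hd k h1 hk ha hc
  rwa [point_eq hlm hp' hp ((fixed_line_cases h1 hc ha hm).resolve_left hlm) h2]

theorem axis_of_centre {g : G} {l : L} {p q : P} {r k : ℕ} (hr : r.Prime) (hd : r ∣ order P L)
    (hk : g ^ r ^ k = 1) (ha : Centre L g p) (hp : p ∈ l) (hp' : q ∈ l) (hlm : q ≠ p)
    (hm : g • q = q) : Axis P g l :=
  centre_of_axis (P := Dual L) (L := Dual P) hr (by rwa [Dual.order]) hk ha hp hp' hlm hm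

variable (G) in
/-- Elations of a triangle satisfying the Steinberg relations. -/
structure PlaneCo (p : Fin 3 → P) (l : Fin 3 → L) (F : Type) [Field F] where
  /-- the elations -/
  x : Fin 3 → Fin 3 → F → G
  st : StSL x
  cen : ∀ i j, i ≠ j → ∀ t, Centre L (x i j t) (p i)
  ax : ∀ i j, i ≠ j → ∀ t, Axis P (x i j t) (l j)
  inj : ∀ i j, i ≠ j → ∀ t, x i j t = 1 → t = 0
  tr : ∀ i j k, i ≠ j → i ≠ k → j ≠ k → ∀ q ∈ l k, q ≠ p i → ∃ t, x i j t • p j = q

theorem exists_planeCo [Finite G]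
    (h2 : ∀ x y x' y' : P, x ≠ y → x' ≠ y' → ∃ g : G, g • x = x' ∧ g • y = y')
    {p : Fin 3 → P} {l : Fin 3 → L} (hpl : ∀ i j, p i ∈ l j ↔ i ≠ j) :
    ∃ (F : Type) (_ : Field F) (_ : Fintype F), Nonempty (PlaneCo G p l F) := by
  obtain ⟨t, c, a, ht1, htc, hta, hca⟩ := exists_elation (G := G) (P := P) (L := L) h2
  have hfix : ∀ (x : P) (u : G) (b : L), u ≠ 1 → Centre L u x → x ∈ b → Axis P u b →
      ∀ z : P, u • z = z ↔ z ∈ b := by
    intro x u b hu h1 hb h2 z
    refine ⟨fun hz => ?_, h2 z⟩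
    rcases fixed_point_cases (P := P) (L := L) hu h1 h2 hz with h3 | h3
    · exact h3 ▸ hb
    · exact h3
  let D : GFam G P :=
    { N := fun x => elA G (Dual L) (L := Dual P) x
      two := h2
      faith := Coll.faithP (L := L)
      conj := fun g x n hn => conj_mem_elA (P := Dual L) (L := Dual P) hn g
      fix := fun x n hn => Centre.fix (L := L) hn.1
      nsr := by
        obtain ⟨y, hy, hyc, -⟩ := exists_mem_ne a c c
        exact ⟨c, y, t, hyc, ⟨htc, a, hca, hta⟩, ht1, hta y hy⟩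
      ti := fun x y n h h1 h2 => eq_one_of_centres (L := L) h h1.1 h2.1
      lp := fun x y w u c hu hu1 hc hy hw => by
        obtain ⟨h1, b, hb, h3⟩ := hu
        rw [hfix x u b hu1 h1 hb h3] at hy hw ⊢
        exact smul_mem_of_fix (hc.1 b hy) hw }
  obtain ⟨F, _, _, n, φ, -, -, -, h3, h4, -⟩ := D.exists_proj
  have h6 : ∀ b : L, ∃ f : Module.Dual F (Fin n → F), ∀ z : P, z ∈ b ↔ f (φ z).rep = 0 := by
    intro b
    obtain ⟨y, hy, hyc, -⟩ := exists_mem_ne a c c
    obtain ⟨c', hc', -⟩ := exists_meet (P := P) b b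
    obtain ⟨y', hy', hyc', -⟩ := exists_mem_ne b c' c'
    obtain ⟨g, g1, g2⟩ := h2 y c y' c' hyc hyc'
    have e : g • a = b := line_eq hyc' (g1 ▸ smul_mem hy) (g2 ▸ smul_mem hca) hy' hc'
    have h5 : g * t * g⁻¹ ≠ 1 := by rwa [Ne, conj_eq_one_iff]
    have h7 := htc.conj g
    have h8 := hta.conj g
    rw [g2] at h7
    rw [e] at h8
    obtain ⟨f, -, hf⟩ := h4 c' _ ⟨h7, b, hc', h8⟩ h5
    exact ⟨f, fun z => (hfix _ _ _ h5 h7 hc' h8 z).symm.trans (hf z)⟩
  choose f0 hf0 using fun j => h6 (l j)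
  let v : Fin 3 → Fin n → F := fun i => (φ (p i)).rep
  have hv0 : ∀ j, f0 j (v j) ≠ 0 := fun j e => (hpl j j).1 ((hf0 j _).2 e) rfl
  let f : Fin 3 → Module.Dual F (Fin n → F) := fun j => (f0 j (v j))⁻¹ • f0 j
  have hf : ∀ j z, z ∈ l j ↔ f j (φ z).rep = 0 := fun j z => by
    rw [hf0]; simp [f, hv0 j]
  have f1 : ∀ j, f j (v j) = 1 := fun j => by simp [f, hv0 j]
  have f2 : ∀ i j, i ≠ j → f j (v i) = 0 := fun i j h => (hf j _).1 ((hpl i j).2 h)
  have hA : ∀ i j (s : F), ∃ A : Matrix.SpecialLinearGroup (Fin n) F, i ≠ j →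
      ∀ y : Fin n → F, A • y = y + (s * f j y) • v i := fun i j s => by
    by_cases h : i = j
    · exact ⟨1, fun h' => absurd h h'⟩
    · obtain ⟨A, hA⟩ := exists_tv (v := v i) (g := s • f j) (by simp [f2 i j h])
      exact ⟨A, fun _ y => by rw [hA]; simp⟩
  choose A hA using hA
  have hx : ∀ i j (s : F), ∃ u : G, i ≠ j → u ∈ D.N (p i) ∧ ∀ z, φ (u • z) = A i j s • φ z :=
    fun i j s => by
      by_cases h : i = j
      · exact ⟨1, fun h' => absurd h h'⟩
      · obtain ⟨u, h5, h7⟩ := h3 (p i) (A i j s) (mem_lineStab_iff.2 ⟨s • f j,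
          by simp [f2 i j h, v], fun y => by rw [hA i j s h]; simp [v]⟩)
        exact ⟨u, fun _ => ⟨h5, h7⟩⟩
  choose x hx using hx
  have ext : ∀ g g' : G, (∀ z : P, φ (g • z) = φ (g' • z)) → g = g' := fun g g' h => by
    rw [← inv_mul_eq_one]
    exact Coll.faithP (P := P) (L := L) _ fun z => by
      rw [mul_smul, ← φ.injective (h z), inv_smul_smul]
  have extA : ∀ B B' : Matrix.SpecialLinearGroup (Fin n) F, (∀ y : Fin n → F, B • y = B' • y) →
      ∀ z : ℙ F (Fin n → F), B • z = B' • z := fun B B' h z => by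
    rw [smul_eq_mk, smul_eq_mk]; simp only [h]
  have hpj : ∀ i j s, i ≠ j → ∀ w : P, φ (x i j s • p j) = φ w ↔
      ∃ c : F, c • (φ w).rep = v j + s • v i := fun i j s h w => by
    rw [(hx i j s h).2, smul_eq_mk]
    conv_lhs => rw [← (φ w).mk_rep]
    rw [Projectivization.mk_eq_mk_iff', hA i j s h, f1, mul_one]
  have hne : ∀ i j, i ≠ j → p i ≠ p j := fun i j h e => (hpl j j).1 (e ▸ (hpl i j).2 h) rfl
  have hdec : ∀ i j k, i ≠ j → i ≠ k → j ≠ k → ∀ w : Fin n → F, f k w = 0 →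
      w = f i w • v i + f j w • v j := fun i j k hij hik hjk w hw => by
    by_contra h
    rw [← ne_eq, ← sub_ne_zero] at h
    have key : ∀ m, f m (w - (f i w • v i + f j w • v j)) = 0 →
        φ.symm (Projectivization.mk F _ h) ∈ l m := fun m hm => by
      rw [hf, Equiv.apply_symm_apply, map_rep_mk, hm]
    have k1 := key i (by simp [f1, f2 j i hij.symm])
    have k2 := key j (by simp [f1, f2 i j hij])
    have k3 := key k (by simp [hw, f2 i k hik, f2 j k hjk])
    have := point_eq (l := l i) (m := l j) (fun e => (hpl i i).1 (e ▸ (hpl i j).2 hij) rfl) k1 k2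
      ((hpl k i).2 hik.symm) ((hpl k j).2 hjk.symm)
    exact (hpl k k).1 (this ▸ k3) rfl
  refine ⟨F, inferInstance, inferInstance, ⟨⟨x, ⟨fun i j h s s' => ext _ _ fun z => ?_,
    fun i j k m h h' h1 h5 s s' => ext _ _ fun z => ?_, fun i j m h h' h1 s s' => ?_⟩,
    fun i j h s => (hx i j s h).1.1, fun i j h s z hz => φ.injective ?_, fun i j h s e => ?_,
    fun i j k hij hik hjk q hq hqi => ?_⟩⟩⟩
  · rw [mul_smul, (hx _ _ _ h).2, (hx _ _ _ h).2, (hx _ _ _ h).2, ← mul_smul]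
    refine extA _ _ (fun y => ?_) _
    simp only [mul_smul, hA _ _ _ h, map_add, map_smul, f2 i j h]
    module
  · rw [mul_smul, mul_smul, (hx _ _ _ h).2, (hx _ _ _ h').2, (hx _ _ _ h').2, (hx _ _ _ h).2,
      ← mul_smul, ← mul_smul]
    refine extA _ _ (fun y => ?_) _
    simp only [mul_smul, hA _ _ _ h, hA _ _ _ h', map_add, map_smul, f2 i m h1, f2 k j h5.symm]
    module
  · rw [mul_inv_eq_iff_eq_mul, mul_inv_eq_iff_eq_mul]
    refine ext _ _ fun z => ?_
    rw [mul_smul, mul_smul, mul_smul, (hx _ _ _ h).2, (hx _ _ _ h').2, (hx _ _ _ h1).2,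
      (hx _ _ _ h').2, (hx _ _ _ h).2, ← mul_smul, ← mul_smul, ← mul_smul]
    refine extA _ _ (fun y => ?_) _
    simp only [mul_smul, hA _ _ _ h, hA _ _ _ h', hA _ _ _ h1, map_add, map_smul, f2 i m h1,
      f2 j m h', f1]
    module
  · rw [(hx _ _ _ h).2, smul_eq_mk]
    conv_rhs => rw [← (φ z).mk_rep]
    simp only [hA _ _ _ h, (hf j z).1 hz, mul_zero, zero_smul, add_zero]
  · obtain ⟨c, hc⟩ := (hpj i j s h (p j)).1 (by rw [e, one_smul])
    have := congrArg (f i) hc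
    simpa [f1, f2 j i h.symm, v, eq_comm] using this
  · have h5 : f j (φ q).rep ≠ 0 := fun e => hqi (point_eq (l := l j) (m := l k)
      (fun e => (hpl j j).1 (e ▸ (hpl j k).2 hjk) rfl) ((hf j q).2 e) hq ((hpl i j).2 hij)
      ((hpl i k).2 hik))
    refine ⟨f i (φ q).rep / f j (φ q).rep, φ.injective ((hpj i j _ hij q).2
      ⟨(f j (φ q).rep)⁻¹, ?_⟩)⟩
    nth_rewrite 2 [hdec i j k hij hik hjk _ ((hf k q).1 hq)]
    rw [smul_add, smul_smul, smul_smul, inv_mul_cancel₀ h5, one_smul, add_comm, div_eq_inv_mul]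

theorem stSL_hom {F Γ Γ' : Type*} [Field F] [Group Γ] [Group Γ'] {x : Fin 3 → Fin 3 → F → Γ}
    (R : StSL x) (f : Γ →* Γ') : StSL fun i j t => f (x i j t) :=
  ⟨fun i j h a b => by rw [← map_mul, R.add i j h],
    fun i j k l h h1 h2 h3 a b => (R.comm i j k l h h1 h2 h3 a b).map f,
    fun i j l h h1 h2 a b => by rw [← R.cmt i j l h h1 h2]; simp⟩

theorem stSL_pow {F Γ : Type*} [Field F] [Group Γ] {x : Fin 3 → Fin 3 → F → Γ} (R : StSL x)
    {i j : Fin 3} (h : i ≠ j) (t : F) (n : ℕ) : x i j t ^ n = x i j (n * t) := by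
  induction n with
  | zero => simp [R.zero h]
  | succ n ih => rw [pow_succ, ih, R.add i j h]; congr 1; push_cast; ring

theorem fin3_third : ∀ i j : Fin 3, i ≠ j → ∃ k, i ≠ k ∧ j ≠ k := by decide

namespace PlaneCo

variable {p : Fin 3 → P} {l : Fin 3 → L} {F : Type} [Field F] (C : PlaneCo G p l F)
  (hpl : ∀ i j, p i ∈ l j ↔ i ≠ j)
include hpl

theorem surj {i j : Fin 3} (h : i ≠ j) {g : G} (h1 : Centre L g (p i)) (h2 : Axis P g (l j)) :
    ∃ t, C.x i j t = g := by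
  obtain ⟨k, hi, hj⟩ := fin3_third i j h
  obtain ⟨t, ht⟩ := C.tr i j k h hi hj (g • p j)
    (smul_mem_of_fix (h1 _ ((hpl i k).2 hi)) ((hpl j k).2 hj)) fun e => (hpl j j).1 (by
      rw [MulAction.injective g (e.trans h1.fix.symm)]; exact (hpl i j).2 h) rfl
  refine ⟨t, (inv_mul_eq_one.1 (eq_one_of_elA (a := l j) (u := p j) ⟨h2.inv.mul (C.ax i j h t),
    p i, (hpl i j).2 h, h1.inv.mul (C.cen i j h t)⟩ (fun e => (hpl j j).1 e rfl) ?_)).symm⟩
  rw [mul_smul, ht, inv_smul_smul]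

theorem tr' {i j k : Fin 3} (h : i ≠ j) (hi : i ≠ k) (hj : j ≠ k) {m : L} (h1 : p k ∈ m)
    (h2 : m ≠ l j) : ∃ t, C.x i j t • l i = m := by
  obtain ⟨q, hq, hq'⟩ := exists_meet (P := P) m (l k)
  obtain ⟨t, ht⟩ := C.tr i j k h hi hj q hq' fun e => h2 (line_eq (p := p i) (q := p k)
    (fun e' => (hpl k k).1 (e' ▸ (hpl i k).2 hi) rfl) (e ▸ hq) h1 ((hpl i j).2 h)
    ((hpl k j).2 hj.symm))
  refine ⟨t, line_eq (p := q) (q := p k) (fun e => (hpl k k).1 (e ▸ hq') rfl)
    (ht ▸ smul_mem ((hpl j i).2 h.symm))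
    (mem_smul_of_fix (C.ax i j h t _ ((hpl k j).2 hj.symm)) ((hpl k i).2 hi.symm)) hq h1⟩

include C in
theorem char_dvd [Finite F] : ringChar F ∣ order P L :=
  dvd_of_elation (g := C.x 0 1 1) (fun e => one_ne_zero (C.inj 0 1 (by decide) 1 e))
    (C.cen 0 1 (by decide) 1) (C.ax 0 1 (by decide) 1) ((hpl 0 1).2 (by decide))
    (CharP.char_is_prime F _) (by
      rw [stSL_pow C.st (by decide), ringChar.Nat.cast_ringChar, zero_mul, C.st.zero (by decide)])

end PlaneCo

end Cfsg.Agent.BNP
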