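import Mathlib
import Cfsg.Agent.BNP.Comm
import Cfsg.Agent.BNP.PlaneOW

/-!
A residue of type `A₂` of a finite Tits system is a Desarguesian projective plane.
-/

set_option autoImplicit false
set_option linter.unusedSectionVars false

namespace Cfsg.Agent.BNP

open Cfsg.Agent.Chev Cfsg.Agent.St Cfsg.Agent.Proj Cfsg.Agent.KSG Configuration

variable {G ι W : Type*} [Group G] [Group W] {T : Tits G ι W} [Finite W]

set_option hygiene false in
local notation "δ" => dist T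
set_option hygiene false in
local notation "𝐬" => T.s

variable (T) in
/-- The panels of type `i` in the standard residue of type `J`. -/
def Pan (J : Set ι) (i _j : ι) : Type _ :=
  Quotient (⟨fun y z : RJ T J => Rs T {i} y.1 z.1, fun _ => Rs.refl _ _, Rs.symm, Rs.trans⟩ :
    Setoid _)

variable {J : Set ι} {a b : ι}

/-- The panel containing a chamber. -/
def pan (i j : ι) (y : RJ T J) : Pan T J i j := Quotient.mk _ y

theorem pan_eq {i j : ι} {y z : RJ T J} : pan i j y = pan i j z ↔ Rs T {i} y.1 z.1 := Quotient.eq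

theorem pan_surj {i j : ι} (p : Pan T J i j) : ∃ y, pan i j y = p := Quotient.exists_rep p

instance memPan (i j : ι) : Membership (Pan T J i j) (Pan T J j i) :=
  ⟨fun l p => ∃ y, pan i j y = p ∧ pan j i y = l⟩

theorem mem_pan {i j : ι} {p : Pan T J i j} {l : Pan T J j i} :
    p ∈ l ↔ ∃ y, pan i j y = p ∧ pan j i y = l := Iff.rfl

theorem mem_pan_symm {i j : ι} {p : Pan T J i j} {l : Pan T J j i} (h : p ∈ l) : l ∈ p :=
  ⟨h.choose, h.choose_spec.2, h.choose_spec.1⟩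

theorem pan_mem {i j : ι} (y : RJ T J) : pan i j y ∈ pan j i y := ⟨y, rfl, rfl⟩

instance finiteRJ [Finite G] : Finite (RJ T J) := Subtype.finite

instance finitePan [Finite G] (i j : ι) : Finite (Pan T J i j) := Quotient.finite _

variable (T J) in
/-- The isometries of the standard residue. -/
def AutR : Subgroup (Equiv.Perm (RJ T J)) where
  carrier := {σ | ∀ y z, δ (σ y).1 (σ z).1 = δ y.1 z.1}
  one_mem' _ _ := rfl
  mul_mem' ha hb y z := (ha _ _).trans (hb y z)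
  inv_mem' {σ} ha y z := by simpa using (ha (σ⁻¹ y) (σ⁻¹ z)).symm

instance actPan (i j : ι) : MulAction (AutR T J) (Pan T J i j) where
  smul σ := Quotient.map σ.1 fun y z h => by
    change δ _ _ ∈ WJ 𝐬 {i}
    rw [σ.2]; exact h
  one_smul p := by obtain ⟨y, rfl⟩ := pan_surj p; rfl
  mul_smul σ τ p := by obtain ⟨y, rfl⟩ := pan_surj p; rfl

theorem smul_pan (σ : AutR T J) (i j : ι) (y : RJ T J) : σ • pan i j y = pan i j (σ.1 y) := rfl

variable (T J) in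
/-- The stabiliser of the standard residue. -/
def StR : Subgroup G where
  carrier := {g | Rs T J (ap T 1) (g • ap T 1)}
  one_mem' := by change Rs _ _ _ _; rw [one_smul]; exact Rs.refl _ _
  mul_mem' {a b} ha hb := by
    change Rs _ _ _ _; rw [mul_smul]; exact Rs.trans ha ((rs_smul a).2 hb)
  inv_mem' {a} ha := by change Rs _ _ _ _; rw [← rs_smul a, smul_inv_smul]; exact Rs.symm ha

instance actStR : MulAction (StR T J) (RJ T J) where
  smul g y := ⟨g.1 • y.1, Rs.trans g.2 ((rs_smul g.1).2 y.2)⟩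
  one_smul y := Subtype.ext (one_smul G y.1)
  mul_smul g h y := Subtype.ext (mul_smul g.1 h.1 y.1)

/-- The isometry induced by an element stabilising the residue. -/
def toA : StR T J →* AutR T J :=
  (MulAction.toPermHom (StR T J) (RJ T J)).codRestrict _ fun g y z => dist_smul g.1 y.1 z.1

theorem toA_apply (g : StR T J) (y : RJ T J) : ((toA g).1 y).1 = g.1 • y.1 := rfl

theorem toA_eq_one {g : StR T J} : toA g = 1 ↔ g.1 ∈ Kr T (ap T 1) J :=
  ⟨fun h y hy => (toA_apply g ⟨y, hy⟩).symm.trans (by rw [h]; rfl),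
    fun h => Subtype.ext (Equiv.ext fun y => Subtype.ext (h y.1 y.2))⟩

/-- The isometry induced by an element of the Levi subgroup. -/
def toL : LJ T J →* AutR T J := toA.comp (Subgroup.inclusion fun _ h => h.1)

theorem eq_of_rs (hab : a ≠ b) {y z : Ch T} (h1 : Rs T {a} y z) (h2 : Rs T {b} y z) : y = z := by
  by_contra h
  exact hab (T.cox.inj ((h1.dist_eq h).symm.trans (h2.dist_eq h)))

theorem eq_of_pan (hab : a ≠ b) {y z : RJ T J} (h1 : pan a b y = pan a b z)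
    (h2 : pan b a y = pan b a z) : y = z := Subtype.ext (eq_of_rs hab (pan_eq.1 h1) (pan_eq.1 h2))

theorem dist_of_rs (hab : a ≠ b) {x y z : Ch T} (h1 : Rs T {a} x y) (h2 : Rs T {b} y z) :
    δ x z = δ x y * δ y z :=
  dist_gate (fun j hj hd => hab ((T.cox.mem_of_RD h1 hd).symm.trans hj)) h2

theorem ne_of_nc (hc : 𝐬 a * 𝐬 b ≠ 𝐬 b * 𝐬 a) : a ≠ b := by rintro rfl; exact hc rfl

theorem ne_mul_of_nc (hc : 𝐬 a * 𝐬 b ≠ 𝐬 b * 𝐬 a) {u v : W} (hu : u ∈ WJ 𝐬 {b})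
    (hv : v ∈ WJ 𝐬 {a}) : 𝐬 a * 𝐬 b ≠ u * v := by
  rcases (mem_WJ_one T.cox).1 hu with rfl | rfl <;> rcases (mem_WJ_one T.cox).1 hv with rfl | rfl
  · intro e
    exact ne_of_nc hc (T.cox.inj (by rw [eq_inv_of_mul_eq_one_left (e.trans (mul_one 1)),
      gen_inv T.cox]))
  · rw [one_mul, Ne, mul_eq_left]; exact gen_ne_one' T.cox b
  · rw [mul_one, Ne, mul_eq_right]; exact gen_ne_one' T.cox a
  · exact hc

theorem notMem_pan (hc : 𝐬 a * 𝐬 b ≠ 𝐬 b * 𝐬 a) {y z : RJ T J} (h : δ y.1 z.1 = 𝐬 a * 𝐬 b) :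
    pan b a y ∉ pan a b z := by
  rintro ⟨x, h1, h2⟩
  have h3 := (pan_eq.1 h1).symm
  have h4 := pan_eq.1 h2
  exact ne_mul_of_nc hc h3 h4 (h ▸ dist_of_rs (ne_of_nc hc).symm h3 h4)

theorem pan_eq_or (hc : 𝐬 a * 𝐬 b ≠ 𝐬 b * 𝐬 a) {p q : Pan T J b a} {l m : Pan T J a b}
    (h1 : p ∈ l) (h2 : q ∈ l) (h3 : p ∈ m) (h4 : q ∈ m) : p = q ∨ l = m := by
  obtain ⟨x, rfl, rfl⟩ := h1
  obtain ⟨y, rfl, e2⟩ := h2
  obtain ⟨z, e3, rfl⟩ := h3
  by_contra h
  push Not at h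
  have d1 := (pan_eq.1 e2).dist_eq fun e => h.1 (by rw [Subtype.ext e])
  have d2 := (pan_eq.1 e3).symm.dist_eq fun e => h.2 (by rw [Subtype.ext e])
  exact notMem_pan hc (by rw [dist_of_rs (ne_of_nc hc) (rs_gen d1) (rs_gen d2), d1, d2]) h4

theorem exists_third_pan (hab : a ≠ b) (ha : a ∈ J) {p q : Pan T J b a} {l : Pan T J a b}
    (h1 : p ∈ l) (h2 : q ∈ l) : ∃ r ∈ l, r ≠ p ∧ r ≠ q := by
  obtain ⟨x, rfl, rfl⟩ := h1
  obtain ⟨y, rfl, e2⟩ := h2
  obtain ⟨z, h3, h4, h5⟩ := exists_ne_two x.1 a x.1 y.1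
  let z' : RJ T J := ⟨z, x.2.trans (h3.mono (Set.singleton_subset_iff.2 ha))⟩
  have e : pan a b z' = pan a b x := pan_eq.2 h3.symm
  exact ⟨pan b a z', ⟨z', rfl, e⟩, fun e' => h4 (congrArg Subtype.val (eq_of_pan hab e e')),
    fun e' => h5 (congrArg Subtype.val (eq_of_pan hab (e.trans e2.symm) e'))⟩

theorem nc_of_three (h : orderOf (𝐬 a * 𝐬 b) = 3) : 𝐬 a * 𝐬 b ≠ 𝐬 b * 𝐬 a := fun e => by
  have : orderOf (𝐬 a * 𝐬 b) ∣ 2 := orderOf_dvd_of_pow_eq_one (by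
    rw [sq]; nth_rewrite 1 [e]; rw [mul_assoc, cancel_l T.cox, T.cox.sq])
  rw [h] at this; omega

theorem braid_three (h : orderOf (𝐬 a * 𝐬 b) = 3) : 𝐬 a * 𝐬 b * 𝐬 a = 𝐬 b * 𝐬 a * 𝐬 b := by
  have := av_ord T.cox a b
  rwa [h, av_three, av_three] at this

theorem exists_join_pan (h : orderOf (𝐬 a * 𝐬 b) = 3) (hJ : J = {a, b}) (p q : Pan T J b a) :
    ∃ l : Pan T J a b, p ∈ l ∧ q ∈ l := by
  obtain ⟨y, rfl⟩ := pan_surj p
  obtain ⟨z, rfl⟩ := pan_surj q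
  have ha : 𝐬 a ∈ WJ 𝐬 {a} := gen_mem_WJ rfl
  have hb : 𝐬 b ∈ WJ 𝐬 {b} := gen_mem_WJ rfl
  have key : ∃ u ∈ WJ 𝐬 {b}, ∃ v ∈ WJ 𝐬 {a}, ∃ w ∈ WJ 𝐬 {b}, δ y.1 z.1 = u * (v * w) := by
    obtain ⟨k, hk, e⟩ := eq_av T.cox (hJ ▸ y.2.symm.trans z.2 : δ y.1 z.1 ∈ WJ 𝐬 {a, b})
    rw [h] at hk
    interval_cases k <;> rcases e with e | e <;> rw [e]
    · exact ⟨1, one_mem _, 1, one_mem _, 1, one_mem _, by simp⟩
    · exact ⟨1, one_mem _, 1, one_mem _, 1, one_mem _, by simp⟩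
    · exact ⟨1, one_mem _, _, ha, 1, one_mem _, by simp [av_one]⟩
    · exact ⟨_, hb, 1, one_mem _, 1, one_mem _, by simp [av_one]⟩
    · exact ⟨1, one_mem _, _, ha, _, hb, by simp [av_two]⟩
    · exact ⟨_, hb, _, ha, 1, one_mem _, by simp [av_two]⟩
    · exact ⟨_, hb, _, ha, _, hb, by rw [av_three, braid_three h, mul_assoc]⟩
    · exact ⟨_, hb, _, ha, _, hb, by rw [av_three, mul_assoc]⟩
  obtain ⟨u, hu, v, hv, w, hw, e⟩ := key
  obtain ⟨y', rfl, e'⟩ := exists_mid e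
  obtain ⟨z', rfl, rfl⟩ := exists_mid e'
  have hb' : ({b} : Set ι) ⊆ J := by simp [hJ]
  exact ⟨pan a b ⟨y', y.2.trans (Rs.mono hu hb')⟩,
    ⟨⟨y', y.2.trans (Rs.mono hu hb')⟩, pan_eq.2 (Rs.symm hu), rfl⟩,
    ⟨⟨z', z.2.trans (Rs.mono (Rs.symm hw) hb')⟩, pan_eq.2 hw, pan_eq.2 (Rs.symm hv)⟩⟩

theorem exists_notMem_pan (hc : 𝐬 a * 𝐬 b ≠ 𝐬 b * 𝐬 a) (ha : a ∈ J) (hb : b ∈ J)
    (p : Pan T J b a) : ∃ l : Pan T J a b, p ∉ l := by
  obtain ⟨y, rfl⟩ := pan_surj p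
  obtain ⟨z, hz⟩ := exists_dist y.1 (𝐬 a * 𝐬 b)
  exact ⟨pan a b ⟨z, y.2.trans (by
    rw [Rs, hz]; exact mul_mem (gen_mem_WJ ha) (gen_mem_WJ hb))⟩, notMem_pan hc hz⟩

theorem eq_one_of_pan (hc : 𝐬 a * 𝐬 b ≠ 𝐬 b * 𝐬 a) (ha : a ∈ J) {σ : AutR T J}
    (h : ∀ p : Pan T J b a, σ • p = p) : σ = 1 := by
  refine Subtype.ext (Equiv.ext fun y => eq_of_pan (ne_of_nc hc) ?_ (h (pan b a y)))
  obtain ⟨q, hq, hq', -⟩ := exists_third_pan (ne_of_nc hc) ha (pan_mem y) (pan_mem y)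
  refine (pan_eq_or hc ?_ ⟨_, h (pan b a y), rfl⟩ hq (pan_mem y)).resolve_left hq'
  obtain ⟨z, rfl, e⟩ := hq
  exact ⟨σ.1 z, h (pan b a z), congrArg (σ • ·) e⟩

theorem coll_pan (hc : 𝐬 a * 𝐬 b ≠ 𝐬 b * 𝐬 a) (ha : a ∈ J) (hb : b ∈ J) :
    Coll (AutR T J) (Pan T J b a) (Pan T J a b) where
  mem_iff σ p l := by
    have key : ∀ (σ : AutR T J) (p : Pan T J b a) (l : Pan T J a b), p ∈ l → σ • p ∈ σ • l := by
      rintro σ _ _ ⟨y, rfl, rfl⟩; exact pan_mem _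
    exact ⟨fun h => by simpa using key σ⁻¹ _ _ h, key σ p l⟩
  faithP _ := eq_one_of_pan hc ha
  faithL _ := eq_one_of_pan (Ne.symm hc) hb

theorem coll_subgroup {H P L : Type*} [Group H] [Membership P L] [MulAction H P] [MulAction H L]
    [h : Coll H P L] (K : Subgroup H) : Coll K P L :=
  ⟨fun g => h.mem_iff g.1, fun g e => Subtype.ext (h.faithP g.1 e),
    fun g e => Subtype.ext (h.faithL g.1 e)⟩

theorem mem_Kr_iff (hab : a ≠ b) (ha : a ∈ J) {g : StR T J} {y : RJ T J}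
    (h0 : (∀ p ∈ pan a b y, toA g • p = p) → toA g • pan a b y = pan a b y) :
    g.1 ∈ Kr T y.1 {a} ↔ ∀ p ∈ pan a b y, toA g • p = p := by
  refine ⟨?_, fun h z hz => ?_⟩
  · rintro h _ ⟨z, rfl, e⟩
    rw [smul_pan]; congr 1
    exact Subtype.ext (h _ (pan_eq.1 e).symm)
  · let z' : RJ T J := ⟨z, y.2.trans (hz.mono (Set.singleton_subset_iff.2 ha))⟩
    have e : pan a b z' = pan a b y := pan_eq.2 hz.symm
    exact congrArg Subtype.val (eq_of_pan hab (y := (toA g).1 z') (z := z')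
      (by rw [← smul_pan, e, h0 h]) (h _ ⟨z', rfl, e⟩))

/-- The middle chambers of the six roots. -/
def mid3 (s : ι → W) (a b : ι) : Fin 3 → Fin 3 → W :=
  ![![1, s b, 1], ![s a * s b, 1, s a], ![s a * s b * s a, s b * s a, 1]]

theorem mid3_mem (a b : ι) (i j : Fin 3) : mid3 𝐬 a b i j ∈ WJ 𝐬 {a, b} := by
  have ha : 𝐬 a ∈ WJ 𝐬 {a, b} := gen_mem_WJ (by simp)
  have hb : 𝐬 b ∈ WJ 𝐬 {a, b} := gen_mem_WJ (by simp)
  fin_cases i <;> fin_cases j
  exacts [one_mem _, hb, one_mem _, mul_mem ha hb, one_mem _, ha, mul_mem (mul_mem ha hb) ha,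
    mul_mem hb ha, one_mem _]

theorem rA_eq (h : orderOf (𝐬 a * 𝐬 b) = 3) {i j : Fin 3} (hij : i ≠ j) :
    rA 𝐬 a b i j = tr (mid3 𝐬 a b i j) (rt 𝐬 (𝐬 a) b) := by
  have h1 : rt 𝐬 1 a = tr (𝐬 b) (rt 𝐬 (𝐬 a) b) := by
    rw [tr_rt, ← bt_two, ← bt_zero a b]
    exact (bt_symm T.cox (by omega)).symm
  have h2 : rt 𝐬 1 b = tr (𝐬 a) (rt 𝐬 (𝐬 a) b) := by rw [tr_rt, T.cox.sq]
  fin_cases i <;> fin_cases j
  exacts [absurd rfl hij, h1, (tr_one _).symm,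
    (tr_gen_rt a).symm.trans ((congrArg _ h1).trans (tr_tr _ _ _)), absurd rfl hij, h2,
    (rt_mul_gen T.cox _ _).symm.trans (by
      change _ = tr (𝐬 a * 𝐬 b * 𝐬 a) _; rw [tr_rt, cancel_r T.cox]),
    (tr_gen_rt b).symm.trans ((congrArg _ h2).trans (tr_tr _ _ _)), absurd rfl hij]

theorem inJ_rA (h : orderOf (𝐬 a * 𝐬 b) = 3) {i j : Fin 3} (hij : i ≠ j) :
    InJ 𝐬 {a, b} (rA 𝐬 a b i j) := by
  rw [rA_eq h hij]
  exact (inJ_rt (gen_mem_WJ (by simp)) (by simp)).tr (mid3_mem a b i j)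

theorem mem_XJ_mid (h : orderOf (𝐬 a * 𝐬 b) = 3) {g : G} (hg : g ∈ LJ T {a, b}) {m : W}
    (hm : m ∈ WJ 𝐬 {a, b}) : g ∈ XJ T {a, b} (tr m (rt 𝐬 (𝐬 a) b)) ↔
      g ∈ Kr T (ap T m) {a} ∧ g ∈ Kr T (ap T m) {b} := by
  have k1 : ∀ k ≤ 3, av 𝐬 a b k ∈ rt 𝐬 (𝐬 a) b ↔ k ≤ 1 := fun k hk => by
    rw [← bt_one]; exact av_mem_bt T.cox (by omega) (by omega)
  have k2 : ∀ k ≤ 3, av 𝐬 b a k ∈ rt 𝐬 (𝐬 a) b ↔ k ≤ 1 := fun k hk => by
    rw [← bt_one, av_mem_bt' T.cox (by omega) (by omega)]; omega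
  have m0 : m ∈ tr m (rt 𝐬 (𝐬 a) b) := by simpa [mem_tr] using (k1 0 (by omega)).2 (by omega)
  refine ⟨fun hx => ⟨hx.2 m m0 hm a (by simp) ?_, hx.2 m m0 hm b (by simp) ?_⟩, fun ⟨h1, h2⟩ => ?_⟩
  · rw [mul_mem_tr]; exact self_mem_rt T.cox _ _
  · rw [mul_mem_tr, ← av_one (s := 𝐬) b a, k2 1 (by omega)]
  have ha : 𝐬 a ∈ WJ 𝐬 {a, b} := gen_mem_WJ (by simp)
  refine ⟨?_, fun x hx hx' k hk hk' => ?_⟩
  · obtain ⟨n, hn⟩ := exists_mv T (m * 𝐬 a)
    have h3 := hn.mem_LJ (mul_mem hm ha)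
    have h4 := hn.conj_mem_Fx (mem_Fx_of_LJ (g := n⁻¹ * g * n) (i := b)
      (mul_mem (mul_mem (inv_mem h3) hg) h3) (by simp) (by
        rw [mul_smul, mul_smul, hn, inv_smul_eq_iff, hn, mul_one]
        exact h1 _ (rs_ap_mul m (gen_mem_WJ rfl))) (by
        rw [mul_smul, mul_smul, hn, inv_smul_eq_iff, hn, wJ_pair, h, av_three, braid_three h,
          mul_assoc (𝐬 b), cancel_l T.cox, mul_assoc, cancel_l T.cox]
        exact h2 _ (rs_ap_mul m (gen_mem_WJ rfl))))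
    rw [tr_rt, mul_one] at h4
    simpa [tr_rt, mul_assoc] using h4
  · obtain ⟨v, rfl⟩ : ∃ v, x = m * v := ⟨m⁻¹ * x, by group⟩
    rw [mul_assoc, mul_mem_tr] at hk'
    rw [mul_mem_tr] at hx
    have key : v = 1 ∨ (v = 𝐬 k) := by
      obtain ⟨l, hl, rfl | rfl⟩ := eq_av T.cox ((mul_mem_cancel_left hm).1 hx')
      · rw [h] at hl
        obtain rfl | rfl : l = 0 ∨ l = 1 := by have := (k1 l hl).1 hx; omega
        · exact Or.inl rfl
        rw [av_one] at hk' ⊢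
        rcases hk with rfl | rfl
        · exact Or.inr rfl
        · rw [← av_two, k1 2 (by omega)] at hk'; omega
      · rw [h] at hl
        obtain rfl | rfl : l = 0 ∨ l = 1 := by have := (k2 l hl).1 hx; omega
        · exact Or.inl rfl
        rw [av_one] at hk' ⊢
        rcases hk with rfl | rfl
        · rw [← av_two, k2 2 (by omega)] at hk'; omega
        · exact Or.inr rfl
    have h5 : g ∈ Kr T (ap T m) {k} := by rcases hk with rfl | rfl <;> assumption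
    rcases key with rfl | rfl
    · rwa [mul_one]
    · rwa [← Kr_congr (rs_gen (dist_ap_mul m _))]

theorem card_eq_qq {i j : ι} (hi : i ∈ J) (hj : j ∈ J) (hc : 𝐬 i * 𝐬 j ≠ 𝐬 j * 𝐬 i)
    (hM : MoufJ T J i) {F : Type*} {f : F → G} (h1 : ∀ t, f t ∈ XJ T J (rt 𝐬 1 i))
    (h2 : ∀ g ∈ XJ T J (rt 𝐬 1 i), ∃ t, g⁻¹ * f t ∈ Kr T (ap T 1) J)
    (h3 : ∀ t t', (f t)⁻¹ * f t' ∈ Kr T (ap T 1) J → t = t') : Nat.card F = qq T i := by
  refine Nat.card_congr (Equiv.ofBijective (fun t => ⟨f t • ap T (𝐬 i), by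
    change δ _ _ = _
    rw [dist_of_fix ((h1 t).1 1 (self_mem_rt T.cox 1 i)), dist_ap_one]⟩) ⟨fun t t' h => ?_, ?_⟩)
  · refine h3 t t' (mem_Kr_of_XJ hj hc (mul_mem (inv_mem (h1 t)) (h1 t')) (dist_ap_one _) ?_)
    rw [mul_smul, inv_smul_eq_iff]
    exact (congrArg Subtype.val h).symm
  · rintro ⟨y, hy⟩
    obtain ⟨g, h4, rfl⟩ := hM y hy
    obtain ⟨t, ht⟩ := h2 g h4
    refine ⟨t, Subtype.ext ?_⟩
    have := mem_Kr.1 ht _ (rs_ap_one (gen_mem_WJ hi))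
    rwa [mul_smul, inv_smul_eq_iff] at this

/-- The chamber of the standard apartment with a given label. -/
noncomputable def apR {w : W} (hw : w ∈ WJ 𝐬 J) : RJ T J := ⟨ap T w, rs_ap_one hw⟩

variable (T a b) in
/-- The vertices of the standard triangle. -/
noncomputable def triP : Fin 3 → Pan T {a, b} b a :=
  ![pan b a (apR (mid3_mem a b 0 2)), pan b a (apR (mid3_mem a b 1 2)),
    pan b a (apR (mid3_mem a b 2 1))]

variable (T a b) in
/-- The sides of the standard triangle. -/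
noncomputable def triL : Fin 3 → Pan T {a, b} a b :=
  ![pan a b (apR (mid3_mem a b 1 0)), pan a b (apR (mid3_mem a b 0 1)),
    pan a b (apR (mid3_mem a b 0 2))]

theorem pan_mid (h : orderOf (𝐬 a * 𝐬 b) = 3) {i j : Fin 3} (hij : i ≠ j) :
    pan b a (apR (mid3_mem a b i j)) = triP T a b i ∧
      pan a b (apR (mid3_mem a b i j)) = triL T a b j := by
  have key : ∀ (k : ι) (w : W), Rs T {k} (ap T (w * 𝐬 k)) (ap T w) := fun k w =>
    (rs_gen (dist_ap_mul w _)).symm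
  have key' : ∀ k : ι, Rs T {k} (ap T (𝐬 k)) (ap T 1) := fun k => by simpa using key k 1
  fin_cases i <;> fin_cases j
  exacts [absurd rfl hij, ⟨pan_eq.2 (key' b), rfl⟩, ⟨rfl, rfl⟩, ⟨pan_eq.2 (key b _), rfl⟩,
    absurd rfl hij, ⟨rfl, pan_eq.2 (key' a)⟩,
    ⟨pan_eq.2 (by
      change Rs T {b} (ap T (𝐬 a * 𝐬 b * 𝐬 a)) _; rw [braid_three h]; exact key b _),
      pan_eq.2 (key a _)⟩, ⟨rfl, pan_eq.2 (key a _)⟩, absurd rfl hij]

theorem tri_mem (h : orderOf (𝐬 a * 𝐬 b) = 3) (i j : Fin 3) :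
    triP T a b i ∈ triL T a b j ↔ i ≠ j := by
  refine ⟨?_, fun hij => ⟨_, pan_mid h hij⟩⟩
  rintro h1 rfl
  fin_cases i <;> refine notMem_pan (nc_of_three h) ?_ h1
  · exact dist_ap_one _
  · exact (dist_ap _ _).trans (congrArg (· * 𝐬 b) (gen_inv T.cox a))
  · refine (dist_ap (𝐬 b * 𝐬 a) 1).trans ?_
    rw [mul_one, mul_inv_rev, gen_inv T.cox, gen_inv T.cox]

/-- The projective plane of a residue of type `A₂`. -/
@[reducible] noncomputable def planePan (h : orderOf (𝐬 a * 𝐬 b) = 3) :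
    ProjectivePlane (Pan T {a, b} b a) (Pan T {a, b} a b) where
  exists_point l := by
    obtain ⟨p, hp⟩ := exists_notMem_pan (nc_of_three h).symm (by simp) (by simp) l
    exact ⟨p, fun e => hp (mem_pan_symm e)⟩
  exists_line := exists_notMem_pan (nc_of_three h) (by simp) (by simp)
  eq_or_eq := pan_eq_or (nc_of_three h)
  mkPoint {l m} _ := (exists_join_pan ((ord_comm T.cox a b).trans h) (Set.pair_comm a b) l m).choose
  mkPoint_ax {l m} _ := (exists_join_pan ((ord_comm T.cox a b).trans h) (Set.pair_comm a b) l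
    m).choose_spec.imp mem_pan_symm mem_pan_symm
  mkLine {p q} _ := (exists_join_pan h rfl p q).choose
  mkLine_ax {p q} _ := (exists_join_pan h rfl p q).choose_spec
  exists_config := by
    have hc := nc_of_three h
    have key : ∀ i j k : Fin 3, i ≠ j → i ≠ k → j ≠ k → ∀ r ∈ triL T a b k, r ≠ triP T a b i →
        r ∉ triL T a b j := fun i j k h1 h2 h3 r h4 h5 h6 =>
      (pan_eq_or hc h4 ((tri_mem h i k).2 h2) h6 ((tri_mem h i j).2 h1)).elim h5 fun e =>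
        (tri_mem h k k).1 (e ▸ (tri_mem h k j).2 h3.symm) rfl
    obtain ⟨p, h1, h2, h3⟩ := exists_third_pan (ne_of_nc hc) (by simp)
      ((tri_mem h 1 0).2 (by decide)) ((tri_mem h 2 0).2 (by decide))
    obtain ⟨q, h4, h5, h6⟩ := exists_third_pan (ne_of_nc hc) (by simp)
      ((tri_mem h 0 2).2 (by decide)) ((tri_mem h 1 2).2 (by decide))
    exact ⟨p, triP T a b 0, q, triL T a b 0, triL T a b 2, triL T a b 1,
      key 1 2 0 (by decide) (by decide) (by decide) p h1 h2,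
      key 2 1 0 (by decide) (by decide) (by decide) p h1 h3, fun e => (tri_mem h 0 0).1 e rfl,
      (tri_mem h 0 2).2 (by decide), (tri_mem h 0 1).2 (by decide),
      key 1 0 2 (by decide) (by decide) (by decide) q h4 h6, h4,
      key 0 1 2 (by decide) (by decide) (by decide) q h4 h5⟩

theorem two_trans_pan (h : orderOf (𝐬 a * 𝐬 b) = 3) (p q p' q' : Pan T {a, b} b a) (h1 : p ≠ q)
    (h2 : p' ≠ q') : ∃ g : (toL (T := T) (J := {a, b})).range, g • p = p' ∧ g • q = q' := by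
  have key : ∀ p q : Pan T {a, b} b a, p ≠ q → ∃ g : (toL (T := T) (J := {a, b})).range,
      g • triP T a b 0 = p ∧ g • triP T a b 1 = q := fun p q h1 => by
    obtain ⟨_, ⟨y, rfl, rfl⟩, z, rfl, e⟩ := exists_join_pan h rfl p q
    have e' := (pan_eq.1 e).symm
    obtain ⟨g, hg, g1, g2⟩ := exists_LJ y.2 (e'.mono (by simp))
    rw [e'.dist_eq fun e => h1 (by rw [Subtype.ext e])] at g2
    exact ⟨⟨_, ⟨g, hg⟩, rfl⟩, congrArg (pan b a) (Subtype.ext g1),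
      congrArg (pan b a) (Subtype.ext g2)⟩
  obtain ⟨g, rfl, rfl⟩ := key p q h1
  obtain ⟨g', rfl, rfl⟩ := key p' q' h2
  exact ⟨g' * g⁻¹, by rw [mul_smul, inv_smul_smul], by rw [mul_smul, inv_smul_smul]⟩

theorem elat_of {i j : ι} {r : ℕ} (H : ∀ (g : StR T J) (k : ℕ) (z : RJ T J), toA g ^ r ^ k = 1 →
      g.1 ∈ Kr T (ap T 1) {i} → δ (ap T 1) z.1 = 𝐬 j → (toA g).1 z = z → g.1 ∈ Kr T (ap T 1) {j})
    (hj : j ∈ J) (g : G) (k : ℕ) (y z : Ch T) (h1 : g ^ r ^ k ∈ Kr T y J) (h2 : g ∈ Kr T y {i})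
    (h3 : δ y z = 𝐬 j) (h4 : g • z = z) : g ∈ Kr T y {j} := by
  obtain ⟨n, rfl, -⟩ := exists_smul_eq (x := ap T 1) (y := ap T 1) (x' := y) (y' := y) (by simp)
  have h5 := conj_mem_Kr h1 n⁻¹
  have h6 := conj_mem_Kr h2 n⁻¹
  rw [inv_smul_smul] at h5 h6
  rw [dist_smul_left] at h3
  have := conj_mem_Kr (H ⟨n⁻¹ * g * n⁻¹⁻¹, by
    change Rs _ _ _ _; rw [Kr_self h6]; exact Rs.refl _ _⟩ k ⟨_, rs_of_gen hj h3⟩ (by
      rw [← map_pow, toA_eq_one]
      simpa only [Subgroup.coe_pow, conj_pow] using h5) h6 h3 (Subtype.ext (by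
      change (n⁻¹ * g * n⁻¹⁻¹) • n⁻¹ • z = n⁻¹ • z
      rw [mul_smul, mul_smul, inv_inv, smul_inv_smul, h4]))) n
  simpa [mul_assoc] using this

theorem exists_planeSys [Finite G] {a b : ι} (h : orderOf (T.s a * T.s b) = 3) :
    ∃ (F : Type) (_ : Field F) (_ : Fintype F), Nonempty (PlaneSys T a b F) := by
  let _ := planePan h
  have hc := nc_of_three h
  have hab := ne_of_nc hc
  have ha : a ∈ ({a, b} : Set ι) := by simp
  have hb : b ∈ ({a, b} : Set ι) := by simp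
  have := coll_pan hc ha hb
  have := coll_subgroup (P := Pan T {a, b} b a) (L := Pan T {a, b} a b)
    (toL (T := T) (J := {a, b})).range
  obtain ⟨F, _, _, ⟨C⟩⟩ := exists_planeCo (two_trans_pan h) (tri_mem h)
  choose x hx using fun i j t => (C.x i j t).2
  have ka : ∀ (g : StR T {a, b}) (y : RJ T {a, b}),
      g.1 ∈ Kr T y.1 {a} ↔ Axis (Pan T {a, b} b a) (toA g) (pan a b y) := fun g y =>
    mem_Kr_iff hab ha Axis.fix
  have kb : ∀ (g : StR T {a, b}) (y : RJ T {a, b}),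
      g.1 ∈ Kr T y.1 {b} ↔ Centre (Pan T {a, b} a b) (toA g) (pan b a y) := fun g y =>
    (mem_Kr_iff hab.symm hb fun h1 => Centre.fix (L := Pan T {a, b} a b) fun l hl =>
      h1 l (mem_pan_symm hl)).trans
      ⟨fun h1 l hl => h1 l (mem_pan_symm hl), fun h1 l hl => h1 l (mem_pan_symm hl)⟩
  have kx : ∀ (g : LJ T {a, b}) (i j : Fin 3), i ≠ j → (g.1 ∈ XJ T {a, b} (rA 𝐬 a b i j) ↔
      Axis (Pan T {a, b} b a) (toL g) (triL T a b j) ∧
        Centre (Pan T {a, b} a b) (toL g) (triP T a b i)) := fun g i j hij => by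
    rw [rA_eq h hij, mem_XJ_mid h g.2 (mid3_mem a b i j), ← (pan_mid h hij).1, ← (pan_mid h hij).2]
    exact and_congr (ka ⟨g.1, g.2.1⟩ (apR (mid3_mem a b i j)))
      (kb ⟨g.1, g.2.1⟩ (apR (mid3_mem a b i j)))
  have k1 : ∀ g : LJ T {a, b}, g.1 ∈ Kr T (ap T 1) {a, b} ↔ toL g = 1 := fun g =>
    (toA_eq_one (g := ⟨g.1, g.2.1⟩)).symm
  have mem : ∀ i j, i ≠ j → ∀ t, (x i j t).1 ∈ XJ T {a, b} (rA 𝐬 a b i j) := fun i j hij t =>
    (kx _ i j hij).2 (by rw [hx]; exact ⟨C.ax i j hij t, C.cen i j hij t⟩)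
  have surj : ∀ i j, i ≠ j → ∀ g ∈ XJ T {a, b} (rA 𝐬 a b i j),
      ∃ t, g⁻¹ * (x i j t).1 ∈ Kr T (ap T 1) {a, b} := fun i j hij g hg => by
    have h1 := Fx_le_LJ (inJ_rA h hij) hg.1
    obtain ⟨h2, h3⟩ := (kx ⟨g, h1⟩ i j hij).1 hg
    obtain ⟨t, ht⟩ := C.surj (tri_mem h) hij (g := ⟨_, ⟨g, h1⟩, rfl⟩) h3 h2
    refine ⟨t, (k1 ((⟨g, h1⟩ : LJ T {a, b})⁻¹ * x i j t)).2 ?_⟩
    rw [map_mul, map_inv, hx, ht, inv_mul_cancel]
  have inj : ∀ i j, i ≠ j → ∀ t t', (x i j t).1⁻¹ * (x i j t').1 ∈ Kr T (ap T 1) {a, b} →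
      t = t' := fun i j hij t t' h1 => by
    have h2 := (k1 ((x i j t)⁻¹ * x i j t')).1 h1
    rw [map_mul, map_inv, hx, hx] at h2
    have h3 := C.inj i j hij (-t + t') (by
      rw [← C.st.add i j hij, ← C.st.inv hij]; exact Subtype.ext h2)
    exact neg_add_eq_zero.1 h3
  have mouf_a : MoufJ T {a, b} a := fun y hy => by
    let y' : RJ T {a, b} := ⟨y, rs_of_gen ha hy⟩
    have e : pan a b y' = triL T a b 2 := pan_eq.2 (rs_gen hy).symm
    obtain ⟨t, ht⟩ := C.tr 0 1 2 (by decide) (by decide) (by decide) (pan b a y') ⟨y', rfl, e⟩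
      fun e' => ne_of_dist_gen hy (congrArg Subtype.val (eq_of_pan hab e e')).symm
    refine ⟨_, mem 0 1 (by decide) t, congrArg Subtype.val (eq_of_pan hab
      (y := (toL (x 0 1 t)).1 (apR (mid3_mem a b 1 2))) (z := y') ?_ ?_)⟩
    · rw [← smul_pan, (pan_mid h (by decide)).2, e, hx]
      exact C.cen 0 1 (by decide) t _ ((tri_mem h 0 2).2 (by decide))
    · rw [← smul_pan, hx]; exact ht
  have mouf_b : MoufJ T {a, b} b := fun y hy => by
    let y' : RJ T {a, b} := ⟨y, rs_of_gen hb hy⟩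
    have e : pan b a y' = triP T a b 0 := pan_eq.2 (rs_gen hy).symm
    obtain ⟨t, ht⟩ := C.tr' (tri_mem h) (i := 1) (j := 2) (k := 0) (by decide) (by decide)
      (by decide) (m := pan a b y') ⟨y', e, rfl⟩
      fun e' => ne_of_dist_gen hy (congrArg Subtype.val (eq_of_pan hab e' e)).symm
    refine ⟨_, mem 1 2 (by decide) t, congrArg Subtype.val (eq_of_pan hab
      (y := (toL (x 1 2 t)).1 (apR (mid3_mem a b 0 1))) (z := y') ?_ ?_)⟩
    · rw [← smul_pan, hx]; exact ht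
    · rw [← smul_pan, (pan_mid h (by decide)).1, e, hx]
      exact C.ax 1 2 (by decide) t _ ((tri_mem h 0 2).2 (by decide))
  have hp : (ringChar F).Prime := CharP.char_is_prime F _
  have hd := C.char_dvd (tri_mem h)
  refine ⟨F, inferInstance, inferInstance, ⟨⟨x, ?_, mem, surj, fun i j hij t ht => ?_, mouf_a,
    mouf_b, card_eq_qq ha hb hc mouf_a (mem 0 1 (by decide)) (surj 0 1 (by decide))
      (inj 0 1 (by decide)), card_eq_qq hb ha hc.symm mouf_b (mem 1 2 (by decide))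
      (surj 1 2 (by decide)) (inj 1 2 (by decide)), elat_of (fun g k z h1 h2 h3 h4 => ?_) hb,
      elat_of (fun g k z h1 h2 h3 h4 => ?_) ha⟩⟩⟩
  · have := stSL_hom C.st ((AutR T {a, b}).subtype.comp (Subgroup.subtype _))
    convert this using 4 with i j t
    exact congrArg Subtype.val (hx i j t)
  · exact C.inj i j hij t (Subtype.ext (by rw [← hx]; exact (k1 _).1 ht))
  · have e : pan b a z = pan b a (apR (one_mem _)) := pan_eq.2 (rs_gen h3).symm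
    exact (kb g (apR (one_mem _))).2 (centre_of_axis hp hd h1 ((ka g (apR (one_mem _))).1 h2)
      (pan_mem _) (m := pan a b z) ⟨z, e, rfl⟩ (fun e' => ne_of_dist_gen h3
        (congrArg Subtype.val (eq_of_pan hab e' e)).symm) (by rw [smul_pan, h4]))
  · have e : pan a b z = pan a b (apR (one_mem _)) := pan_eq.2 (rs_gen h3).symm
    exact (ka g (apR (one_mem _))).2 (axis_of_centre hp hd h1 ((kb g (apR (one_mem _))).1 h2)
      (pan_mem _) (q := pan b a z) ⟨z, rfl, e⟩ (fun e' => ne_of_dist_gen h3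
        (congrArg Subtype.val (eq_of_pan hab e e')).symm) (by rw [smul_pan, h4]))

end Cfsg.Agent.BNP
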