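import Mathlib
import Cfsg.Agent.BNP.Comm
import Cfsg.Prelude.Def_Classification2

/-!
The commutator relations at a double bond joined to a simple bond.
-/

set_option autoImplicit false
set_option linter.unusedSectionVars false

namespace Cfsg.Agent.BNP

open Cfsg Cfsg.Agent.St Cfsg.Agent.Chev Cfsg.Agent.KSG
open scoped commutatorElement

universe u v
variable {G : Type u} {ι : Type*} {W : Type v} [Group G] [Group W] {T : Tits G ι W} [Finite W]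
variable {G' W' : Type*} [Group G'] [Group W'] {T' : Tits G' ι W'} [Finite W']

set_option hygiene false in
local notation "𝐬" => T.s

namespace Qd

theorem cm_mul_left {H : Type*} [Group H] (x y z : H) : ⁅x * y, z⁆ = x * ⁅y, z⁆ * x⁻¹ * ⁅x, z⁆ := by
  simp only [commutatorElement_def]; group

theorem cm_mul_right {H : Type*} [Group H] (x y z : H) :
    ⁅x, y * z⁆ = ⁅x, y⁆ * (y * ⁅x, z⁆ * y⁻¹) := by
  simp only [commutatorElement_def]; group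

theorem cm_conj {H : Type*} [Group H] (g x y : H) :
    ⁅g * x * g⁻¹, g * y * g⁻¹⁆ = g * ⁅x, y⁆ * g⁻¹ := by
  simp only [commutatorElement_def]; group

theorem conj_eq {H : Type*} [Group H] (x y : H) : x * y * x⁻¹ = ⁅x, y⁆ * y := by
  simp only [commutatorElement_def]; group

theorem conj_eq' {H : Type*} [Group H] (x y : H) : x * y * x⁻¹ = ⁅y, x⁆⁻¹ * y := by
  simp only [commutatorElement_def]; group

theorem conj_of_commute {H : Type*} [Group H] {x y : H} (h : Commute x y) : x * y * x⁻¹ = y := by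
  rw [h.eq, mul_inv_cancel_right]

theorem ne_of_ord {a b : ι} {k : ℕ} (h : orderOf (𝐬 a * 𝐬 b) = k + 2) : a ≠ b := by
  rintro rfl; rw [T.cox.sq, orderOf_one] at h; omega

variable (M : MH T)
include M

/-- An element swapping two opposite root groups acts as the reflection. -/
theorem mv_of_swap {i : ι} {g : G} (hg : g ∈ LJ T {i})
    (h1 : ∀ u ∈ X T (rt 𝐬 1 i), g * u * g⁻¹ ∈ X T (rt 𝐬 1 i)ᶜ)
    (h2 : ∀ u ∈ X T (rt 𝐬 1 i)ᶜ, g * u * g⁻¹ ∈ X T (rt 𝐬 1 i)) : Mv T g (𝐬 i) := by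
  have r := rs_gen (dist_ap_one (T := T) (𝐬 i))
  refine mv_gen_of_LJ hg ?_ ?_
  · by_contra hne
    obtain ⟨u, hu, hu1⟩ := M.exists_ne_one (isRt_rt 1 i)
    have h3 := h1 u hu
    rw [← rt_gen_self] at h3
    have := M.eq_one h3 ((r.symm.trans (LJ_rs hg (Rs.refl _ _))).dist_eq (Ne.symm hne))
      (by rw [mul_smul, inv_smul_smul, mul_smul, hu.1 1 (self_mem_rt T.cox 1 i)])
    exact hu1 (by simpa using this)
  · by_contra hne
    obtain ⟨u, hu, hu1⟩ := M.exists_ne_one ((isRt_rt 1 i).compl T.cox)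
    have := M.eq_one (h2 u hu) ((LJ_rs hg r).dist_eq (Ne.symm hne))
      (by rw [mul_smul, inv_smul_smul, mul_smul, hu.1 _ (gen_mem_compl i)])
    exact hu1 (by simpa using this)

theorem commute_two {a c : ι} (h : orderOf (𝐬 a * 𝐬 c) = 2) {x y : G}
    (hx : x ∈ X T (rt 𝐬 1 a) ⊔ X T (rt 𝐬 1 a)ᶜ) (hy : y ∈ X T (rt 𝐬 1 c) ⊔ X T (rt 𝐬 1 c)ᶜ) :
    Commute x y := by
  have h' : orderOf (𝐬 c * 𝐬 a) = 2 := by rw [ord_comm T.cox, h]
  have hac : a ≠ c := ne_of_ord (k := 0) h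
  have e1 : bt 𝐬 a c 1 = rt 𝐬 1 c := by simpa [h] using bt_last (T := T) a c
  have e1' : bt 𝐬 c a 1 = rt 𝐬 1 a := by simpa [h'] using bt_last (T := T) c a
  have e2 : bt 𝐬 a c 2 = (rt 𝐬 1 a)ᶜ := by simpa [h] using bt_ord (T := T) a c
  have e2' : bt 𝐬 c a 2 = (rt 𝐬 1 c)ᶜ := by simpa [h'] using bt_ord (T := T) c a
  have e3 : bt 𝐬 a c 3 = (rt 𝐬 1 c)ᶜ := by
    rw [bt_succ, e2', tr_compl, ← bt_zero c a, ← bt_succ, e1, bt_zero]
  have key : X T (rt 𝐬 1 a) ⊔ X T (rt 𝐬 1 a)ᶜ ≤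
      Subgroup.centralizer ((X T (rt 𝐬 1 c) ⊔ X T (rt 𝐬 1 c)ᶜ : Subgroup G) : Set G) := by
    refine sup_le ?_ ?_ <;> rw [Subgroup.le_centralizer_iff] <;> refine sup_le ?_ ?_ <;>
      intro y hy x hx
    · exact (M.commute_bt hac (k := 0) hx (by rwa [zero_add, e1])).eq
    · exact (M.commute_bt hac.symm (k := 1) (by rwa [e1']) (by rwa [e2'])).eq
    · exact (M.commute_bt hac (k := 1) (by rwa [e1]) (by rwa [e2])).eq.symm
    · exact (M.commute_bt hac (k := 2) (by rwa [e2]) (by rwa [e3])).eq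
  exact (key hx y hy).symm

theorem uniq {b c : ι} (h : orderOf (𝐬 b * 𝐬 c) = 4) {x x' y y' : G} (hx : x ∈ X T (bt 𝐬 b c 1))
    (hx' : x' ∈ X T (bt 𝐬 b c 1)) (hy : y ∈ X T (bt 𝐬 b c 2)) (hy' : y' ∈ X T (bt 𝐬 b c 2))
    (e : x * y = x' * y') : x = x' ∧ y = y' := by
  have h1 : x'⁻¹ * x = 1 := M.eq_one_of_mem_sup (k := 1) (r := 3) (by omega)
    (mul_mem (inv_mem hx') hx) (by
      rw [show x'⁻¹ * x = y' * y⁻¹ by rw [eq_mul_inv_iff_mul_eq, mul_assoc, e]; group]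
      exact le_iSup₂_of_le (f := fun l (_ : 1 < l ∧ l < 3) => X T (bt 𝐬 b c l)) 2
        ⟨by omega, by omega⟩ le_rfl (mul_mem hy' (inv_mem hy)))
  have h2 := (inv_mul_eq_one.1 h1).symm
  exact ⟨h2, mul_left_cancel (h2 ▸ e)⟩

theorem conj_m {b c : ι} (h : orderOf (𝐬 b * 𝐬 c) = 4) {k u l v y z : G}
    (hk : k ∈ X T (rt 𝐬 1 b)ᶜ) (hl : l ∈ X T (rt 𝐬 1 b)ᶜ) (hm : Mv T (k * u * l) (𝐬 b))
    (hv : v ∈ X T (rt 𝐬 1 c)) (hy : y ∈ X T (bt 𝐬 b c 1)) (hz : z ∈ X T (bt 𝐬 b c 2))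
    (e : ⁅u, v⁆ = y * z) : k * u * l * v * (k * u * l)⁻¹ = y := by
  have hbc : b ≠ c := ne_of_ord (k := 2) h
  have e3 : bt 𝐬 b c 3 = rt 𝐬 1 c := by simpa [h] using bt_last (T := T) b c
  have e4 : bt 𝐬 b c 4 = (rt 𝐬 1 b)ᶜ := by simpa [h] using bt_ord (T := T) b c
  have h1 := hm.conj_mem_X hv
  rw [← bt_zero c b, ← bt_succ] at h1
  rw [← e3] at hv
  rw [← e4] at hk hl
  have c1 := (M.commute_bt hbc hv hl).eq
  have c2 := (M.commute_bt hbc hv hk).eq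
  have e5 : y⁻¹ * (k * u * l * v * (k * u * l)⁻¹) = ⁅y⁻¹, k⁆ * (z * ⁅z⁻¹, k⁆) * v := by
    have : k * u * l * v * (k * u * l)⁻¹ = k * ⁅u, v⁆ * k⁻¹ * v := by
      rw [mul_assoc _ l, ← c1, commutatorElement_def, mul_assoc _ k⁻¹, ← (Commute.inv_right c2).eq]
      group
    rw [this, e]; simp only [commutatorElement_def]; group
  have i2 : X T (bt 𝐬 b c 2) ≤ ⨆ (l : ℕ) (_ : 1 < l ∧ l < 4), X T (bt 𝐬 b c l) :=
    le_iSup₂_of_le (f := fun l (_ : 1 < l ∧ l < 4) => X T (bt 𝐬 b c l)) 2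
      ⟨by omega, by omega⟩ le_rfl
  have i3 : X T (bt 𝐬 b c 3) ≤ ⨆ (l : ℕ) (_ : 1 < l ∧ l < 4), X T (bt 𝐬 b c l) :=
    le_iSup₂_of_le (f := fun l (_ : 1 < l ∧ l < 4) => X T (bt 𝐬 b c l)) 3
      ⟨by omega, by omega⟩ le_rfl
  have h2 := M.eq_one_of_mem_sup (k := 1) (r := 4) (by omega) (mul_mem (inv_mem hy) h1) (by
    rw [e5]
    exact mul_mem (mul_mem (M.comm_bt (by omega) (by omega) (inv_mem hy) hk)
      (mul_mem (i2 hz) (i3 (M.comm_bt_two (k := 2) (by omega) (inv_mem hz) hk)))) (i3 hv))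
  exact (inv_mul_eq_one.1 h2).symm

variable {a b : ι} {F : Type} [Field F] (E : EdgeSys T a b F)

theorem mv_wE {i j : Fin 3} (hij : i ≠ j) {d : ι} (h1 : rA 𝐬 a b i j = rt 𝐬 1 d)
    (h2 : rA 𝐬 a b j i = (rt 𝐬 1 d)ᶜ) {t : F} (ht : t ≠ 0) :
    Mv T (wE E.x i j t) (𝐬 d) ∧ Mv T (wE E.x j i t) (𝐬 d) := by
  have l1 : ∀ t, E.x i j t ∈ LJ T {d} := fun t => X_le_LJ (inJ_one d) (h1 ▸ E.mem i j hij t)
  have l2 : ∀ t, E.x j i t ∈ LJ T {d} := fun t =>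
    X_le_LJ ((inJ_one d).compl T.cox) (h2 ▸ E.mem j i hij.symm t)
  have key : ∀ g c, Act E.x g (Equiv.swap i j) c → g ∈ LJ T {d} → Mv T g (𝐬 d) := by
    intro g c hg hl
    refine mv_of_swap M hl (fun u hu => ?_) (fun u hu => ?_)
    · obtain ⟨t, rfl⟩ := E.surj i j hij u (h1 ▸ hu)
      rw [hg.2 i j hij, Equiv.swap_apply_left, Equiv.swap_apply_right, ← h2]
      exact E.mem j i hij.symm _
    · obtain ⟨t, rfl⟩ := E.surj j i hij.symm u (h2 ▸ hu)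
      rw [hg.2 j i hij.symm, Equiv.swap_apply_left, Equiv.swap_apply_right, ← h1]
      exact E.mem i j hij _
  exact ⟨key _ _ (E.st.act_w (by simp) hij ht) (mul_mem (mul_mem (l1 _) (l2 _)) (l1 _)),
    key _ _ (Equiv.swap_comm i j ▸ E.st.act_w (by simp) hij.symm ht)
      (mul_mem (mul_mem (l2 _) (l1 _)) (l2 _))⟩

omit M in
theorem mv_one_mul {g g' : G} {i : ι} (h : Mv T g (𝐬 i)) (h' : Mv T g' (𝐬 i)) :
    Mv T (g * g') 1 := by
  have := h.mul h'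
  rwa [T.cox.sq] at this

omit M in
theorem mv_inv {g : G} {i : ι} (h : Mv T g (𝐬 i)) : Mv T g⁻¹ (𝐬 i) := by
  have := h.inv
  rwa [gen_inv T.cox] at this

end Qd

open Qd

theorem exists_quadSys (M : MH T) {a b c : ι} (hab : orderOf (T.s a * T.s b) = 3)
    (hbc : orderOf (T.s b * T.s c) = 4) (hac : orderOf (T.s a * T.s c) = 2) {F : Type} [Field F]
    [Finite F] (E : EdgeSys T a b F) : Nonempty (QuadSys T a b c F E) := by
  classical
  have hne : b ≠ c := ne_of_ord (k := 2) hbc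
  have hcb : orderOf (𝐬 c * 𝐬 b) = 4 := by rw [ord_comm T.cox, hbc]
  have e3 : bt 𝐬 b c 3 = rt 𝐬 1 c := by simpa [hbc] using bt_last (T := T) b c
  have e12 : bt 𝐬 c b 1 = bt 𝐬 b c 2 := bt_symm T.cox (by omega)
  have e21 : bt 𝐬 c b 2 = bt 𝐬 b c 1 := bt_symm T.cox (by omega)
  have t1 : tr (𝐬 b) (rt 𝐬 1 c) = bt 𝐬 b c 1 := (bt_succ b c 0).symm
  have t2 : tr (𝐬 c) (rt 𝐬 1 b) = bt 𝐬 b c 2 := (bt_succ c b 0).symm.trans e12
  have t3 : tr (𝐬 b) (bt 𝐬 b c 2) = bt 𝐬 b c 2 := by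
    nth_rewrite 1 [← e12]; exact (bt_succ b c 1).symm
  have h3 : 3 ≤ Fintype.card (Fin 3) := by simp
  have xm : ∀ l, E.x 1 2 l ∈ X T (bt 𝐬 b c 0) := E.mem 1 2 (by decide)
  have xadd : ∀ l k, E.x 1 2 (l + k) = E.x 1 2 l * E.x 1 2 k :=
    fun l k => (E.st.add 1 2 (by decide) l k).symm
  have x0 : E.x 1 2 0 = 1 := E.st.zero (by decide)
  have vm : ∀ v : X T (rt 𝐬 1 c), v.1 ∈ X T (bt 𝐬 b c 3) := fun v => by rw [e3]; exact v.2
  -- the elements `m`, `n`, `h`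
  have hm : Mv T (wE E.x 2 1 (-1)) (𝐬 b) := (mv_wE M E (by decide) rfl rfl (by simp)).2
  have am := E.st.act_w h3 (i := 2) (j := 1) (by decide) (t := -1) (by simp)
  have me : wE E.x 2 1 (-1) = E.x 2 1 (-1) * E.x 1 2 1 * E.x 2 1 (-1) := by simp [wE]
  generalize wE E.x 2 1 (-1) = m at hm am me
  obtain ⟨n, hn, hn'⟩ := M.exists_mv_gen c
  obtain ⟨h, hh⟩ : ∃ h : F → G, ∀ k, h k = hE E.x 0 1 k⁻¹ := ⟨_, fun _ => rfl⟩
  have hmv : ∀ k, k ≠ 0 → Mv T (h k) 1 := fun k hk => by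
    rw [hh]
    exact mv_one_mul (mv_wE M E (by decide) rfl rfl (inv_ne_zero hk)).1
      (mv_inv (mv_wE M E (by decide) rfl rfl one_ne_zero).1)
  have hc : ∀ k y, y ∈ X T (rt 𝐬 1 c) ⊔ X T (rt 𝐬 1 c)ᶜ → Commute (h k) y := fun k y hy => by
    have l1 : ∀ t, E.x 0 1 t ∈ X T (rt 𝐬 1 a) ⊔ X T (rt 𝐬 1 a)ᶜ := fun t =>
      Subgroup.mem_sup_left (E.mem 0 1 (by decide) t)
    have l2 : ∀ t, E.x 1 0 t ∈ X T (rt 𝐬 1 a) ⊔ X T (rt 𝐬 1 a)ᶜ := fun t =>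
      Subgroup.mem_sup_right (E.mem 1 0 (by decide) t)
    refine commute_two M hac ?_ hy
    rw [hh]
    exact mul_mem (mul_mem (mul_mem (l1 _) (l2 _)) (l1 _))
      (inv_mem (mul_mem (mul_mem (l1 _) (l2 _)) (l1 _)))
  have hx : ∀ k, k ≠ 0 → ∀ l, h k * E.x 1 2 l * (h k)⁻¹ = E.x 1 2 (k * l) := fun k hk l => by
    rw [hh, (E.st.act_h h3 (by decide) (inv_ne_zero hk)).2 1 2 (by decide)]
    simp
  -- the parametrisations
  obtain ⟨x2, hx2⟩ : ∃ x2 : X T (rt 𝐬 1 c) → G, ∀ v, x2 v = m * v * m⁻¹ := ⟨_, fun _ => rfl⟩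
  obtain ⟨x3, hx3⟩ : ∃ x3 : F → G, ∀ l, x3 l = n * E.x 1 2 l * n⁻¹ := ⟨_, fun _ => rfl⟩
  have m2 : ∀ u v, x2 (u * v) = x2 u * x2 v := fun u v => by
    simp only [hx2, Subgroup.coe_mul]; group
  have a3 : ∀ l k, x3 (l + k) = x3 l * x3 k := fun l k => by simp only [hx3, xadd]; group
  have o2 : x2 1 = 1 := by simp [hx2]
  have o3 : x3 0 = 1 := by simp [hx3, x0]
  have i2 : ∀ v, x2 v⁻¹ = (x2 v)⁻¹ := fun v => by simp only [hx2, Subgroup.coe_inv]; group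
  have i3 : ∀ l, x3 (-l) = (x3 l)⁻¹ := fun l => by
    rw [eq_inv_iff_mul_eq_one, ← a3, neg_add_cancel, o3]
  have mem2 : ∀ v, x2 v ∈ X T (bt 𝐬 b c 1) := fun v => by
    rw [hx2, ← t1]; exact hm.conj_mem_X v.2
  have mem3 : ∀ l, x3 l ∈ X T (bt 𝐬 b c 2) := fun l => by
    rw [hx3, ← t2]; exact hn'.conj_mem_X (xm l)
  have surj2 : ∀ g ∈ X T (bt 𝐬 b c 1), ∃ v, x2 v = g := fun g hg =>
    ⟨⟨_, hm.conj_mem_X' (t1 ▸ hg)⟩, by rw [hx2]; group⟩
  have surj3 : ∀ g ∈ X T (bt 𝐬 b c 2), ∃ l, x3 l = g := fun g hg => by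
    obtain ⟨l, hl⟩ := E.surj 1 2 (by decide) _ (hn'.conj_mem_X' (A := rt 𝐬 1 b) (by rwa [t2]))
    exact ⟨l, by rw [hx3, hl]; group⟩
  have j2 : ∀ u v, x2 u = x2 v → u = v := fun u v e => by
    rw [hx2, hx2] at e
    exact Subtype.ext (by simpa using e)
  have j3 : ∀ l k, x3 l = x3 k → l = k := fun l k e => by
    rw [← sub_eq_zero]
    refine E.inj 1 2 (by decide) _ ?_
    have : x3 (l - k) = 1 := by rw [sub_eq_add_neg, a3, i3, e, mul_inv_cancel]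
    simpa [hx3] using this
  have un : ∀ u v l k, x2 u * x3 l = x2 v * x3 k → u = v ∧ l = k := fun u v l k e =>
    (uniq M hbc (mem2 u) (mem2 v) (mem3 l) (mem3 k) e).imp (j2 _ _) (j3 _ _)
  have c12 : ∀ l v, Commute (E.x 1 2 l) (x2 v) := fun l v => M.commute_bt hne (xm l) (mem2 v)
  have c23 : ∀ v l, Commute (x2 v) (x3 l) := fun v l => M.commute_bt hne (mem2 v) (mem3 l)
  have c34 : ∀ l (v : X T (rt 𝐬 1 c)), Commute (x3 l) v :=
    fun l v => M.commute_bt hne (mem3 l) (vm v)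
  have c33 : ∀ l k, Commute (x3 l) (x3 k) := fun l k => by
    rw [Commute, SemiconjBy, ← a3, ← a3, add_comm]
  have hx3' : ∀ k, k ≠ 0 → ∀ l, h k * x3 l * (h k)⁻¹ = x3 (k * l) := fun k hk l => by
    rw [hx3, hx3, ← hx k hk, ← mul_assoc, ← mul_assoc, (hc k n hn).eq, mul_assoc _ n⁻¹,
      ← ((hc k n hn).inv_inv).eq]
    group
  have hv : ∀ k (v : X T (rt 𝐬 1 c)), h k * v * (h k)⁻¹ = v := fun k v =>
    conj_of_commute (hc k v (Subgroup.mem_sup_left v.2))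
  -- the structure maps
  have ex14 : ∀ (v : X T (rt 𝐬 1 c)) l, ∃ w k, ⁅E.x 1 2 l, v.1⁆ = x2 w * x3 k := fun v l => by
    obtain ⟨y, hy, z, hz, e⟩ := M.comm_bt_three (k := 0) hbc.ge (xm l) (vm v)
    obtain ⟨w, rfl⟩ := surj2 y hy
    obtain ⟨k, rfl⟩ := surj3 z hz
    exact ⟨w, k, e⟩
  choose act p r14 using ex14
  choose f r24 using fun (u v : X T (rt 𝐬 1 c)) =>
    surj3 _ (M.comm_bt_two (k := 1) (by omega) (mem2 u) (vm v))
  choose t r13 using fun l k => surj2 _ (M.comm_bt_two (k := 0) (by omega) (xm l) (mem3 k))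
  have act1 : ∀ v, act v 1 = v := fun v => j2 _ _ (by
    rw [hx2 v, me]
    exact (conj_m M hbc (E.mem 2 1 (by decide) _) (E.mem 2 1 (by decide) _) (me ▸ hm) v.2
      (mem2 _) (mem3 _) (r14 v 1)).symm)
  have z14 : ∀ v, act v 0 = 1 ∧ p v 0 = 0 := fun v => un _ _ _ _ (by
    rw [← r14, x0, commutatorElement_one_left, o2, o3, one_mul])
  have k14 : ∀ v k, k ≠ 0 → ∀ l, h k * x2 (act v l) * (h k)⁻¹ = x2 (act v (k * l)) ∧
      k * p v l = p v (k * l) := fun v k hk l => by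
    have e := cm_conj (h k) (E.x 1 2 l) v
    rw [hx k hk, hv, r14, r14, ← conj_mul, hx3' k hk] at e
    exact (uniq M hbc (conj_mem_X_of_Fx ((hmv k hk).mem_Fx _) (mem2 _)) (mem2 _) (mem3 _) (mem3 _)
      e.symm).imp_right (j3 _ _)
  have hx2' : ∀ k, k ≠ 0 → ∀ v, h k * x2 v * (h k)⁻¹ = x2 (act v k) := fun k hk v => by
    simpa [act1] using (k14 v k hk 1).1
  have r14' : ∀ l v, ⁅E.x 1 2 l, v.1⁆ = x2 (act v l) * x3 (p v 1 * l) := fun l v => by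
    rw [r14]
    by_cases hl : l = 0
    · rw [hl, (z14 v).2, mul_zero]
    · rw [mul_comm (p v 1), (k14 v l hl 1).2, mul_one]
  have aa : ∀ v l k, act (act v l) k = act v (l * k) := fun v l k => by
    by_cases hk : k = 0
    · rw [hk, mul_zero, (z14 _).1, (z14 _).1]
    · exact j2 _ _ (by rw [← hx2' k hk, (k14 v k hk l).1, mul_comm])
  have f1 : ∀ v, f 1 v = 0 := fun v => j3 _ _ (by rw [r24, o2, o3, commutatorElement_one_left])
  have f1' : ∀ v, f v 1 = 0 := fun v => j3 _ _ (by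
    rw [r24, o3, Subgroup.coe_one, commutatorElement_one_right])
  have p1 : p 1 1 = 0 := (un (act 1 1) 1 _ 0 (by
    rw [← r14, Subgroup.coe_one, commutatorElement_one_right, o2, o3, one_mul])).2
  -- the automorphism `σ`
  obtain ⟨g, hg⟩ : ∃ g : F → G, ∀ k, g k = m⁻¹ * h k * m := ⟨_, fun _ => rfl⟩
  have ge : ∀ k, k ≠ 0 → g k = hE E.x 0 2 k⁻¹ := fun k hk => by
    have := E.st.conj_h h3 am.inv (k := 0) (l := 1) (by decide) (inv_ne_zero hk)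
    rw [inv_inv, ← hh, ← hg] at this
    exact this
  have gv : ∀ k, k ≠ 0 → ∀ v : X T (rt 𝐬 1 c), g k * v * (g k)⁻¹ = act v k := fun k hk v => by
    have := hx2' k hk v
    rw [hx2, hx2] at this
    rw [hg, show (act v k : G) = m⁻¹ * (m * act v k * m⁻¹) * m by group, ← this]; group
  have g2 : ∀ k v, g k * x2 v * (g k)⁻¹ = x2 v := fun k v => by
    have : h k * (m * m * v * (m * m)⁻¹) * (h k)⁻¹ = m * m * v * (m * m)⁻¹ :=
      hv k ⟨_, conj_mem_X_of_Fx ((mv_one_mul hm hm).mem_Fx _) v.2⟩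
    rw [hg, hx2, show m * v * m⁻¹ = m⁻¹ * (m * m * v * (m * m)⁻¹) * m by group]
    nth_rewrite 2 [← this]
    group
  have g1 : ∀ k, k ≠ 0 → g k * E.x 1 2 k * (g k)⁻¹ = E.x 1 2 1 := fun k hk => by
    rw [ge k hk, (E.st.act_h h3 (by decide) (inv_ne_zero hk)).2 1 2 (by decide)]
    simp [hk]
  choose ρ hρ using fun l => surj3 _ (t3 ▸ hm.conj_mem_X (mem3 l))
  choose τ hτ using fun l => surj3 _ (hm.conj_mem_X' (t3.symm ▸ mem3 l))
  have τρ : ∀ l, τ (ρ l) = l := fun l => j3 _ _ (by rw [hτ, hρ]; group)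
  have ρτ : ∀ l, ρ (τ l) = l := fun l => j3 _ _ (by rw [hρ, hτ]; group)
  have τa : ∀ l k, τ (l + k) = τ l + τ k := fun l k => j3 _ _ (by
    rw [a3, hτ, hτ, hτ, a3]; group)
  have τ0 : τ 0 = 0 := j3 _ _ (by rw [hτ, o3]; group)
  have ρ0 : ρ 0 = 0 := j3 _ _ (by rw [hρ, o3]; group)
  have g3 : ∀ k, k ≠ 0 → ∀ l, g k * x3 l * (g k)⁻¹ = x3 (τ (k * ρ l)) := fun k hk l => by
    rw [hτ, ← hx3' k hk, hρ, hg]; group
  have sc : ∀ k l, τ (k * ρ l) = τ (k * ρ 1) * l := fun k l => by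
    by_cases hk : k = 0
    · rw [hk, zero_mul, zero_mul, τ0, zero_mul]
    by_cases hl : l = 0
    · rw [hl, ρ0, mul_zero, τ0, mul_zero]
    have e : Commute (g k) (h l) := by
      rw [ge k hk, hh]
      exact E.st.h_comm h3 (by decide) (by decide) (inv_ne_zero hk) (inv_ne_zero hl)
    refine j3 _ _ ?_
    rw [mul_comm _ l, ← hx3' l hl, ← g3 k hk, ← g3 k hk, ← mul_one l, ← hx3' l hl, mul_one,
      ← mul_assoc, ← mul_assoc, e.eq, mul_assoc _ (h l)⁻¹, ← e.inv_inv.eq]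
    group
  let σ : F →+* F :=
    { toFun := fun k => τ (k * ρ 1)
      map_one' := by rw [one_mul, τρ]
      map_mul' := fun k l => by rw [← sc, ρτ, mul_assoc]
      map_zero' := by rw [zero_mul, τ0]
      map_add' := fun k l => by rw [add_mul, τa] }
  have g3' : ∀ k, k ≠ 0 → ∀ l, g k * x3 l * (g k)⁻¹ = x3 (σ k * l) := fun k hk l => by
    rw [g3 k hk, sc]; rfl
  have ml : ∀ v w, act (v * w) 1 = v * w ∧ p (v * w) 1 = p v 1 + p w 1 - f w v := fun v w =>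
    un _ _ _ _ (by
      rw [← r14, Subgroup.coe_mul, cm_mul_right, r14, r14, act1, act1, ← conj_mul,
        conj_of_commute (c34 _ v).symm, conj_eq' _ (x2 w), ← r24, ← i3, m2, sub_eq_add_neg,
        add_right_comm, a3, a3, mul_assoc, mul_assoc, mul_assoc, ← mul_assoc (x3 _),
        ← mul_assoc (_ * x3 _), ← ((c23 w _).mul_right (c23 w _)).eq]
      group)
  have tc : ∀ l k v, (act v l)⁻¹ * t l k * (act v l)⁻¹⁻¹ = t l k ∧ 0 = -f (t l k) v :=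
    fun l k v => un _ _ _ _ (by
      have e := cm_conj (v : G) (E.x 1 2 l) (x3 k)
      have cc : Commute (x2 (act v l) * x3 (p v l))⁻¹ (x3 k) :=
        ((c23 _ _).mul_left (c33 _ _)).inv_left
      rw [conj_of_commute (c34 _ v).symm, conj_eq', r14, cm_mul_left, ← r13,
        commutatorElement_eq_one_iff_commute.2 cc, conj_eq' (v : G), ← r24, ← i3,
        ← (c23 _ _).eq, mul_inv_rev, ← i3, ← i2, mul_assoc (x3 _), ← m2, mul_inv_rev,
        ← i2, ← mul_assoc, mul_assoc (x3 _), ← m2, conj_of_commute (c23 _ _).symm] at e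
      rw [o3, e])
  refine ⟨⟨⟨act, fun v => p v 1, f, t, σ, act1, fun v w l => ?_, aa, fun v l k => ?_,
    fun v => (z14 v).1, fun v w => (ml v w).2, fun v hv0 => ?_, fun v l => ?_,
    fun u u' v => j3 _ _ ?_, fun u v v' => j3 _ _ ?_, fun u v l => ?_, fun u v l => ?_,
    fun l l' k => j2 _ _ ?_, fun l k k' => j2 _ _ ?_, fun l k v => ?_,
    fun l k v => (neg_eq_zero.1 (tc l k v).2.symm)⟩, x2, x3, m2, a3, mem2, surj2,
    fun v e => j2 _ _ (e.trans o2.symm), mem3, surj3, fun l e => j3 _ _ (e.trans o3.symm), r14',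
    fun u v => (r24 u v).symm, fun l k => (r13 l k).symm⟩⟩
  · by_cases hl : l = 0
    · rw [hl, (z14 _).1, (z14 _).1, (z14 _).1, one_mul]
    · exact j2 _ _ (by rw [m2, ← hx2' l hl, ← hx2' l hl, ← hx2' l hl, m2, conj_mul])
  · refine (un _ _ (p v 1 * (l + k)) (p v 1 * k + p v 1 * l) ?_).1
    rw [← r14', xadd, cm_mul_left, r14', r14', ← conj_mul, conj_of_commute (c12 _ _), conj_eq,
      ← r13, m2, m2, a3, mul_assoc, mul_assoc, mul_assoc, mul_assoc, ← mul_assoc (x3 _),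
      ← (c23 _ _).eq, mul_assoc]
  · by_contra hv1
    obtain ⟨k, hk, l, hl, hmv⟩ := M.exists_m v.2 fun e => hv1 (Subtype.ext e)
    have := conj_m M hcb hk hl hmv (xm 1) (y := 1) (z := (x2 v)⁻¹) (one_mem _)
      (e21 ▸ inv_mem (mem2 v)) (by
        rw [← commutatorElement_inv, r14, act1, hv0, o3, mul_one, one_mul])
    exact one_ne_zero (E.inj 1 2 (by decide) 1 (conj_eq_one_iff.1 this))
  · by_cases hl : l = 0
    · rw [hl, (z14 _).1, p1, zero_mul, zero_mul]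
    · have e := cm_conj (g l) (E.x 1 2 l) v
      rw [g1 l hl, gv l hl, r14, r14', ← conj_mul, g2, g3' l hl] at e
      rw [(un _ _ _ _ e).2]; ring
  · rw [a3, r24, r24, r24, m2, cm_mul_left, ← r24, conj_of_commute (c23 _ _), ← r24, (c33 _ _).eq]
  · rw [a3, r24, r24, r24, Subgroup.coe_mul, cm_mul_right, ← r24 u v',
      conj_of_commute (c34 _ _).symm]
  · by_cases hl : l = 0
    · rw [hl, (z14 _).1, f1, zero_mul]
    · exact j3 _ _ (by rw [← hx3' l hl, r24, r24, ← cm_conj, hx2' l hl, hv])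
  · by_cases hl : l = 0
    · rw [hl, (z14 _).1, f1', map_zero, zero_mul]
    · exact j3 _ _ (by rw [← g3' l hl, r24, r24, ← cm_conj, g2, gv l hl])
  · rw [m2, r13, r13, r13, add_comm, xadd, cm_mul_left, ← r13 l, conj_of_commute (c12 _ _)]
  · rw [m2, r13, r13, r13, a3, cm_mul_right, ← r13 l k', conj_of_commute (c23 _ _).symm]
  · by_cases hl : l = 0
    · have : t l k = 1 := j2 _ _ (by rw [r13, hl, x0, commutatorElement_one_left, o2])
      rw [this, one_mul, mul_one]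
    · have := (tc l k (act v l⁻¹)).1
      rw [aa, inv_mul_cancel₀ hl, act1, inv_inv, mul_assoc, inv_mul_eq_iff_eq_mul] at this
      exact this

theorem Qd.graph {A H H' : Type*} [Group A] [Group H] [Group H'] {Y : Subgroup H}
    {Y' : Subgroup H'} (p : A →* H) (p' : A →* H') (h1 : ∀ x, p x ∈ Y) (h2 : ∀ x, p' x ∈ Y')
    (h3 : ∀ y ∈ Y, ∃ x, p x = y) (h4 : ∀ y ∈ Y', ∃ x, p' x = y) (h5 : ∀ x, p x = 1 → x = 1)
    (h6 : ∀ x, p' x = 1 → x = 1) : Graph Y Y' (p.prod p').range where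
  fst := by rintro _ ⟨x, rfl⟩; exact h1 x
  snd := by rintro _ ⟨x, rfl⟩; exact h2 x
  iff := by
    rintro _ ⟨x, rfl⟩
    exact ⟨fun h => by rw [h5 x h, map_one]; rfl, fun h => by rw [h6 x h, map_one]; rfl⟩
  ex1 y hy := by obtain ⟨x, rfl⟩ := h3 y hy; exact ⟨p' x, x, rfl⟩
  ex2 y hy := by obtain ⟨x, rfl⟩ := h4 y hy; exact ⟨p x, x, rfl⟩

theorem QuadSys.locP (M : MH T) (M' : MH T') {a b c : ι} (hbc : orderOf (T.s b * T.s c) = 4)
    (hbc' : orderOf (T'.s b * T'.s c) = 4) {F F' : Type} [Field F] [Field F']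
    {E : EdgeSys T a b F} {E' : EdgeSys T' a b F'} (Q : QuadSys T a b c F E)
    (Q' : QuadSys T' a b c F' E') (φ : F ≃+* F') (ψ : X T (rt T.s 1 c) ≃* X T' (rt T'.s 1 c))
    {e : F'} (he : e ≠ 0) (h1 : ∀ v l, ψ (Q.D.act v l) = Q'.D.act (ψ v) (φ l))
    (h2 : ∀ v, Q'.D.a (ψ v) = e * φ (Q.D.a v)) (h3 : ∀ u v, Q'.D.f (ψ u) (ψ v) = e * φ (Q.D.f u v))
    (h4 : ∀ l k, Q'.D.T (φ l) (e * φ k) = ψ (Q.D.T l k)) :
    ∃ A B, Graph (X T (rt T.s 1 b)) (X T' (rt T'.s 1 b)) A ∧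
      Graph (X T (rt T.s 1 c)) (X T' (rt T'.s 1 c)) B ∧ LocP T T' b c A B := by
  have hne : b ≠ c := ne_of_ord (k := 2) hbc
  have e3 : bt T.s b c 3 = rt T.s 1 c := by simpa [hbc] using bt_last (T := T) b c
  have e3' : bt T'.s b c 3 = rt T'.s 1 c := by simpa [hbc'] using bt_last (T := T') b c
  let p0 : Multiplicative F →* G := MonoidHom.mk' (fun l => E.x 1 2 l.toAdd)
    fun l k => (E.st.add 1 2 (by decide) _ _).symm
  let q0 : Multiplicative F →* G' := MonoidHom.mk' (fun l => E'.x 1 2 (φ l.toAdd))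
    fun l k => by rw [E'.st.add 1 2 (by decide), ← map_add]; rfl
  let p1 : X T (rt T.s 1 c) →* G := MonoidHom.mk' Q.x2 Q.x2_mul
  let q1 : X T (rt T.s 1 c) →* G' := MonoidHom.mk' (fun v => Q'.x2 (ψ v))
    fun u v => by rw [map_mul, Q'.x2_mul]
  let p2 : Multiplicative F →* G := MonoidHom.mk' (fun l => Q.x3 l.toAdd) fun l k => Q.x3_add _ _
  let q2 : Multiplicative F →* G' := MonoidHom.mk' (fun l => Q'.x3 (e * φ l.toAdd))
    fun l k => by rw [← Q'.x3_add, ← mul_add, ← map_add]; rfl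
  let p3 := (X T (rt T.s 1 c)).subtype
  let q3 := (X T' (rt T'.s 1 c)).subtype.comp ψ.toMonoidHom
  have g0 : Graph (X T (rt T.s 1 b)) (X T' (rt T'.s 1 b)) (p0.prod q0).range :=
    Qd.graph p0 q0 (fun _ => E.mem 1 2 (by decide) _) (fun _ => E'.mem 1 2 (by decide) _)
      (E.surj 1 2 (by decide)) (fun y hy => by
        obtain ⟨l, rfl⟩ := E'.surj 1 2 (by decide) y hy
        obtain ⟨l, rfl⟩ := φ.surjective l
        exact ⟨.ofAdd l, rfl⟩) (E.inj 1 2 (by decide))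
      fun l h => (map_eq_zero_iff φ φ.injective).1 (E'.inj 1 2 (by decide) _ h)
  have g1 : Graph (X T (bt T.s b c 1)) (X T' (bt T'.s b c 1)) (p1.prod q1).range :=
    Qd.graph p1 q1 Q.mem2 (fun _ => Q'.mem2 _) Q.surj2 (fun y hy => by
        obtain ⟨l, rfl⟩ := Q'.surj2 y hy
        obtain ⟨l, rfl⟩ := ψ.surjective l
        exact ⟨l, rfl⟩) Q.inj2 fun l h => (map_eq_one_iff ψ ψ.injective).1 (Q'.inj2 _ h)
  have g2 : Graph (X T (bt T.s b c 2)) (X T' (bt T'.s b c 2)) (p2.prod q2).range :=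
    Qd.graph p2 q2 (fun _ => Q.mem3 _) (fun _ => Q'.mem3 _) Q.surj3 (fun y hy => by
        obtain ⟨l, rfl⟩ := Q'.surj3 y hy
        obtain ⟨k, hk⟩ := φ.surjective (e⁻¹ * l)
        exact ⟨.ofAdd k, congrArg Q'.x3 (by
          rw [toAdd_ofAdd, hk, mul_inv_cancel_left₀ he])⟩) Q.inj3
      fun l h => (map_eq_zero_iff φ φ.injective).1 ((mul_eq_zero.1 (Q'.inj3 _ h)).resolve_left he)
  have g3 : Graph (X T (rt T.s 1 c)) (X T' (rt T'.s 1 c)) (p3.prod q3).range :=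
    Qd.graph p3 q3 (fun v => v.2) (fun v => (ψ v).2) (fun y hy => ⟨⟨y, hy⟩, rfl⟩) (fun y hy =>
      ⟨ψ.symm ⟨y, hy⟩, congrArg Subtype.val (ψ.apply_symm_apply _)⟩) (fun _ h => Subtype.ext h)
      fun l h => (map_eq_one_iff ψ ψ.injective).1 (Subtype.ext h)
  let Γ : ℕ → Subgroup (G × G') := fun k => match k with
    | 0 => (p0.prod q0).range
    | 1 => (p1.prod q1).range
    | 2 => (p2.prod q2).range
    | _ + 3 => (p3.prod q3).range
  have gr : ∀ k < 4, Graph (X T (bt T.s b c k)) (X T' (bt T'.s b c k)) (Γ k) := fun k hk => by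
    interval_cases k
    exacts [g0, g1, g2, by rw [e3, e3']; exact g3]
  have le : ∀ {k l r : ℕ}, k < l → l < r → Γ l ≤ ⨆ (l : ℕ) (_ : k < l ∧ l < r), Γ l :=
    fun {k l r} h h' => le_iSup₂_of_le (f := fun l (_ : k < l ∧ l < r) => Γ l) l ⟨h, h'⟩ le_rfl
  refine ⟨_, _, g0, g3, Γ, ⟨hbc ▸ gr, fun k r hk hr x hx y hy => ?_⟩, rfl, by rw [hbc]; rfl⟩
  rw [hbc] at hr
  by_cases h : r = k + 1
  · subst h
    rw [show ⁅x, y⁆ = 1 from Prod.ext
      (M.commute_bt hne ((gr k (by omega)).fst x hx) ((gr _ hr).fst y hy)).commutator_eq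
      (M'.commute_bt hne ((gr k (by omega)).snd x hx) ((gr _ hr).snd y hy)).commutator_eq]
    exact one_mem _
  obtain ⟨rfl, rfl⟩ | ⟨rfl, rfl⟩ | ⟨rfl, rfl⟩ :
    (k = 0 ∧ r = 2) ∨ (k = 1 ∧ r = 3) ∨ (k = 0 ∧ r = 3) := by omega
  · obtain ⟨l, rfl⟩ := hx
    obtain ⟨k, rfl⟩ := hy
    exact le (l := 1) (by omega) (by omega) ⟨Q.D.T l.toAdd k.toAdd,
      Prod.ext (Q.r13 _ _).symm ((congrArg Q'.x2 (h4 _ _).symm).trans (Q'.r13 _ _).symm)⟩
  · obtain ⟨u, rfl⟩ := hx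
    obtain ⟨v, rfl⟩ := hy
    exact le (l := 2) (by omega) (by omega) ⟨.ofAdd (Q.D.f u v),
      Prod.ext (Q.r24 _ _).symm ((congrArg Q'.x3 (h3 _ _).symm).trans (Q'.r24 _ _).symm)⟩
  · obtain ⟨l, rfl⟩ := hx
    obtain ⟨v, rfl⟩ := hy
    have := mul_mem (le (k := 0) (l := 1) (r := 3) (by omega) (by omega) ⟨Q.D.act v l.toAdd, rfl⟩)
      (le (k := 0) (l := 2) (r := 3) (by omega) (by omega) ⟨.ofAdd (Q.D.a v * l.toAdd), rfl⟩)
    convert this using 1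
    refine Prod.ext (Q.r14 _ _) ((Q'.r14 _ _).trans ?_)
    change _ = Q'.x2 (ψ (Q.D.act v l.toAdd)) * Q'.x3 (e * φ (Q.D.a v * l.toAdd))
    rw [h1, map_mul, ← mul_assoc, ← h2]
    rfl

end Cfsg.Agent.BNP
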