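import Mathlib
import Cfsg.Agent.BNP.Plane
import Cfsg.Agent.BNP.Quad

/-!
Steinberg generators at a simple bond, and their comparison.
-/

set_option autoImplicit false
set_option linter.unusedSectionVars false

namespace Cfsg.Agent.BNP

open Cfsg.Agent.Chev Cfsg.Agent.St Cfsg.Agent.KSG
open scoped commutatorElement

variable {G ι W : Type*} [Group G] [Group W] {T : Tits G ι W} [Finite W]
variable {G' W' : Type*} [Group G'] [Group W'] {T' : Tits G' ι W'} [Finite W']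

set_option hygiene false in
local notation "𝐬" => T.s

namespace Eg

theorem hua {K : Type*} [Field K] {a b : K} (ha : a ≠ 0) (hb : b ≠ 0) (h : b⁻¹ - a ≠ 0) :
    a * b * a = a - (a⁻¹ + (b⁻¹ - a)⁻¹)⁻¹ := by
  rw [inv_add_inv ha h, inv_div, add_sub_cancel, div_inv_eq_mul, mul_assoc a (b⁻¹ - a), sub_mul,
    inv_mul_cancel₀ hb]
  ring

theorem map_mul_of_inv {F F' : Type*} [Field F] [Field F'] {φ ψ : F →+ F'}
    (hi : Function.Injective φ) (h1 : φ 1 = 1) (h : ∀ t, t ≠ 0 → φ t⁻¹ * ψ t = 1) :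
    (∀ t, ψ t = φ t) ∧ ∀ s t, φ (s * t) = φ s * φ t := by
  have k1 : ∀ t, φ t⁻¹ = (ψ t)⁻¹ := fun t => by
    by_cases ht : t = 0
    · simp [ht]
    · exact eq_inv_of_mul_eq_one_left (h t ht)
  have k2 : ∀ t, ψ t⁻¹ = (φ t)⁻¹ := fun t => by rw [← inv_inv t, k1, inv_inv, inv_inv]
  have k0 : ∀ t, t ≠ 0 → φ t ≠ 0 := fun t ht => (map_ne_zero_iff φ hi).2 ht
  have k3 : ∀ a b, φ (a * b * a) = φ a * ψ b * φ a := fun a b => by
    by_cases ha : a = 0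
    · simp [ha]
    by_cases hb : b = 0
    · simp [hb]
    by_cases hab : b⁻¹ - a = 0
    · rw [← sub_eq_zero.1 hab, inv_mul_cancel₀ hb, h b hb, one_mul, one_mul]
    rw [hua ha hb hab, hua (k0 a ha) (right_ne_zero_of_mul_eq_one (h b hb)) (by
      rw [← k1, ← map_sub]; exact k0 _ hab), map_sub, k1, map_add, k2, k2, map_sub, k1]
  have k4 : ∀ t, ψ t = φ t := fun t => by simpa [h1] using (k3 1 t).symm
  refine ⟨k4, fun s t => ?_⟩
  have k5 : ∀ a, φ (a * a) = φ a * φ a := fun a => by simpa [k4, h1] using k3 a 1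
  have k6 : 2 * (φ (s * t) - φ s * φ t) = 0 := by
    have := k5 (s + t)
    rw [show (s + t) * (s + t) = s * s + (s * t + s * t) + t * t by ring, map_add, map_add, map_add,
      map_add, k5, k5] at this
    linear_combination this
  have k7 : φ (s * t) ^ 2 = (φ s * φ t) ^ 2 := by
    have := k3 s (t * t)
    rw [k4, k5, show s * (t * t) * s = s * t * (s * t) by ring, k5] at this
    linear_combination this
  rw [← sub_eq_zero, ← pow_eq_zero_iff two_ne_zero]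
  linear_combination k7 - φ s * φ t * k6

theorem exists_ringEquiv {F F' : Type*} [Field F] [Field F'] {μ ν : F →+ F'}
    (hi : Function.Bijective μ) (h : ∀ t, t ≠ 0 → μ t⁻¹ * ν t = 1) :
    ∃ (φ : F ≃+* F') (c : F'), c ≠ 0 ∧ (∀ t, μ t = c * φ t) ∧ ∀ t, ν t = φ t / c := by
  have h1 := h 1 one_ne_zero
  rw [inv_one] at h1
  have h2 := left_ne_zero_of_mul_eq_one h1
  have h3 := right_ne_zero_of_mul_eq_one h1
  have h4 : Function.Bijective ((AddMonoidHom.mulLeft (ν 1)).comp μ) :=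
    (Equiv.mulLeft₀ _ h3).bijective.comp hi
  obtain ⟨h5, h6⟩ := map_mul_of_inv (ψ := (AddMonoidHom.mulLeft (μ 1)).comp ν) h4.1
    ((mul_comm _ _).trans h1) fun t ht => by
      change ν 1 * μ t⁻¹ * (μ 1 * ν t) = 1
      linear_combination μ 1 * ν 1 * h t ht + h1
  refine ⟨{ AddEquiv.ofBijective _ h4 with map_mul' := h6 }, μ 1, h2, fun t => ?_, fun t => ?_⟩
  · change _ = μ 1 * (ν 1 * μ t)
    rw [← mul_assoc, h1, one_mul]
  · rw [eq_div_iff h2, mul_comm]; exact h5 t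

theorem graph_param {H H' F F' : Type*} [Group H] [Group H'] [AddGroup F] [AddGroup F']
    {Y : Subgroup H} {Y' : Subgroup H'} {A : Subgroup (H × H')} (hA : Graph Y Y' A) {x : F → H}
    {x' : F' → H'} (a : ∀ s t, x s * x t = x (s + t)) (a' : ∀ s t, x' s * x' t = x' (s + t))
    (m : ∀ t, x t ∈ Y) (m' : ∀ t, x' t ∈ Y') (s' : ∀ g ∈ Y', ∃ t, x' t = g)
    (s : ∀ g ∈ Y, ∃ t, x t = g) (i : ∀ t, x t = 1 → t = 0) (i' : ∀ t, x' t = 1 → t = 0) :
    ∃ μ : F →+ F', Function.Bijective μ ∧ (∀ t, (x t, x' (μ t)) ∈ A) ∧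
      ∀ g ∈ A, ∃ t, g = (x t, x' (μ t)) := by
  have z : x 0 = 1 := mul_eq_left.1 ((a 0 0).trans (by rw [add_zero]))
  have z' : x' 0 = 1 := mul_eq_left.1 ((a' 0 0).trans (by rw [add_zero]))
  have u : ∀ g h h', (g, h) ∈ A → (g, h') ∈ A → h = h' := fun g h h' h1 h2 =>
    inv_mul_eq_one.1 ((hA.iff _ (mul_mem (inv_mem h1) h2)).1 (inv_mul_cancel g))
  have j' : ∀ s t, x' s = x' t → s = t := fun s t e =>
    neg_add_eq_zero.1 (i' _ (by rw [← a', ← e, a', neg_add_cancel, z']))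
  have h1 : ∀ t, ∃ t', (x t, x' t') ∈ A := fun t => by
    obtain ⟨y, hy⟩ := hA.ex1 _ (m t)
    obtain ⟨t', rfl⟩ := s' y (hA.snd _ hy)
    exact ⟨t', hy⟩
  choose μ hμ using h1
  have h2 : ∀ g ∈ A, ∃ t, g = (x t, x' (μ t)) := fun g hg => by
    obtain ⟨t, ht⟩ := s _ (hA.fst g hg)
    exact ⟨t, Prod.ext ht.symm (u _ _ _ hg (ht ▸ hμ t))⟩
  refine ⟨AddMonoidHom.mk' μ fun s t => j' _ _ (u _ _ _ (hμ _) ?_), ⟨?_, fun t' => ?_⟩, hμ, h2⟩
  · rw [← a, ← a']; exact mul_mem (hμ s) (hμ t)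
  · rw [injective_iff_map_eq_zero]
    exact fun t ht => i t ((hA.iff _ (hμ t)).2 (by rw [← z', ← ht]; rfl))
  · obtain ⟨g, hg⟩ := hA.ex2 _ (m' t')
    obtain ⟨t, ht⟩ := h2 _ hg
    exact ⟨t, j' _ _ (congrArg Prod.snd ht).symm⟩

theorem mem_Kr_rt {J : Set ι} {i j : ι} (hj : j ∈ J) (hc : 𝐬 i * 𝐬 j ≠ 𝐬 j * 𝐬 i) {w : W}
    (hw : w ∈ WJ 𝐬 J) {g : G} (hg : g ∈ XJ T J (rt 𝐬 w i))
    (h : g • ap T (w * 𝐬 i) = ap T (w * 𝐬 i)) : g ∈ Kr T (ap T 1) J := by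
  obtain ⟨n, hn⟩ := exists_mv T w
  have h1 := hn.inv.conj_mem_XJ (inv_mem hw) hg
  rw [tr_rt, inv_mul_cancel] at h1
  have := hn.conj_mem_Kr (mem_Kr_of_XJ hj hc h1 (dist_ap_one _) (by
    rw [mul_smul, mul_smul, inv_inv, hn, h, hn.inv, inv_mul_cancel_left]))
  rw [mul_one, ← Kr_congr (rs_ap_one hw)] at this
  simpa [mul_assoc] using this

theorem exists_lift (M : MH T) {a b : ι} (hc : 𝐬 a * 𝐬 b ≠ 𝐬 b * 𝐬 a) {A : Set W}
    (hA : InJ 𝐬 {a, b} A) {g : G} (hg : g ∈ XJ T {a, b} A) :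
    ∃ u ∈ X T A, u⁻¹ * g ∈ Kr T (ap T 1) {a, b} := by
  obtain ⟨w, hw, i, hi, rfl⟩ := hA
  obtain ⟨u, hu, e⟩ := M.exists_X (x := w) (i := i) (y := g • ap T (w * 𝐬 i)) (by
    rw [dist_of_fix (hg.1 w (self_mem_rt T.cox w i)), dist_ap_mul])
  have h1 := mul_mem (inv_mem (X_le_XJ {a, b} _ hu)) hg
  have h2 : (u⁻¹ * g) • ap T (w * 𝐬 i) = ap T (w * 𝐬 i) := by rw [mul_smul, ← e, inv_smul_smul]
  rcases hi with rfl | rfl
  · exact ⟨u, hu, mem_Kr_rt (by simp) hc hw h1 h2⟩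
  · exact ⟨u, hu, mem_Kr_rt (by simp) hc.symm hw h1 h2⟩

theorem eq_one_of_Kr (M : MH T) {J : Set ι} {A : Set W} (hA : InJ 𝐬 J A) {g : G} (hg : g ∈ X T A)
    (h : g ∈ Kr T (ap T 1) J) : g = 1 := by
  obtain ⟨w, hw, i, hi, rfl⟩ := hA
  exact M.eq_one hg (dist_ap_mul _ _) (h _ (rs_ap_one (mul_mem hw (gen_mem_WJ hi))))

theorem bt_add_ord (a b : ι) (k : ℕ) : bt 𝐬 a b (k + orderOf (𝐬 a * 𝐬 b)) = (bt 𝐬 a b k)ᶜ := by
  rw [bt_add, ← ord_lt a b k, bt_ord, tr_compl, tr_rt, mul_one, bt]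

/-- The six roots in cyclic order. -/
def pos (n : ℕ) : Fin 3 × Fin 3 :=
  [(0, 1), (0, 2), (1, 2), (1, 0), (2, 0), (2, 1), (0, 1), (0, 2)].getD n (0, 0)

theorem bt_pos {a b : ι} (h : orderOf (𝐬 a * 𝐬 b) = 3) {n : ℕ} (hn : n < 8) :
    bt 𝐬 a b n = rA 𝐬 a b (pos n).1 (pos n).2 := by
  have e := h ▸ bt_add_ord (T := T) a b
  have e2 : bt 𝐬 a b 2 = rt 𝐬 1 b := by simpa [h] using bt_last (T := T) a b
  interval_cases n
  exacts [rfl, bt_one a b, e2, e 0, (e 1).trans (congrArg _ (bt_one a b)),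
    (e 2).trans (congrArg _ e2), (e 3).trans ((congrArg _ (e 0)).trans (compl_compl _)),
    (e 4).trans ((congrArg _ (e 1)).trans ((compl_compl _).trans (bt_one a b)))]

set_option synthInstance.maxSize 1000 in
theorem pos_comm : ∀ i j k l : Fin 3, i ≠ j → k ≠ l → i ≠ l → j ≠ k → (i = k ∧ j = l) ∨
    ∃ n : Fin 6, (pos n = (i, j) ∧ pos (n + 1) = (k, l)) ∨
      (pos n = (k, l) ∧ pos (n + 1) = (i, j)) := by
  decide

theorem pos_cmt : ∀ i j l : Fin 3, i ≠ j → j ≠ l → i ≠ l → ∃ n : Fin 6, pos (n + 1) = (i, l) ∧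
    ((pos n = (i, j) ∧ pos (n + 2) = (j, l)) ∨ (pos n = (j, l) ∧ pos (n + 2) = (i, j))) := by
  decide

theorem bt_eq {a b : ι} (h : orderOf (𝐬 a * 𝐬 b) = 3) {n : ℕ} (hn : n < 8) {i j : Fin 3}
    (e : pos n = (i, j)) : rA 𝐬 a b i j = bt 𝐬 a b n := by rw [bt_pos h hn, e]

variable {a b : ι} {F F' : Type} [Field F] [Field F']

/-- Change of coordinates in an edge system. -/
def twist (E : EdgeSys T a b F') (φ : F ≃+* F') (c : Fin 3 → F') (hc : ∀ i, c i ≠ 0) :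
    EdgeSys T a b F where
  x i j t := E.x i j (c i * φ t / c j)
  st := ⟨fun i j h s t => by rw [E.st.add i j h, map_add, mul_add, add_div],
    fun i j k l h1 h2 h3 h4 _ _ => E.st.comm i j k l h1 h2 h3 h4 _ _, fun i j l h1 h2 h3 s t => by
      rw [E.st.cmt i j l h1 h2 h3, map_mul]; congr 1; field_simp [hc j]⟩
  mem i j h _ := E.mem i j h _
  surj i j h g hg := by
    obtain ⟨t, rfl⟩ := E.surj i j h g hg
    exact ⟨φ.symm (t * c j / c i), by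
      rw [φ.apply_symm_apply]; congr 1; field_simp [hc i, hc j]⟩
  inj i j h t ht := by simpa [hc i, hc j] using E.inj i j h _ ht

theorem rank_one (M : MH T) (E : EdgeSys T a b F) {i j : Fin 3} (hij : i ≠ j) {d : ι}
    (h1 : rA 𝐬 a b i j = rt 𝐬 1 d) (h2 : rA 𝐬 a b j i = (rt 𝐬 1 d)ᶜ) {t : F} (ht : t ≠ 0) :
    E.x j i t • ap T 1 = E.x i j t⁻¹ • ap T (𝐬 d) := by
  have := (Qd.mv_wE M E hij h1 h2 (t := -t⁻¹) (by simpa using ht)).1 1
  rwa [wE, mul_smul, mul_smul, (h1 ▸ E.mem i j hij _ :).1 1 (self_mem_rt T.cox 1 d), mul_one,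
    ← E.st.inv hij, inv_smul_eq_iff, inv_neg, neg_neg, inv_inv] at this

theorem exists_twist (M : MH T) (M' : MH T') (E : EdgeSys T a b F) {i j : Fin 3} (hij : i ≠ j)
    {c d : ι} (h1 : rA 𝐬 a b i j = rt 𝐬 1 d) (h2 : rA 𝐬 a b j i = (rt 𝐬 1 d)ᶜ)
    (E' : EdgeSys T' d c F') {A A' : Subgroup (G × G')}
    (hA : Graph (X T (rt 𝐬 1 d)) (X T' (rt T'.s 1 d)) A)
    (hA' : Graph (X T (rt 𝐬 1 d)ᶜ) (X T' (rt T'.s 1 d)ᶜ) A')
    (hR : ∀ x ∈ A', ∀ y ∈ A, x.1 • ap T 1 = y.1 • ap T (𝐬 d) →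
      x.2 • ap T' 1 = y.2 • ap T' (T'.s d)) :
    ∃ E'' : EdgeSys T' d c F, (∀ t, (E.x i j t, E''.x 0 1 t) ∈ A) ∧
      (∀ g ∈ A, ∃ t, g = (E.x i j t, E''.x 0 1 t)) ∧ ∀ t, (E.x j i t, E''.x 1 0 t) ∈ A' := by
  obtain ⟨μ, m1, m2, m3⟩ := graph_param hA (E.st.add i j hij) (E'.st.add 0 1 (by decide))
    (h1 ▸ E.mem i j hij) (E'.mem 0 1 (by decide)) (E'.surj 0 1 (by decide)) (h1 ▸ E.surj i j hij)
    (E.inj i j hij) (E'.inj 0 1 (by decide))
  obtain ⟨ν, n1, n2, -⟩ := graph_param hA' (E.st.add j i hij.symm) (E'.st.add 1 0 (by decide))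
    (h2 ▸ E.mem j i hij.symm) (E'.mem 1 0 (by decide)) (E'.surj 1 0 (by decide))
    (h2 ▸ E.surj j i hij.symm) (E.inj j i hij.symm) (E'.inj 1 0 (by decide))
  obtain ⟨φ, e, he, e1, e2⟩ := exists_ringEquiv (ν := ν) m1 fun t ht => by
    have h3 : ν t ≠ 0 := (map_ne_zero_iff ν n1.1).2 ht
    have h4 := hR _ (n2 t) _ (m2 t⁻¹) (rank_one M E hij h1 h2 ht)
    have h5 := M'.eq_of_smul_eq (x := 1) (E'.mem 0 1 (by decide) _) (E'.mem 0 1 (by decide) _)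
      (dist_ap_one _) (h4.symm.trans (rank_one M' E' (by decide) rfl rfl h3))
    have h6 := E'.inj 0 1 (by decide) (-(μ t⁻¹) + (ν t)⁻¹) (by
      rw [← E'.st.add 0 1 (by decide), ← E'.st.inv (by decide), h5, inv_mul_cancel])
    rw [neg_add_eq_zero.1 h6, inv_mul_cancel₀ h3]
  let E'' := twist E' φ ![e, 1, 1] (fun i => by fin_cases i <;> simp [he])
  have k1 : ∀ t, E''.x 0 1 t = E'.x 0 1 (μ t) := fun t => by rw [e1]; simp [E'', twist]
  have k2 : ∀ t, E''.x 1 0 t = E'.x 1 0 (ν t) := fun t => by rw [e2]; simp [E'', twist]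
  exact ⟨E'', fun t => k1 t ▸ m2 t, fun g hg => (m3 g hg).imp fun t ht => k1 t ▸ ht,
    fun t => k2 t ▸ n2 t⟩

/-- A root group as a homomorphism. -/
def hom (E : EdgeSys T a b F) {i j : Fin 3} (hij : i ≠ j) : Multiplicative F →* G :=
  MonoidHom.mk' (fun t => E.x i j t.toAdd) fun _ _ => (E.st.add i j hij _ _).symm

theorem graph_hom (E : EdgeSys T a b F) (E' : EdgeSys T' a b F) {i j : Fin 3} (hij : i ≠ j) :
    Graph (X T (rA 𝐬 a b i j)) (X T' (rA T'.s a b i j)) ((hom E hij).prod (hom E' hij)).range :=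
  Qd.graph _ _ (fun _ => E.mem i j hij _) (fun _ => E'.mem i j hij _) (E.surj i j hij)
    (E'.surj i j hij) (E.inj i j hij) (E'.inj i j hij)

theorem graph_id (Y : Subgroup G) : Graph Y Y (Y.subtype.prod Y.subtype).range :=
  Qd.graph _ _ (fun v => v.2) (fun v => v.2) (fun y hy => ⟨⟨y, hy⟩, rfl⟩)
    (fun y hy => ⟨⟨y, hy⟩, rfl⟩) (fun _ h => Subtype.ext h) fun _ h => Subtype.ext h

end Eg

open Eg

theorem exists_edgeSys (M : MH T) {a b : ι} (h : orderOf (T.s a * T.s b) = 3) {F : Type} [Field F]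
    (P : PlaneSys T a b F) : Nonempty (EdgeSys T a b F) := by
  have hc := nc_of_three h
  have h1 : ∀ i j t, ∃ u : LJ T {a, b}, (i ≠ j → u.1 ∈ X T (rA 𝐬 a b i j)) ∧
      rho T {a, b} u = rho T {a, b} (P.x i j t) := fun i j t => by
    by_cases hij : i = j
    · exact ⟨_, fun h => absurd hij h, rfl⟩
    obtain ⟨u, hu, h2⟩ := exists_lift M hc (inJ_rA h hij) (P.mem i j hij t)
    exact ⟨⟨u, X_le_LJ (inJ_rA h hij) hu⟩, fun _ => hu, (rho_eq_iff T).2 h2⟩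
  choose x m hx using h1
  have st : StSL fun i j t => rho T {a, b} (x i j t) := by simpa only [hx] using P.st
  have ext : ∀ i j, i ≠ j → ∀ u v : LJ T {a, b}, u.1 ∈ X T (rA 𝐬 a b i j) →
      v.1 ∈ X T (rA 𝐬 a b i j) → rho T {a, b} u = rho T {a, b} v → u.1 = v.1 :=
    fun i j hij u v hu hv e => inv_mul_eq_one.1 (eq_one_of_Kr M (inJ_rA h hij)
      (mul_mem (inv_mem hu) hv) ((rho_eq_iff T).1 e))
  have add : ∀ i j, i ≠ j → ∀ s t, (x i j s).1 * (x i j t).1 = (x i j (s + t)).1 :=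
    fun i j hij s t => ext i j hij (x i j s * x i j t) _ (mul_mem (m i j s hij) (m i j t hij))
      (m i j _ hij) (by rw [map_mul]; exact st.add i j hij s t)
  refine ⟨⟨fun i j t => (x i j t).1, ⟨add, fun i j k l h1 h2 h3 h4 s t => ?_,
    fun i j l h1 h2 h3 s t => ?_⟩, fun i j hij t => m i j t hij, fun i j hij g hg => ?_,
    fun i j hij t ht => P.inj i j hij t ?_⟩⟩
  · rcases pos_comm i j k l h1 h2 h3 h4 with ⟨rfl, rfl⟩ | ⟨n, ⟨e1, e2⟩ | ⟨e1, e2⟩⟩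
    · exact (add i j h1 s t).trans ((congrArg _ (congrArg _ (add_comm s t))).trans
        (add i j h1 t s).symm)
    · exact M.commute_bt (ne_of_nc hc) (bt_eq h (by omega) e1 ▸ m i j s h1)
        (bt_eq h (by omega) e2 ▸ m k l t h2)
    · exact (M.commute_bt (ne_of_nc hc) (bt_eq h (by omega) e1 ▸ m k l t h2)
        (bt_eq h (by omega) e2 ▸ m i j s h1)).symm
  · refine ext i l h3 ⁅x i j s, x j l t⁆ _ ?_ (m i l _ h3) (by
      rw [map_commutatorElement]; exact st.cmt i j l h1 h2 h3 s t)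
    obtain ⟨n, e, ⟨e1, e2⟩ | ⟨e1, e2⟩⟩ := pos_cmt i j l h1 h2 h3 <;> rw [bt_eq h (by omega) e]
    · exact M.comm_bt_two h.ge (bt_eq h (by omega) e1 ▸ m i j s h1)
        (bt_eq h (by omega) e2 ▸ m j l t h2)
    · rw [← inv_mem_iff, ← Subgroup.coe_inv, commutatorElement_inv]
      exact M.comm_bt_two h.ge (bt_eq h (by omega) e1 ▸ m j l t h2)
        (bt_eq h (by omega) e2 ▸ m i j s h1)
  · obtain ⟨t, ht⟩ := P.surj i j hij g (X_le_XJ _ _ hg)
    exact ⟨t, ext i j hij _ ⟨g, X_le_LJ (inJ_rA h hij) hg⟩ (m i j t hij) hg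
      ((hx i j t).trans ((rho_eq_iff T).2 ht).symm)⟩
  · rw [← rho_eq_one, ← hx, rho_eq_one, show (x i j t).1 = 1 from ht]
    exact one_mem _

theorem EdgeSys.locP (M : MH T) (M' : MH T') {a b : ι} (h : orderOf (T.s a * T.s b) = 3)
    (h' : orderOf (T'.s a * T'.s b) = 3) {F F' : Type} [Field F] [Field F'] [Finite F] [Finite F']
    (E : EdgeSys T a b F) (E' : EdgeSys T' a b F') {A : Subgroup (G × G')}
    (hA : Graph (X T (rt T.s 1 a)) (X T' (rt T'.s 1 a)) A) (hR : Rk1 T T' a A) :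
    ∃ B, Graph (X T (rt T.s 1 b)) (X T' (rt T'.s 1 b)) B ∧ LocP T T' a b A B := by
  obtain ⟨A', hA', hR⟩ := hR
  obtain ⟨D, -, h1, -⟩ := exists_twist M M' E (i := 0) (j := 1) (by decide) rfl rfl E' hA hA'
    fun x hx y hy => (hR x hx y hy).1
  have hne := ne_of_nc (nc_of_three h)
  have n1 : (0 : Fin 3) ≠ 2 := by decide
  have n2 : (1 : Fin 3) ≠ 2 := by decide
  have g1 := graph_hom E D n1
  have g2 := graph_hom E D n2
  let Γ : ℕ → Subgroup (G × G') := fun k => match k with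
    | 0 => A
    | 1 => ((hom E n1).prod (hom D n1)).range
    | _ + 2 => ((hom E n2).prod (hom D n2)).range
  have gr : ∀ k < 3, Graph (X T (bt T.s a b k)) (X T' (bt T'.s a b k)) (Γ k) := fun k hk => by
    rw [bt_pos h (by omega), bt_pos h' (by omega)]
    interval_cases k
    exacts [hA, g1, g2]
  refine ⟨_, g2, Γ, ⟨h ▸ gr, fun k r hk hr x hx y hy => ?_⟩, rfl, by rw [h]; rfl⟩
  rw [h] at hr
  by_cases e : r = k + 1
  · subst e
    rw [show ⁅x, y⁆ = 1 from Prod.ext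
      (M.commute_bt hne ((gr k (by omega)).fst x hx) ((gr _ hr).fst y hy)).commutator_eq
      (M'.commute_bt hne ((gr k (by omega)).snd x hx) ((gr _ hr).snd y hy)).commutator_eq]
    exact one_mem _
  obtain ⟨rfl, rfl⟩ : k = 0 ∧ r = 2 := by omega
  obtain ⟨s, rfl⟩ := h1 x hx
  obtain ⟨t, rfl⟩ := hy
  exact le_iSup₂_of_le (f := fun l (_ : 0 < l ∧ l < 2) => Γ l) 1 ⟨by omega, by omega⟩ le_rfl
    ⟨.ofAdd (s * t.toAdd), Prod.ext (E.st.cmt 0 1 2 (by decide) (by decide) (by decide) _ _).symm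
      (D.st.cmt 0 1 2 (by decide) (by decide) (by decide) _ _).symm⟩

theorem EdgeSys.next (M : MH T) {a b c : ι} (h : orderOf (T.s a * T.s b) = 3)
    (h' : orderOf (T.s b * T.s c) = 3) {F F' : Type} [Field F] [Field F'] [Finite F] [Finite F']
    (E : EdgeSys T a b F) (E' : EdgeSys T b c F') :
    ∃ E'' : EdgeSys T b c F, E''.x 0 1 = E.x 1 2 ∧ E''.x 1 0 = E.x 2 1 := by
  obtain ⟨D, h1, -, h2⟩ := exists_twist M M E (i := 1) (j := 2) (by decide) rfl rfl E'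
    (graph_id _) (graph_id _) (by rintro _ ⟨x, rfl⟩ _ ⟨y, rfl⟩; exact id)
  refine ⟨D, funext fun t => ?_, funext fun t => ?_⟩
  · obtain ⟨x, hx⟩ := h1 t
    exact (congrArg Prod.snd hx).symm.trans (congrArg Prod.fst hx)
  · obtain ⟨x, hx⟩ := h2 t
    exact (congrArg Prod.snd hx).symm.trans (congrArg Prod.fst hx)

end Cfsg.Agent.BNP
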