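import Mathlib
import Cfsg.Agent.BNP.Bt
import Cfsg.Agent.BNP.Quad
import Cfsg.Agent.BNP.DBond
import Cfsg.Agent.BNP.Plane
import Cfsg.Agent.BNP.Edge
import Cfsg.Agent.BNP.Compare
import Cfsg.Prelude.Def_Classification2

/-!
Isomorphism theorems for Moufang Tits systems whose diagram has a double bond.
-/

set_option autoImplicit false
set_option linter.unusedSectionVars false

namespace Cfsg.Agent.BNP

open Cfsg Cfsg.Agent.St Cfsg.Agent.Chev
open scoped commutatorElement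

variable {G ι W : Type*} [Group G] [Group W] [Finite W] [Finite G]
variable {G' W' : Type*} [Group G'] [Group W'] [Finite W'] [Finite G']

namespace IsoC

variable {T : Tits G ι W}

theorem exists_edge (M : MH T) {a b : ι} (h : orderOf (T.s a * T.s b) = 3) :
    ∃ (F : Type) (_ : Field F) (_ : Finite F), Nat.card F = qq T b ∧ Nonempty (EdgeSys T a b F) := by
  obtain ⟨F, _, _, ⟨P⟩⟩ := exists_planeSys (T := T) h
  exact ⟨F, inferInstance, inferInstance, P.card_b, exists_edgeSys M h P⟩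

theorem nontriv (M : MH T) (c : ι) : Nontrivial (X T (rt T.s 1 c)) := by
  obtain ⟨g, hg, h⟩ := M.exists_ne_one (isRt_rt 1 c)
  exact ⟨⟨g, hg⟩, 1, fun e => h (congrArg Subtype.val e)⟩

variable {a b c : ι} {F : Type} [Field F] {E : EdgeSys T a b F} (Q : QuadSys T a b c F E)

theorem bt_iff : Bt T b c ↔ ∀ l k, Q.D.T l k = 1 := by
  refine ⟨fun h l k => Q.inj2 _ ?_, fun h x hx y hy => ?_⟩
  · rw [← Q.r13]
    exact (h _ (E.mem 1 2 (by decide) l) _ (Q.mem3 k)).commutator_eq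
  · obtain ⟨l, rfl⟩ := E.surj 1 2 (by decide) x hx
    obtain ⟨k, rfl⟩ := Q.surj3 y hy
    rw [← commutatorElement_eq_one_iff_commute, Q.r13, h]
    exact mul_eq_left.1 (by rw [← Q.x2_mul, one_mul])

theorem bt_iff' (h4 : orderOf (T.s b * T.s c) = 4) : Bt T c b ↔ ∀ u v, Q.D.f u v = 0 := by
  have e : bt T.s c b 2 = bt T.s b c 1 := bt_symm T.cox (by omega)
  refine ⟨fun h u v => Q.inj3 _ ?_, fun h x hx y hy => ?_⟩
  · rw [← Q.r24]
    exact (h _ v.2 _ (by rw [e]; exact Q.mem2 u)).symm.commutator_eq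
  · obtain ⟨u, rfl⟩ := Q.surj2 y (by rwa [← e])
    refine Commute.symm ?_
    rw [← commutatorElement_eq_one_iff_commute, Q.r24 u ⟨x, hx⟩, h]
    exact mul_eq_left.1 ((Q.x3_add 0 0).symm.trans (by rw [add_zero]))

theorem iso_gen [IsSimpleGroup G] [IsSimpleGroup G'] {T' : Tits G' ι W'} (M : MH T) (M' : MH T')
    (ho : ∀ i j, orderOf (T'.s i * T'.s j) = orderOf (T.s i * T.s j))
    (hab : orderOf (T.s a * T.s b) = 3) (hbc : orderOf (T.s b * T.s c) = 4)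
    (hac : orderOf (T.s a * T.s c) = 2) (par : ι → ι) (rk : ι → ℕ)
    (h1 : ∀ k, ¬ (k = b ∨ k = c) → orderOf (T.s (par k) * T.s k) = 3 ∧ rk (par k) < rk k)
    (h2 : ∀ i j, i ≠ j → orderOf (T.s i * T.s j) = 2 ∨ (i = b ∧ j = c) ∨ (i = c ∧ j = b) ∨
      (¬ (i = b ∨ i = c) ∧ j = par i) ∨ (¬ (j = b ∨ j = c) ∧ i = par j))
    (hb : qq T b = qq T' b) (hc : qq T c = qq T' c) (hB : Bt T b c ↔ Bt T' b c) :
    Nonempty (G ≃* G') := by
  classical
  have hne : c ≠ b := (ne_of_ord hbc (by omega)).symm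
  obtain ⟨F, _, _, hF, ⟨E⟩⟩ := exists_edge M hab
  obtain ⟨F', _, _, hF', ⟨E'⟩⟩ := exists_edge M' ((ho a b).trans hab)
  obtain ⟨Q⟩ := exists_quadSys M hab hbc hac E
  obtain ⟨Q'⟩ := exists_quadSys M' ((ho a b).trans hab) ((ho b c).trans hbc) ((ho a c).trans hac) E'
  haveI := nontriv M c
  haveI := nontriv M' c
  obtain ⟨φ, ψ, e, he, k1, k2, k3, k4⟩ := DB.exists_iso Q.D Q'.D (by rw [hF, hF', hb])
    (by rw [M.card_X, M'.card_X, hc]) (by rw [← bt_iff, ← bt_iff, hB])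
  obtain ⟨A, B, gA, gB, hL⟩ := Q.locP M M' hbc ((ho b c).trans hbc) Q' φ ψ he k1 k2 k3 k4
  obtain ⟨rA, rB⟩ := hL.rk1 M M' (by omega) (ho b c)
  have step : ∀ k (C : Subgroup (G × G')), ∃ D, ¬ (k = b ∨ k = c) →
      Graph (X T (rt T.s 1 (par k))) (X T' (rt T'.s 1 (par k))) C → Rk1 T T' (par k) C →
      Graph (X T (rt T.s 1 k)) (X T' (rt T'.s 1 k)) D ∧ LocP T T' (par k) k C D := by
    intro k C
    by_contra hn
    push Not at hn
    obtain ⟨hk, g, r, -⟩ := hn ⊥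
    replace hk := not_or.2 hk
    obtain ⟨K, _, _, -, ⟨D⟩⟩ := exists_edge M (h1 k hk).1
    obtain ⟨K', _, _, -, ⟨D'⟩⟩ := exists_edge M' ((ho _ _).trans (h1 k hk).1)
    obtain ⟨B, h3, h4⟩ := D.locP M M' (h1 k hk).1 ((ho _ _).trans (h1 k hk).1) D' g r
    exact (hn B).2.2.2 h3 h4
  choose nx hnx using step
  obtain ⟨Γ, hΓ⟩ : ∃ Γ : ι → Subgroup (G × G'), ∀ k,
      Γ k = if k = b ∨ k = c then (if k = b then A else B) else nx k (Γ (par k)) := by
    refine ⟨(measure rk).wf.fix fun k ih => if h : k = b ∨ k = c then (if k = b then A else B)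
      else nx k (ih (par k) (h1 k h).2), fun k => ?_⟩
    rw [WellFounded.fix_eq]
    split_ifs <;> rfl
  have eb : Γ b = A := by rw [hΓ, if_pos (Or.inl rfl), if_pos rfl]
  have ec : Γ c = B := by rw [hΓ, if_pos (Or.inr rfl), if_neg hne]
  have key : ∀ k, Graph (X T (rt T.s 1 k)) (X T' (rt T'.s 1 k)) (Γ k) ∧ Rk1 T T' k (Γ k) := by
    intro k
    induction k using (measure rk).wf.induction with | _ k ih => ?_
    by_cases hk : k = b ∨ k = c
    · rcases hk with rfl | rfl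
      · rw [eb]; exact ⟨gA, rA⟩
      · rw [ec]; exact ⟨gB, rB⟩
    · obtain ⟨h3, h4⟩ := ih _ (h1 k hk).2
      obtain ⟨h5, h6⟩ := hnx k _ hk h3 h4
      rw [hΓ, if_neg hk]
      exact ⟨h5, (h6.rk1 M M' (h1 k hk).1.ge (ho _ _)).2⟩
  have loc : ∀ k, ¬ (k = b ∨ k = c) → LocP T T' (par k) k (Γ (par k)) (Γ k) := fun k hk => by
    rw [hΓ k, if_neg hk]
    exact (hnx k _ hk (key _).1 (key _).2).2
  haveI : Nonempty ι := ⟨b⟩
  refine nonempty_equiv_of_locP M M' ho M.gen_top M'.gen_top Γ fun i j hij => ?_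
  rcases h2 i j hij with h | ⟨rfl, rfl⟩ | ⟨rfl, rfl⟩ | ⟨h, rfl⟩ | ⟨h, rfl⟩
  · exact Or.inl (locP_of_commute M M' h ((ho _ _).trans h) (key i).1 (key j).1)
  · rw [eb, ec]; exact Or.inl hL
  · rw [eb, ec]; exact Or.inr hL
  · exact Or.inr (loc _ h)
  · exact Or.inl (loc _ h)

end IsoC

open IsoC

theorem quad_cases {T : Tits G ι W} (M : MH T) {a b c : ι} (hab : orderOf (T.s a * T.s b) = 3)
    (hbc : orderOf (T.s b * T.s c) = 4) (hac : orderOf (T.s a * T.s c) = 2) :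
    IsPrimePow (qq T b) ∧
    ((Bt T b c ∧ (qq T c = qq T b ∨ qq T c = qq T b ^ 2) ∧ (Odd (qq T b) → ¬ Bt T c b)) ∨
     (¬ Bt T b c ∧ ((qq T c = qq T b ∧ Odd (qq T b) ∧ Bt T c b) ∨ qq T c ^ 2 = qq T b ∨
        qq T c ^ 2 = qq T b ^ 3))) := by
  obtain ⟨F, _, _, hF, ⟨E⟩⟩ := exists_edge M hab
  obtain ⟨Q⟩ := exists_quadSys M hab hbc hac E
  haveI := nontriv M c
  refine ⟨?_, ?_⟩
  · haveI := Fintype.ofFinite F
    rw [← hF, Nat.card_eq_fintype_card]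
    exact FiniteField.isPrimePow_card F
  have h := DB.cases Q.D
  rw [M.card_X, hF] at h
  rw [bt_iff Q, bt_iff' Q hbc]
  push Not
  exact h

theorem iso_C [IsSimpleGroup G] [IsSimpleGroup G'] {n : ℕ} {S : Tits G (Fin (n + 3)) W}
    {S' : Tits G' (Fin (n + 3)) W'} (M : MH S) (M' : MH S')
    (h : ∀ i j, orderOf (S.s i * S.s j) = mC (n + 3) i j)
    (h' : ∀ i j, orderOf (S'.s i * S'.s j) = mC (n + 3) i j) (hq : ∀ i, qq S i = qq S' i)
    (hB : Bt S ⟨n + 1, by omega⟩ ⟨n + 2, by omega⟩ ↔ Bt S' ⟨n + 1, by omega⟩ ⟨n + 2, by omega⟩) :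
    Nonempty (G ≃* G') := by
  refine iso_gen (a := ⟨n, by omega⟩) M M' (fun i j => by rw [h, h']) ?_ ?_ ?_
    (fun k => ⟨min (k + 1) (n + 2), by omega⟩) (fun k => n + 3 - k) (fun k hk => ?_)
    (fun i j hij => ?_) (hq _) (hq _) hB
  · simp [h, mC]
  · simp [h, mC]
  · simp [h, mC]; omega
  · have := k.2
    simp only [h, mC, Fin.ext_iff] at hk ⊢
    split_ifs <;> omega
  · have := i.2
    have := j.2
    simp only [h, mC, Fin.ext_iff, ne_eq] at hij ⊢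
    split_ifs <;> omega

theorem iso_F [IsSimpleGroup G] [IsSimpleGroup G'] {S : Tits G (Fin 4) W} {S' : Tits G' (Fin 4) W'}
    (M : MH S) (M' : MH S') (h : ∀ i j, orderOf (S.s i * S.s j) = mF i j)
    (h' : ∀ i j, orderOf (S'.s i * S'.s j) = mF i j) (hq : ∀ i, qq S i = qq S' i)
    (hB : Bt S 1 2 ↔ Bt S' 1 2) : Nonempty (G ≃* G') := by
  refine iso_gen (a := 0) M M' (fun i j => by rw [h, h']) ?_ ?_ ?_ ![1, 0, 0, 2] ![1, 0, 0, 1]
    ?_ ?_ (hq _) (hq _) hB <;> simp only [h] <;> decide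

end Cfsg.Agent.BNP
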