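import Mathlib
import Cfsg.Agent.BNP.Defs
import Cfsg.Agent.St.Chev
import Cfsg.Agent.Chev.AutAbs
import Cfsg.Agent.UL.Twist
import Cfsg.Prelude.Def_Classification2

/-!
Tits systems of `F₄(q)` and `²E₆(q)`.
-/

set_option autoImplicit false

namespace Cfsg.Agent.BNP

open Cfsg Cfsg.Agent.St Cfsg.Agent.Chev

theorem relIndex_ofBN {G ι W : Type*} [Group G] [Finite G] [Group W] (P : BNPair G) (e : ι → P.S)
    (he : Function.Bijective e) (φ : BN.W P ≃* W) {i : ι} {k : ℕ}
    (hk : Nat.card (BN.cell P (BN.gen P (e i))) = k * Nat.card P.B) :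
    (Tits.ofBN P e he φ).B.relIndex ((Tits.ofBN P e he φ).par {i}) = k + 1 := by
  set T := Tits.ofBN P e he φ
  have h1 : T.s i ≠ 1 := fun h => by
    have := T.cox.mem_of_gen_mem (J := ∅) (i := i) (h ▸ one_mem _)
    exact this
  have h2 : ((T.par {i} : Subgroup G) : Set G) = (T.B : Set G) ∪ BN.cell P (BN.gen P (e i)) := by
    ext g
    rw [SetLike.mem_coe, T.mem_par, Set.mem_union, SetLike.mem_coe, ← T.wt_eq_one, ← BN.wt_eq_iff,
      ← φ.apply_eq_iff_eq, WJ, Set.image_singleton, ← Subgroup.zpowers_eq_closure]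
    refine ⟨?_, fun h => h.elim (fun h => h ▸ one_mem _) fun h => ?_⟩
    · rintro ⟨n, hn⟩
      have h3 : T.s i ^ (2 : ℤ) = 1 := by rw [zpow_two, T.cox.sq]
      rw [← hn]
      change _ ∨ T.wt g = T.s i
      rw [← hn]
      simp only
      rw [zpow_eq_zpow_emod n h3]
      rcases Int.emod_two_eq_zero_or_one n with h | h <;> simp [h]
    · exact (show T.wt g = T.s i from h) ▸ Subgroup.mem_zpowers _
  have h3 : Nat.card (T.par {i}) = (k + 1) * Nat.card T.B := by
    change ((T.par {i} : Subgroup G) : Set G).ncard = _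
    rw [h2, Set.ncard_union_eq (Set.disjoint_left.2 fun g hg hg' => h1 (by
      rw [← T.wt_eq_one.2 hg]
      exact (congrArg φ (BN.wt_eq_iff.2 hg')).symm))]
    change Nat.card T.B + Nat.card (BN.cell P (BN.gen P (e i))) = _
    rw [hk, add_mul, one_mul, add_comm]
    rfl
  have h4 := Subgroup.relIndex_mul_relIndex ⊥ _ _ bot_le (T.B_le_par {i})
  rw [Subgroup.relIndex_bot_left, Subgroup.relIndex_bot_left, h3, mul_comm] at h4
  exact Nat.eq_of_mul_eq_mul_right Nat.card_pos h4

theorem mF_eq (i j : Fin 4) : CoxeterMatrix.F₄ i j = mF i j := by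
  fin_cases i <;> fin_cases j <;> rfl

attribute [local instance] goodF4 goodE6

section
variable {F : Type} [Field F] [Fintype F] {n : ℕ}

theorem model_F4 : HasModel (Lie.chevF4.group F) mF fun _ => Fintype.card F := by
  refine ⟨_, _, chevTits F rootTableF4, fun i j => ?_, fun i => relIndex_ofBN _ _
    ((isND_xC rootTableF4).bnGen_bijective isSt_xC Gs_xC) _ ?_⟩
  · rw [chevTits, stTits_s, ← mF_eq]
    by_cases hij : i = j
    · subst hij
      rw [CoxeterMatrix.diagonal]
      exact orderOf_eq_one_iff.2 (rootTableF4.cs.simple_mul_simple_self i)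
    · exact rootTableF4.isCartan.orderOf_simple_mul _ hij
  · rw [IsND.card_cell_gen, Nat.card_eq_fintype_card]

theorem model_2E6 {q : ℕ} (hq : Fintype.card F = q ^ 2) :
    HasModel (Lie.twistedE6 F q) mF ![q, q, q ^ 2, q ^ 2] := by
  have h : IsPrimePow q := (isPrimePow_pow_iff two_ne_zero).1 (hq ▸ FiniteField.isPrimePow_card F)
  obtain ⟨S, φ, hφ, h1, hT⟩ := E6.exists_data h hq
  refine ⟨_, _, UL.twTits (E6.tw S φ hφ).data (Subgroup.inclusion E6.le_group)
    (Subgroup.inclusion_injective _) ((E6.tw S φ hφ).data.range_inclusion _ hT), fun i j => ?_,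
    fun i => relIndex_ofBN _ _ _ _ ?_⟩
  · rw [← mF_eq, ← E6.orderOf_wJ S φ hφ]
    exact (E6.tw S φ hφ).data.orderOf_gen _ _ _ i j
  · rw [TwistData.card_cell_gen, E6.card_UJ S φ hφ h1 hq h.pos]
    fin_cases i <;> simp
end

end Cfsg.Agent.BNP
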