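import Mathlib
import Cfsg.Agent.BNP.Defs
import Cfsg.Agent.UL.PMinForm

/-!
The Coxeter matrix and the panel sizes of the Tits system of a formed space.
-/

set_option autoImplicit false
set_option linter.unusedSectionVars false

namespace Cfsg.Agent.BNP

open Cfsg Cfsg.Agent.Chev Cfsg.Agent.St Subgroup Cfsg.Agent.KSG Cfsg.Agent.KSG.FB
  Cfsg.Agent.Class Module

section Perm

variable {m : ℕ}

theorem sw_cases (i : Fin m) (k : Fin (2 * m)) :
    (k.val = i ∧ (sw i k).val = i + 1) ∨ (k.val = i + 1 ∧ (sw i k).val = i) ∨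
    (k.val + (i + 1) = 2 * m ∧ (sw i k).val + (i + 2) = 2 * m) ∨
    (k.val + (i + 2) = 2 * m ∧ (sw i k).val + (i + 1) = 2 * m) ∨
    (k.val ≠ i ∧ k.val ≠ i + 1 ∧ k.val + (i + 1) ≠ 2 * m ∧ k.val + (i + 2) ≠ 2 * m ∧
      (sw i k).val = k) := by
  have := i.2
  have := k.2
  rw [val_sw]
  split_ifs <;> omega

theorem sw_comm {i j : Fin m} (h : i.val + 1 < j.val) : sw i * sw j = sw j * sw i :=
  Equiv.ext fun k => Fin.ext (by
    have := j.2
    have := sw_cases j k
    have := sw_cases i k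
    have := sw_cases i (sw j k)
    have := sw_cases j (sw i k)
    simp only [Equiv.Perm.mul_apply]
    omega)

/-- The simple reflections on natural numbers. -/
def sf (m i x : ℕ) : ℕ :=
  if x = i then i + 1 else if x = i + 1 then i else if x = 2 * m - (i + 1) then 2 * m - (i + 2)
    else if x = 2 * m - (i + 2) then 2 * m - (i + 1) else x

theorem val_sw' (i : Fin m) (k : Fin (2 * m)) : (sw i k).val = sf m i k := val_sw i k

theorem sf1 {m i x : ℕ} (h : x = i) : sf m i x = i + 1 := if_pos h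

theorem sf2 {m i x : ℕ} (h : x = i + 1) : sf m i x = i := by
  unfold sf; split_ifs <;> omega

theorem sf3 {m i x : ℕ} (h : i < m ∧ x + (i + 1) = 2 * m) : sf m i x = 2 * m - (i + 2) := by
  unfold sf; split_ifs <;> omega

theorem sf4 {m i x : ℕ} (h : i < m ∧ x + (i + 2) = 2 * m) : sf m i x = 2 * m - (i + 1) := by
  unfold sf; split_ifs <;> omega

theorem sf5 {m i x : ℕ} (h : i < m ∧ x ≠ i ∧ x ≠ i + 1 ∧ x + (i + 1) ≠ 2 * m ∧ x + (i + 2) ≠ 2 * m) :
    sf m i x = x := by
  unfold sf; split_ifs <;> omega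

theorem sw_braid3 {i j : Fin m} (h : i.val + 1 = j.val) (hj : j.val + 1 < m) :
    sw i * sw j * sw i = sw j * sw i * sw j :=
  Equiv.ext fun k => Fin.ext (by
    simp only [Equiv.Perm.mul_apply, val_sw']
    generalize k.val = x
    generalize i.val = a at *
    generalize j.val = b at *
    subst h
    have : x = a ∨ x = a + 1 ∨ x = a + 2 ∨ x + (a + 1) = 2 * m ∨ x + (a + 2) = 2 * m ∨
      x + (a + 3) = 2 * m ∨ (x ≠ a ∧ x ≠ a + 1 ∧ x ≠ a + 2 ∧ x + (a + 1) ≠ 2 * m ∧
        x + (a + 2) ≠ 2 * m ∧ x + (a + 3) ≠ 2 * m) := by omega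
    rcases this with h | h | h | h | h | h | h <;>
      simp (disch := omega) only [sf1, sf2, sf3, sf4, sf5])

theorem sw_braid4 {i j : Fin m} (h : i.val + 1 = j.val) (hj : j.val + 1 = m) :
    sw i * sw j * sw i * sw j = sw j * sw i * sw j * sw i :=
  Equiv.ext fun k => Fin.ext (by
    simp only [Equiv.Perm.mul_apply, val_sw']
    generalize k.val = x
    generalize i.val = a at *
    generalize j.val = b at *
    subst h
    have : x = a ∨ x = a + 1 ∨ x = a + 2 ∨ x = a + 3 ∨
      (x ≠ a ∧ x ≠ a + 1 ∧ x ≠ a + 2 ∧ x ≠ a + 3) := by omega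
    rcases this with h | h | h | h | h <;>
      simp (disch := omega) only [sf1, sf2, sf3, sf4, sf5] <;> omega)

theorem sw_ne {i j : Fin m} (h : i ≠ j) : sw i * sw j ≠ 1 := fun e => by
  have h1 := congrArg (fun w : Equiv.Perm (Fin (2 * m)) => (w (up j)).val) e
  simp only [Equiv.Perm.mul_apply, sw_up, Equiv.Perm.one_apply, val_up] at h1
  have := sw_cases i (lo j)
  have := i.2
  have := j.2
  have : i.val ≠ j.val := fun e => h (Fin.ext e)
  simp only [val_lo] at *
  omega

theorem sw_not_comm {i j : Fin m} (h : i.val + 1 = j.val) : sw i * sw j ≠ sw j * sw i := fun e => by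
  have h1 := congrArg (fun w : Equiv.Perm (Fin (2 * m)) => (w (lo i)).val) e
  simp only [Equiv.Perm.mul_apply] at h1
  have := sw_cases j (lo i)
  have := sw_cases i (lo i)
  have := sw_cases i (sw j (lo i))
  have := sw_cases j (sw i (lo i))
  have := j.2
  simp only [val_lo] at *
  omega

theorem orderOf_sw_lt {i j : Fin m} (h : i < j) : orderOf (sw i * sw j) = mC m i j := by
  have hi := sw_mul_self i
  have hj := sw_mul_self j
  have h' : i.val < j.val := h
  have hj' := j.2
  have key : ∀ {a b : Equiv.Perm (Fin (2 * m))}, a = b → a * b⁻¹ = 1 := fun e => by rw [e, mul_inv_cancel]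
  unfold mC
  rw [if_neg h.ne]
  split_ifs with h1 h2
  · have : Fact (Nat.Prime 2) := ⟨Nat.prime_two⟩
    refine orderOf_eq_prime_pow (p := 2) (n := 1) (fun e => sw_not_comm (i := i) (j := j) (by omega) ?_) ?_
    · rw [← mul_inv_eq_one, mul_inv_rev, sw_inv, sw_inv, ← e, pow_one, pow_two]
    · have := key (sw_braid4 (i := i) (j := j) (by omega) (by omega))
      simp only [mul_inv_rev, FB.sw_inv] at this
      rw [← this, show 2 ^ (1 + 1) = 4 from rfl]
      simp only [pow_succ, pow_zero, one_mul, mul_assoc]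
  · have : Fact (Nat.Prime 3) := ⟨Nat.prime_three⟩
    refine orderOf_eq_prime ?_ (sw_ne h.ne)
    have := key (sw_braid3 (i := i) (j := j) (by omega) (by omega))
    simp only [mul_inv_rev, FB.sw_inv] at this
    rw [← this]
    simp only [pow_succ, pow_zero, one_mul, mul_assoc]
  · have : Fact (Nat.Prime 2) := ⟨Nat.prime_two⟩
    refine orderOf_eq_prime ?_ (sw_ne h.ne)
    have := key (sw_comm (i := i) (j := j) (by omega))
    simp only [mul_inv_rev, FB.sw_inv] at this
    rw [← this]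
    simp only [pow_succ, pow_zero, one_mul, mul_assoc]

theorem mC_symm (i j : Fin m) : mC m i j = mC m j i := by
  unfold mC
  simp only [eq_comm (a := i), or_comm]

theorem orderOf_sw (i j : Fin m) : orderOf (sw i * sw j) = mC m i j := by
  rcases lt_trichotomy i j with h | rfl | h
  · exact orderOf_sw_lt h
  · rw [sw_mul_self, orderOf_one, mC, if_pos rfl]
  · rw [mC_symm, ← orderOf_sw_lt h, ← orderOf_inv, mul_inv_rev, sw_inv, sw_inv]

end Perm

section General

variable {G ι W : Type*} [Group G] [Group W]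

theorem relIndex_par_eq (T : Tits G ι W) {i : ι} {n : G} (hn : T.wt n = T.s i) {Y : Type*}
    [Finite Y] (c : Y → G) (hc : ∀ y, c y ∈ T.B)
    (inj : ∀ y y', n⁻¹ * ((c y)⁻¹ * c y') * n ∈ T.B → y = y')
    (surj : ∀ b ∈ T.B, ∃ y, n⁻¹ * ((c y)⁻¹ * b) * n ∈ T.B) :
    T.B.relIndex (T.par {i}) = Nat.card Y + 1 := by
  have hm : ∀ y, c y * n ∈ T.par {i} := fun y =>
    mul_mem (T.B_le_par _ (hc y)) (UL.mem_par_gen T hn)
  have hw : ∀ y, T.wt (c y * n) = T.s i := fun y => by rw [T.wt_B_mul (hc y), hn]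
  rw [← Finite.card_option]
  refine (Nat.card_congr (Equiv.ofBijective (fun x : Option Y => (QuotientGroup.mk
    (x.elim 1 fun x => ⟨c x * n, hm x⟩) : T.par {i} ⧸ T.B.subgroupOf _)) ⟨?_, fun x => ?_⟩)).symm
  · rintro (_ | x) (_ | y) e <;> replace e := QuotientGroup.eq.1 e
    · rfl
    · exact absurd (by simpa [mem_subgroupOf] using e) (UL.not_mem_B T (hw y))
    · exact absurd (by simpa [mem_subgroupOf] using inv_mem e) (UL.not_mem_B T (hw x))
    · rw [inj x y (by simpa [mem_subgroupOf, mul_assoc] using e)]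
  · obtain ⟨⟨g, hg⟩, rfl⟩ := QuotientGroup.mk_surjective x
    by_cases hb : g ∈ T.B
    · exact ⟨none, QuotientGroup.eq.2 (by simpa [mem_subgroupOf] using hb)⟩
    · obtain ⟨b, hb1, b', hb', rfl⟩ := T.exists_eq (hn.trans (UL.wt_eq_gen_of_mem T hg hb).symm)
      obtain ⟨y, hy⟩ := surj b hb1
      exact ⟨some y, QuotientGroup.eq.2 (by simpa [mem_subgroupOf, mul_assoc] using mul_mem hy hb')⟩

end General

section Frame

variable {F V : Type*} [Field F] [AddCommGroup V] [Module F V] [FiniteDimensional F V]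
  {σ : F →+* F} {B : V →ₛₗ[σ] V →ₗ[F] F} {Q : V → F} {ε : F} {π : F →+ F} {m : ℕ}
  {f : Fin (2 * m) → V} (D : MF B Q ε π f)
include D

theorem conj_s_mem_iff {i : Fin m} {x y : Isom B Q} (hx : x ∈ Bor B Q f) (hy : y ∈ Bor B Q f) :
    (D.s i)⁻¹ * (x⁻¹ * y) * D.s i ∈ Bor B Q f ↔ B (x.1 (f (lo i).rev)) (y.1 (f (up i))) = 0 := by
  have hs : D.s i ∈ stabF B Q (fil B f (labJ {i})) := D.s_mem_iff.2 rfl
  have hP := mul_mem (mul_mem (inv_mem hs) (D.Bor_le (labJ_rev _) (labJ_mono _)
    (mul_mem (inv_mem hx) hy))) hs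
  obtain ⟨c, hc0, hc⟩ := D.acts_s i (lo i)
  have e : B (f (up i).rev) (((D.s i)⁻¹ * (x⁻¹ * y) * D.s i).1 (f (lo i))) = 0 ↔
      B (x.1 (f (lo i).rev)) (y.1 (f (up i))) = 0 := by
    rw [Isom.mul_apply, Isom.mul_apply, ← sw_lo, (D.acts_s_inv i).coord D.hf, hc, sw_lo, map_smul,
      map_smul, smul_eq_zero, or_iff_right hc0, Isom.mul_apply, B_inv_apply]
  rw [← e]
  exact ⟨fun h => D.coord_eq_zero h (lab_lt.2 (lo_lt_up i)), D.mem_Bor_of_P hP⟩

theorem diag_ne {b : Isom B Q} (hb : b ∈ Bor B Q f) (k : Fin (2 * m)) :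
    B (f k.rev) (b.1 (f k)) ≠ 0 := fun h => by
  have h1 := D.sub_mem_fil hb k
  rw [h, mul_zero, zero_smul, sub_zero] at h1
  have h2 := mem_stabF.1 (inv_mem hb) _ _ h1
  rw [Isom.inv_apply_apply] at h2
  exact D.hf.ne k (h2.1 k (by omega))

variable (ht : (∃ a, a ≠ 0 ∧ π a = 0) ∨ ∃ u ∈ V0 B f, u ≠ 0)

theorem orderOf_titsB (i j : Fin m) :
    orderOf ((D.titsB ht).s i * (D.titsB ht).s j) = mC m i j := by
  rw [← orderOf_sw, orderOf_eq_orderOf_iff]
  intro k
  have hs : ∀ i, D.s i ∈ (D.titsB ht).N := (D.locB ht).s_mem_N0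
  have hw : ∀ i, (D.titsB ht).wt (D.s i) = (D.titsB ht).s i := (D.locB ht).toTits_wt_s _
  have hN : D.s i * D.s j ∈ (D.titsB ht).N := mul_mem (hs i) (hs j)
  have h1 : (D.titsB ht).wt ((D.s i * D.s j) ^ k) = ((D.titsB ht).s i * (D.titsB ht).s j) ^ k := by
    induction k with
    | zero => rw [pow_zero, pow_zero, Tits.wt_one]
    | succ k ih =>
      rw [pow_succ, pow_succ, (D.titsB ht).wt_N_mul (pow_mem hN k) hN, ih,
        (D.titsB ht).wt_N_mul (hs i) (hs j), hw, hw]
  have h2 : Acts f ((D.s i * D.s j) ^ k) ((sw i * sw j) ^ k) := by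
    clear h1
    induction k with
    | zero => rw [pow_zero, pow_zero]; exact acts_one
    | succ k ih => rw [pow_succ, pow_succ]; exact ih.mul ((D.acts_s i).mul (D.acts_s j))
  rw [← h1, (D.titsB ht).wt_eq_one]
  exact ⟨D.eq_one_of_mem_Bor h2, fun e => (D.mem_H_iff.2 (e ▸ h2)).1⟩

variable [Finite F]

theorem relIndex_lt {i : Fin m} (hi : i.val + 1 < m) :
    (D.titsB ht).B.relIndex ((D.titsB ht).par {i}) = Nat.card F + 1 := by
  have h1 : lo i ≠ (up i).rev := fun e => by
    have := congrArg Fin.val e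
    simp only [Fin.val_rev, val_lo, val_up] at this
    omega
  have h2 : lo i ≠ (lo i).rev := (rev_ne _).symm
  choose c hc t e1 e2 e3 using D.exists_root_Xp (lo_lt_up i).ne h1
  have key : ∀ a v, B ((c a).1 (f (lo i).rev)) v = B (f (lo i).rev) v -
      a * B (f (lo i).rev) (f (lo i)) / B (f (up i).rev) (f (up i)) * B (f (up i).rev) v := by
    intro a v
    have h3 := Isom.map_B (c a) (f (lo i).rev) (f (up i))
    rw [e1, e2] at h3
    simp only [map_add, LinearMap.add_apply, LinearMap.map_smulₛₗ₂, map_smul, smul_eq_mul,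
      D.hf.orth _ _ (lo_lt_up i).ne, D.hf.orth _ _ (lo_lt_up i).ne'] at h3
    have h4 := D.hf.ne (up i)
    rw [e2]
    simp only [map_add, LinearMap.add_apply, LinearMap.map_smulₛₗ₂, smul_eq_mul]
    field_simp
    linear_combination B (f (up i).rev) v * h3
  have h4 := D.hf.ne (up i)
  have h5 := D.hf.ne (lo i)
  refine relIndex_par_eq _ ((D.locB ht).toTits_wt_s _ i) c (fun a => D.Xp_le i _ (hc a))
    (fun a b h => ?_) fun b hb => ?_
  · replace h := (conj_s_mem_iff D (D.Xp_le i _ (hc a)) (D.Xp_le i _ (hc b))).1 h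
    rw [key, e1] at h
    simp only [map_add, map_smul, smul_eq_mul, D.hf.orth _ _ (lo_lt_up i).ne,
      D.hf.orth _ _ (lo_lt_up i).ne'] at h
    field_simp at h
    refine mul_right_cancel₀ (mul_ne_zero h5 h4) ?_
    linear_combination -h
  · have h6 := diag_ne D hb (up i)
    refine ⟨B (f (lo i).rev) (b.1 (f (up i))) * B (f (up i).rev) (f (up i)) /
      (B (f (lo i).rev) (f (lo i)) * B (f (up i).rev) (b.1 (f (up i)))),
      (conj_s_mem_iff D (D.Xp_le i _ (hc _)) hb).2 ?_⟩
    rw [key]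
    field_simp
    ring

omit D in
variable (B Q) in
/-- The singular vectors parametrizing the last panel. -/
def Ylast (f : Fin (2 * m) → V) (b : Fin (2 * m)) : Set V :=
  {y | Q y = 0 ∧ (∀ k, k ≠ b → k ≠ b.rev → B (f k) y = 0) ∧ B (f b.rev) y = B (f b.rev) (f b)}

theorem card_Ylast (b : Fin (2 * m)) :
    Nat.card (Ylast B Q f b) = Nat.card (V0 B f) * Nat.card π.ker := by
  have : Finite V := Module.finite_of_finite F
  have h1 : B (f b) (f b.rev) ≠ 0 := by simpa using D.hf.ne b.rev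
  have h2 : ∀ k, k ≠ b.rev → B (f k) (f b) = 0 := fun k hk =>
    D.hf.orth' fun e => hk (by rw [e, Fin.rev_rev])
  have h3 : ∀ k, k ≠ b → B (f k) (f b.rev) = 0 := fun k hk =>
    D.hf.orth' fun e => hk (Fin.rev_injective e).symm
  have hQ : ∀ (w : V0 B f) (c : F), Q (f b + c • f b.rev + w) = π (c * B (f b) (f b.rev)) + Q w := by
    intro w c
    rw [D.h.add, D.h.add, D.h.smul, D.hf.sing, D.hf.sing, map_add B, LinearMap.add_apply,
      LinearMap.map_smulₛₗ₂, w.2 b, w.2 b.rev, map_smul]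
    simp
  choose r hr using D.h.range
  rw [← Nat.card_prod]
  refine (Nat.card_congr (Equiv.ofBijective (fun x : V0 B f × π.ker =>
    (⟨f b + ((x.2 - r x.1) / B (f b) (f b.rev)) • f b.rev + x.1, ?_, fun k k1 k2 => ?_, ?_⟩ :
      Ylast B Q f b)) ⟨?_, ?_⟩)).symm
  · rw [hQ, div_mul_cancel₀ _ h1, map_sub, hr, x.2.2, zero_sub, neg_add_cancel]
  · rw [map_add, map_add, map_smul, h2 k k2, h3 k k1, x.1.2 k, smul_zero, add_zero, add_zero]
  · rw [map_add, map_add, map_smul, h3 _ (rev_ne b), x.1.2, smul_zero, add_zero, add_zero]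
  · rintro ⟨w, c⟩ ⟨w', c'⟩ e
    replace e : f b + ((c - r w) / B (f b) (f b.rev)) • f b.rev + w =
      f b + ((c' - r w') / B (f b) (f b.rev)) • f b.rev + w' := congrArg Subtype.val e
    have e1 := congrArg (B (f b)) e
    simp only [map_add, map_smul, w.2 b, w'.2 b, smul_eq_mul, add_zero, add_right_inj,
      div_mul_cancel₀ _ h1] at e1
    rw [e1, add_right_inj] at e
    obtain rfl := Subtype.ext e
    exact Prod.ext rfl (Subtype.ext (sub_left_injective e1))
  · rintro ⟨y, hq, hy, hy'⟩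
    have hw : y - f b - (B (f b) y / B (f b) (f b.rev)) • f b.rev ∈ V0 B f := fun k => by
      rw [map_sub, map_sub, map_smul, smul_eq_mul]
      by_cases k1 : k = b
      · rw [k1, div_mul_cancel₀ _ h1, h2 _ (rev_ne b).symm, sub_zero, sub_self]
      rw [h3 k k1, mul_zero, sub_zero]
      by_cases k2 : k = b.rev
      · rw [k2, hy', sub_self]
      · rw [hy k k1 k2, h2 k k2, sub_zero]
    have h4 := hQ ⟨_, hw⟩ (B (f b) y / B (f b) (f b.rev))
    rw [div_mul_cancel₀ _ h1, show f b + (B (f b) y / B (f b) (f b.rev)) • f b.rev +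
      (y - f b - (B (f b) y / B (f b) (f b.rev)) • f b.rev) = y by abel, hq] at h4
    refine ⟨⟨⟨_, hw⟩, ⟨B (f b) y + r (y - f b - (B (f b) y / B (f b) (f b.rev)) • f b.rev), ?_⟩⟩,
      Subtype.ext ?_⟩
    · rw [AddMonoidHom.mem_ker, map_add, hr, ← h4]
    · simp only [add_sub_cancel_right]
      abel

theorem relIndex_last {i : Fin m} (hi : i.val + 1 = m) :
    (D.titsB ht).B.relIndex ((D.titsB ht).par {i}) = Nat.card (V0 B f) * Nat.card π.ker + 1 := by
  have : Finite V := Module.finite_of_finite F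
  have hr : (up i).rev = lo i := Fin.ext (by simp only [Fin.val_rev, val_lo, val_up]; omega)
  have hr' : (lo i).rev = up i := by rw [← hr, Fin.rev_rev]
  rw [← card_Ylast D (up i)]
  choose c hc e1 e2 using fun y : Ylast B Q f (up i) => D.exists_move_Xp y.2.1 y.2.2.1 y.2.2.2
  have hB : ∀ y, c y ∈ Bor B Q f := fun y => D.Xp_le i _ (hr ▸ hc y)
  refine relIndex_par_eq _ ((D.locB ht).toTits_wt_s _ i) c hB (fun y y' h => ?_) fun b hb => ?_
  · replace h := (conj_s_mem_iff D (hB y) (hB y')).1 h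
    rw [hr', e1, e1] at h
    obtain ⟨y, hq, hy1, hy2⟩ := y
    obtain ⟨y', hq', hy1', hy2'⟩ := y'
    replace h : B y y' = 0 := h
    have h1 : ∀ k, k ≠ up i → B (f k) (y - y') = 0 := fun k hk => by
      rw [map_sub]
      by_cases k2 : k = (up i).rev
      · rw [k2, hy2, hy2', sub_self]
      · rw [hy1 k hk k2, hy1' k hk k2, sub_zero]
    have h2 : y - y' ∈ fil B f lab (-1) := mem_fil_of_sing D.h D.hf D.hm lab_rev (by omega) (by
      rw [sub_eq_add_neg, D.h.add, ← neg_one_smul F y', D.h.smul, map_smul, h, hq, hq']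
      simp) fun k hk => h1 _ fun e => by
        have := congrArg Fin.val e
        simp only [lab, Fin.val_rev, val_up] at this hk
        omega
    have h3 : y - f (up i) ∈ fil B f lab 0 := ⟨fun k hk => by
      rw [map_sub]
      by_cases k2 : k = up i
      · rw [k2, hy2, sub_self]
      · rw [hy1 _ (fun e => by
          have := congrArg Fin.val e
          simp only [lab, Fin.val_rev, val_up] at this hk
          omega) (Fin.rev_injective.ne k2), D.hf.orth _ _ k2, sub_zero], fun h => absurd h (by omega)⟩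
    have h4 := orth_fil D.h D.hf lab_rev (by omega) h3 h2
    rw [map_sub B, LinearMap.sub_apply, map_sub (B y), h, D.h.self_eq_zero hq, sub_zero, zero_sub,
      neg_eq_zero] at h4
    refine Subtype.ext (sub_eq_zero.1 (eq_zero_of_frame D.h D.hf (fun k => ?_) (h2.2 (by omega))))
    by_cases k1 : k = up i
    · rw [k1, h4]
    · exact h1 k k1
  · have h1 := diag_ne D hb (up i)
    have h0 : ∀ k, up i < k → B (f k.rev) (b.1 (f (up i))) = 0 := fun k hk =>
      D.coord_eq_zero hb (lab_lt.2 hk)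
    have hq : Q (b.1 (f (up i))) = 0 := (Isom.map_Q b _).trans (D.hf.sing _)
    suffices H : ∃ y ∈ Ylast B Q f (up i), B y (b.1 (f (up i))) = 0 by
      obtain ⟨y, hy, h⟩ := H
      exact ⟨⟨y, hy⟩, (conj_s_mem_iff D (hB _) hb).2 (by rwa [hr', e1])⟩
    generalize b.1 (f (up i)) = v at h0 h1 hq
    have hjm : (up i).val = m := hi
    generalize up i = j at h0 h1 hjm
    let α : Fin (2 * m) → F := fun k =>
      if k.val + 1 < m then (B (f k.rev) (f k))⁻¹ * B (f k.rev) v else 0
    have he : ∑ k, α k • f k ∈ fil B f lab (-3) := sum_mem fun k _ => by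
      simp only [α]
      split_ifs with hk
      · exact Submodule.smul_mem _ _ (frame_mem_fil D.h D.hf (by simp only [lab]; omega))
      · rw [zero_smul]; exact zero_mem _
    have hv : v ∈ fil B f lab 1 := ⟨fun k hk => h0 k (by simp only [lab, Fin.lt_def] at hk ⊢; omega),
      fun h => absurd h (by omega)⟩
    have hy : v - ∑ k, α k • f k ∈ fil B f lab 1 := sub_mem hv (fil_mono _ (by omega) he)
    have hqy : Q (v - ∑ k, α k • f k) = 0 := by
      rw [sub_eq_add_neg, D.h.add, hq, Q_eq_zero_of_fil D.h D.hf lab_rev (by omega) (neg_mem he),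
        orth_fil D.h D.hf lab_rev (by omega) hv (neg_mem he), map_zero, add_zero, add_zero]
    refine ⟨(B (f j.rev) (f j) / B (f j.rev) v) • (v - ∑ k, α k • f k),
      ⟨by rw [D.h.smul, hqy, mul_zero], fun k k1 k2 => ?_, ?_⟩, ?_⟩
    · obtain ⟨k, rfl⟩ := Fin.rev_surjective k
      have k1' : k.val + 1 ≠ m := fun e => k1 (Fin.ext (by rw [Fin.val_rev]; omega))
      have k2' : k.val ≠ m := fun e => k2 (congrArg Fin.rev (Fin.ext (by omega)))
      rw [map_smul, map_sub, D.hf.apply_sum]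
      simp only [α]
      split_ifs with hk
      · rw [mul_right_comm, inv_mul_cancel₀ (D.hf.ne k), one_mul, sub_self, smul_zero]
      · rw [h0 k (by rw [Fin.lt_def]; omega), zero_mul, sub_zero, smul_zero]
    · rw [map_smul, map_sub, D.hf.apply_sum]
      simp only [α]
      rw [if_neg (by omega), zero_mul, sub_zero, smul_eq_mul, div_mul_cancel₀ _ h1]
    · rw [LinearMap.map_smulₛₗ₂]
      nth_rewrite 3 [← sub_add_cancel v (∑ k, α k • f k)]
      rw [map_add, D.h.self_eq_zero hqy, orth_fil D.h D.hf lab_rev (by omega) hy he, add_zero,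
        smul_zero]

theorem relIndex_titsB (i : Fin m) : (D.titsB ht).B.relIndex ((D.titsB ht).par {i}) =
    szC m (Nat.card F) (Nat.card (V0 B f) * Nat.card π.ker) i + 1 := by
  unfold szC
  split_ifs with hi
  · exact relIndex_last D ht hi
  · exact relIndex_lt D ht (by have := i.2; omega)

end Frame

end Cfsg.Agent.BNP
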