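import Mathlib
import Cfsg.Agent.BNP.MFa
import Cfsg.Prelude.Def_Classification2

/-!
Tits systems of type `C_n` in the classical groups, with their panel sizes.
-/

set_option autoImplicit false
set_option linter.unusedSectionVars false
set_option linter.unusedVariables false

namespace Cfsg.Agent.BNP

open Cfsg Cfsg.Agent.Chev Cfsg.Agent.St Subgroup Cfsg.Agent.KSG Cfsg.Agent.KSG.FB
  Cfsg.Agent.Class Module Cfsg.Agent.UL

section General

variable {p : ℕ} [hp : Fact p.Prime] {G G' : Type} [Group G] [Group G'] [Finite G] {n : ℕ}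
  {M : Fin n → Fin n → ℕ} {sz : Fin n → ℕ}

/-- `G` has a split Tits system with given Coxeter matrix and panel sizes. -/
def HasM (p : ℕ) (G : Type) [Group G] {n : ℕ} (M : Fin n → Fin n → ℕ) (sz : Fin n → ℕ) : Prop :=
  ∃ (W : Type) (_ : Group W) (T : Split p G (Fin n) W),
    (∀ i j, orderOf (T.s i * T.s j) = M i j) ∧ ∀ i, T.B.relIndex (T.par {i}) = sz i + 1

omit hp [Finite G] in
theorem HasM.model (h : HasM p G M sz) : HasModel G M sz := by
  obtain ⟨W, _, T, h⟩ := h
  exact ⟨W, _, T.toTits, h⟩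

theorem HasM.map (h : HasM p G M sz) (f : G →* G') (hf : Function.Surjective f)
    (hk : f.ker ≤ center G) : HasM p G' M sz := by
  obtain ⟨W, _, T, h1, h⟩ := h
  have hk' := hk.trans (center_le_H T.toSplit0)
  refine ⟨W, _, splitMap T f hf hk', h1, fun i => ?_⟩
  rw [← h i]
  have hB := hk'.trans T.H_le_B
  have : (splitMap T f hf hk').par {i} = (T.par {i}).map f := Subgroup.ext fun g => by
    obtain ⟨g, rfl⟩ := hf g
    rw [mem_map_iff_of_ker (hB.trans (T.B_le_par _))]
    exact mem_titsMap_par T.toTits f hf hk'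
  rw [this]
  exact (relIndex_map_map f _ _).trans (by
    rw [sup_eq_left.2 hB, sup_eq_left.2 (hB.trans (T.B_le_par _))])

theorem HasM.congr (h : HasM p G M sz) (e : G' ≃* G) : HasM p G' M sz :=
  h.map e.symm.toMonoidHom e.symm.surjective (by
    rw [(MonoidHom.ker_eq_bot_iff _).2 e.symm.injective]; exact bot_le)

theorem HasM.quot (h : HasM p G M sz) : HasModel (G ⧸ center G) M sz :=
  (h.map _ (QuotientGroup.mk'_surjective _) (QuotientGroup.ker_mk' _).le).model

omit [Finite G] in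
theorem relIndex_titsComap {ι W : Type*} [Group W] (T : Tits G ι W) (j : G' →* G) [j.range.Normal]
    (h : ∀ g, ∃ t ∈ T.H, g * t ∈ j.range) (J : Set ι) :
    (T.B.comap j).relIndex ((T.par J).comap j) = T.B.relIndex (T.par J) := by
  refine (relIndex_comap T.B j ((T.par J).comap j)).trans ?_
  rw [map_comap_eq]
  refine Nat.card_congr (Equiv.ofBijective (quotientSubgroupOfEmbeddingOfLE T.B inf_le_right)
    ⟨(quotientSubgroupOfEmbeddingOfLE T.B inf_le_right).injective, fun x => ?_⟩)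
  obtain ⟨⟨g, hg⟩, rfl⟩ := QuotientGroup.mk_surjective x
  obtain ⟨t, ht, h⟩ := h g
  exact ⟨QuotientGroup.mk ⟨g * t, h, mul_mem hg (T.B_le_par _ ht.1)⟩,
    QuotientGroup.eq.2 (show (g * t)⁻¹ * g ∈ T.B by simpa using ht.1)⟩

theorem HasM.comap (h : HasM p G M sz) (j : G' →* G) (hj : Function.Injective j) [j.range.Normal]
    (hi : ¬ p ∣ j.range.index) : HasM p G' M sz := by
  obtain ⟨W, _, T, h1, h⟩ := h
  exact ⟨W, _, splitComap T j hj hi, h1, fun i =>
    (relIndex_titsComap T.toTits j (exists_H_mul_mem T.toSplit0 hi) _).trans (h i)⟩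

end General

section Form

variable {F V : Type} [Field F] [Finite F] [AddCommGroup V] [Module F V] [FiniteDimensional F V]

theorem hasM_isom (Φ : Max.Fm F V) (p : ℕ) [Fact p.Prime] [CharP F p] (ht : ∃ a, a ≠ 0 ∧ Φ.π a = 0)
    (hQ : ∀ u, Φ.B u u = 0 → Φ.Q u = 0) {n r : ℕ} (hr : r < 2) (hd : Φ.d ≤ 2)
    (hV : finrank F V = 2 * n + r) :
    HasM p (Isom Φ.B Φ.Q) (mC n) (szC n (Nat.card F) (Nat.card F ^ r * Nat.card Φ.π.ker)) := by
  obtain ⟨m, f, D⟩ := exists_MF Φ.isFormed
  have h1 := finrank_lt D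
  have h2 := finrank_eq_add_V0 D
  obtain rfl : m = n := by omega
  refine ⟨_, _, D.splitB (Or.inl ht) p fun u hu e => D.hm u hu (hQ u e), orderOf_titsB D _,
    fun i => (relIndex_titsB D _ i).trans ?_⟩
  rw [Module.natCard_eq_pow_finrank (K := F) (V := V0 Φ.B f), show finrank F (V0 Φ.B f) = r by omega]

open Orth QuadraticMap

theorem isPlus_of_V0 {Q : QuadraticForm F V} {m : ℕ} {f : Fin (2 * m) → V}
    (D : MF (polarBilin Q) Q 1 (AddMonoidHom.id F) f) (h : finrank F V = 2 * m) : QF.IsPlus Q := by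
  refine ⟨Submodule.span F (Set.range (f ∘ lo)), fun u hu => Q_eq_zero_of_fil D.h D.hf lab_rev
    (t := -1) (by omega) (Submodule.span_le.2 ?_ hu), ?_⟩
  · rintro _ ⟨i, rfl⟩
    exact frame_mem_fil D.h D.hf (by have := i.2; simp only [lab, val_lo]; omega)
  · rw [finrank_span_eq_card (D.hf.linearIndependent.comp lo fun i j e =>
      Fin.ext (congrArg (Fin.val (n := 2 * m)) e)), Fintype.card_fin, h]

theorem hasM_commutator {Q : QuadraticForm F V} (hQ : ND Q) (h : ReflGen Q) (p : ℕ)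
    [hp : Fact p.Prime] [CharP F p] {n r : ℕ} (hn : 1 ≤ n) (hr : r = 1 ∨ (r = 2 ∧ ¬ QF.IsPlus Q))
    (hV : finrank F V = 2 * n + r) :
    HasM p (commutator (OG Q)) (mC n) (szC n (Nat.card F) (Nat.card F ^ r)) := by
  refine HasM.congr ?_ (Orth.commutatorCongr (ogEquiv Q))
  obtain ⟨m, f, D⟩ := exists_MF hQ.isFormed
  have hm : finrank F V < 2 * m + 3 := finrank_lt (Φ := Max.fmQuad Q hQ) D
  have hm' := finrank_eq_add_V0 D
  obtain rfl : m = n := by
    rcases hr with rfl | ⟨rfl, hr⟩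
    · omega
    · have := mt (isPlus_of_V0 D) hr
      omega
  have hr' : finrank F (V0 (polarBilin Q) f) = r := by omega
  have h0 : ∃ u ∈ V0 (polarBilin Q) f, u ≠ 0 := by
    refine Submodule.exists_mem_ne_zero_of_ne_bot fun e => ?_
    rw [e, finrank_bot] at hr'
    omega
  have hsz : ∀ i, (D.titsB (Or.inr h0)).B.relIndex ((D.titsB (Or.inr h0)).par {i}) =
      szC m (Nat.card F) (Nat.card F ^ r) i + 1 := fun i => by
    rw [relIndex_titsB, Module.natCard_eq_pow_finrank (K := F) (V := V0 (polarBilin Q) f), hr',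
      (AddMonoidHom.ker_eq_bot_iff _).2 fun _ _ e => e, AddSubgroup.card_bot, mul_one]
  have hi := index_commutator_equiv (ogEquiv Q)
  have h2 : p ≠ 2 → (2 : F) ≠ 0 := fun e e' => e ((Nat.prime_dvd_prime_iff_eq hp.out Nat.prime_two).1
    ((CharP.cast_eq_zero_iff F p 2).1 e'))
  have h4 : p ≠ 2 → ¬ p ∣ 4 := fun e e' => e ((Nat.prime_dvd_prime_iff_eq hp.out Nat.prime_two).1
    (hp.out.dvd_of_dvd_pow (show p ∣ 2 ^ 2 from e')))
  have : (commutator (Isom (polarBilin Q) Q)).subtype.range.Normal := by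
    rw [range_subtype]; infer_instance
  by_cases e : p = 2
  swap
  · refine HasM.comap ⟨_, _, D.splitB (Or.inr h0) p fun u hu e' => D.hm u hu ?_,
      orderOf_titsB D _, hsz⟩ _ (subtype_injective _) ?_
    · exact (mul_eq_zero.1 ((polar_self' Q u).symm.trans e')).resolve_left (h2 e)
    · rw [range_subtype, ← hi, index_commutator_odd hQ h (h2 e) (by omega)]
      exact h4 e
  subst e
  have h3 : (2 : F) = 0 := CharTwo.two_eq_zero
  rw [index_commutator_even hQ h h3 (by omega)] at hi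
  obtain ⟨v, hv, hv0⟩ := id h0
  have hH : ∀ g, ∃ t ∈ Bor (polarBilin Q) Q f ⊓ mon (polarBilin Q) Q f,
      g * t ∈ (commutator (Isom (polarBilin Q) Q)).subtype.range := fun g => by
    rw [range_subtype]
    by_cases hg : g ∈ commutator (Isom (polarBilin Q) Q)
    · exact ⟨1, one_mem _, by rwa [mul_one]⟩
    refine ⟨ogEquiv Q (Orth.refl Q v), D.mem_H_iff.2 fun k => ⟨1, one_ne_zero, ?_⟩, ?_⟩
    · rw [one_smul]
      exact refl_apply_of_polar_eq_zero (hv k)
    · refine (mul_mem_iff_of_index_two hi.symm).2 (iff_of_false hg ?_)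
      rw [mem_commutator_equiv, Orth.mem_commutator_iff hQ h,
        dickson_refl hQ h fun e => hv0 (D.hm v hv e)]
      exact fun e => absurd e.1 (by decide)
  refine ⟨_, _, D.splitOf (Or.inr h0) 2 _ (commutator _).subtype_injective hH ?_ fun hd => ?_,
    orderOf_titsB D _, fun i => (relIndex_titsComap (D.titsB (Or.inr h0)) _
      (by rwa [D.titsB_H]) _).trans (hsz i)⟩
  · rw [range_subtype]
    exact Uni_le_of_eichler D fun u v =>
      (mem_commutator_equiv _ _).2 (eichler_mem_commutator hQ h h3 u v)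
  · obtain ⟨z, hz⟩ := exists_prime_orderOf_dvd_card' 2 hd
    rw [← orderOf_coe, ← orderOf_coe] at hz
    obtain ⟨y, h4, -, h5⟩ := exists_sing_mov hQ h z.1.2 hz
    exact h4 (D.hm _ (mov_mem_V0 ((D.mem_H_iff.1 z.2).fix_of_pow 2 D.hf
      (orderOf_dvd_iff_pow_eq_one.1 hz.dvd)) y) h5)

end Form

section

open Orth

variable {F : Type} [Field F] [Fintype F] {n : ℕ}

theorem hasM_SU {q r : ℕ} (hq : Fintype.card F = q ^ 2) (hr : r < 2) (p : ℕ) [hp : Fact p.Prime]
    [CharP F p] : HasM p (SU (2 * n + r) F q) (mC n) (szC n (q ^ 2) ((q ^ 2) ^ r * q)) := by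
  have := U.UF.of_card hq
  have h := isHermSpace_hermB (2 * n + r) F q
  have : (U.toGU : SU (2 * n + r) F q →* GU (2 * n + r) F q).range.Normal := by
    rw [U.range_toGU]; infer_instance
  have h1 := hasM_isom (Max.fmHerm (U.conj_ne_id F q) h.invol (hermB (2 * n + r) F q)
    (fun x y => by rw [h.symm, one_mul]) h.nondeg) p (U.exists_trace_zero F q)
    (fun _ h => h) (n := n) hr le_rfl (by simp)
  have h2 : Nat.card (Max.fmHerm (U.conj_ne_id F q) h.invol (hermB (2 * n + r) F q)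
      (fun x y => by rw [h.symm, one_mul]) h.nondeg).π.ker = q :=
    U.card_trace_fiber (F := F) (q := q) (a := 0) (map_zero _)
  rw [h2, Nat.card_eq_fintype_card, hq] at h1
  refine (h1.congr (guEquiv _ F q)).comap _ U.toGU_injective fun h => ?_
  rw [U.range_toGU, Subgroup.index_ker] at h
  have h1 := h.trans (Subgroup.card_subgroup_dvd_card _)
  rw [Nat.card_units] at h1
  obtain ⟨k, -, hk⟩ := FiniteField.card F p
  have h2 : p ∣ Nat.card F := by
    rw [Nat.card_eq_fintype_card, hk]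
    exact dvd_pow_self p k.ne_zero
  exact hp.out.one_lt.ne' (Nat.dvd_one.1 ((Nat.dvd_sub_iff_right Nat.card_pos h2).1 h1))

theorem model_Sp (hn : 3 ≤ n) :
    HasModel (PSp n F) (mC n) (szC n (Fintype.card F) (Fintype.card F)) := by
  obtain ⟨p, _⟩ := CharP.exists F
  have : Fact p.Prime := ⟨CharP.char_is_prime F p⟩
  have h := isSympSpace_sympB n F
  have h1 := hasM_isom (Max.fmAlt (sympB n F) h.isAlt h.nondeg) p ⟨1, one_ne_zero, rfl⟩
    (fun _ _ => rfl) (n := n) (r := 0) (by omega) (by simp [Max.fmAlt]) (by simp; omega)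
  have h2 : Nat.card (Max.fmAlt (sympB n F) h.isAlt h.nondeg).π.ker = Nat.card F := by
    rw [show (Max.fmAlt (sympB n F) h.isAlt h.nondeg).π.ker = ⊤ from AddMonoidHom.ker_zero,
      AddSubgroup.card_top]
  rw [h2, pow_zero, one_mul, Nat.card_eq_fintype_card] at h1
  exact (h1.congr (spEquiv n F)).quot

theorem model_Oodd (hn : 3 ≤ n) (hF : Odd (Fintype.card F)) :
    HasModel (POmega F (quadFormOdd n F)) (mC n) (szC n (Fintype.card F) (Fintype.card F)) := by
  obtain ⟨p, _⟩ := CharP.exists F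
  have : Fact p.Prime := ⟨CharP.char_is_prime F p⟩
  have h2 : (2 : F) ≠ 0 := Ring.two_ne_zero fun e =>
    (Nat.not_even_iff_odd.2 hF) (Nat.even_iff.2 (FiniteField.even_card_iff_char_two.1 e))
  have h1 := hasM_commutator (nd_oddQF n F h2) ((nd_oddQF n F h2).reflGen_odd h2) p (n := n)
    (by omega) (Or.inl rfl) (by simp; omega)
  rw [pow_one, Nat.card_eq_fintype_card] at h1
  exact (h1.congr (Orth.commutatorCongr (oddEquiv n F))).quot

theorem model_Ominus (hn : 3 ≤ n) {a b : F}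
    (hab : ∀ z₁ z₂ : F, z₁ ^ 2 + a * z₁ * z₂ + b * z₂ ^ 2 = 0 → z₁ = 0 ∧ z₂ = 0) :
    HasModel (POmega F (quadFormMinus n F a b)) (mC n)
      (szC n (Fintype.card F) (Fintype.card F ^ 2)) := by
  obtain ⟨p, _⟩ := CharP.exists F
  have : Fact p.Prime := ⟨CharP.char_is_prime F p⟩
  have h1 := hasM_commutator (nd_minusQF n hab)
    ((nd_minusQF n hab).reflGen_of_not_isPlus (not_isPlus_minusQF n hab)) p (n := n)
    (by omega) (Or.inr ⟨rfl, not_isPlus_minusQF n hab⟩) (by simp; omega)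
  rw [Nat.card_eq_fintype_card] at h1
  exact (h1.congr (Orth.commutatorCongr (minusEquiv n F a b))).quot

theorem model_Ueven (hn : 3 ≤ n) {q : ℕ} (hq : Fintype.card F = q ^ 2) :
    HasModel (PSU (2 * n) F q) (mC n) (szC n (q ^ 2) q) := by
  obtain ⟨p, _⟩ := CharP.exists F
  have : Fact p.Prime := ⟨CharP.char_is_prime F p⟩
  have h1 := hasM_SU (n := n) (r := 0) hq (by omega) p
  rw [pow_zero, one_mul] at h1
  exact h1.quot

theorem model_Uodd (hn : 3 ≤ n) {q : ℕ} (hq : Fintype.card F = q ^ 2) :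
    HasModel (PSU (2 * n + 1) F q) (mC n) (szC n (q ^ 2) (q ^ 3)) := by
  obtain ⟨p, _⟩ := CharP.exists F
  have : Fact p.Prime := ⟨CharP.char_is_prime F p⟩
  have h1 := hasM_SU (n := n) (r := 1) hq (by omega) p
  rw [pow_one, ← pow_succ] at h1
  exact h1.quot

end

end Cfsg.Agent.BNP
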