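import Mathlib
import Cfsg.Agent.BNP.Defs
import Cfsg.Prelude.Def_Classification2

/-! Finite generalized quadrangles: Higman's inequality and a bound for `p`-groups. -/

set_option autoImplicit false

namespace Cfsg.Agent.BNP

open Finset

structure IsGQ {P L : Type*} (I : P → L → Prop) (s t : ℕ) : Prop where
  line_eq : ∀ {p q l m}, I p l → I q l → I p m → I q m → p = q ∨ l = m
  proj : ∀ p l, ¬ I p l → ∃! x : P × L, I p x.2 ∧ I x.1 x.2 ∧ I x.1 l
  card_pts : ∀ l, {p | I p l}.ncard = s + 1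
  card_lns : ∀ p, {l | I p l}.ncard = t + 1
  two_le_s : 2 ≤ s
  two_le_t : 2 ≤ t

namespace IsGQ

open scoped Classical

variable {P L : Type*} {I : P → L → Prop} {s t : ℕ} (Q : IsGQ I s t)

/-- collinearity -/
def Col (I : P → L → Prop) (u v : P) : Prop := ∃ l, I u l ∧ I v l

theorem Col.symm {u v : P} (h : Col I u v) : Col I v u := h.imp fun _ => And.symm

include Q

theorem uniq {p a b : P} {l m n : L} (h : ¬ I p l) (h1 : I p m) (h2 : I a m) (h3 : I a l)
    (h4 : I p n) (h5 : I b n) (h6 : I b l) : a = b ∧ m = n :=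
  Prod.ext_iff.1 ((Q.proj p l h).unique (y₁ := (a, m)) (y₂ := (b, n)) ⟨h1, h2, h3⟩ ⟨h4, h5, h6⟩)

theorem ex {p : P} {l : L} (h : ¬ I p l) : ∃ a m, I p m ∧ I a m ∧ I a l :=
  let ⟨x, hx, _⟩ := Q.proj p l h; ⟨x.1, x.2, hx⟩

/-- no triangles -/
theorem tri {a b c : P} {l m n : L} (h1 : I a l) (h2 : I b l) (h3 : I c m) (h4 : I a m)
    (h5 : I c n) (h6 : I b n) (hab : a ≠ b) : I c l :=
  by_contra fun h => hab (Q.uniq h h3 h4 h1 h5 h6 h2).1

variable [Fintype P] [Fintype L]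

theorem cp (l : L) : #{p | I p l} = s + 1 := by
  rw [← Q.card_pts l, ← Set.ncard_coe_finset]; simp

theorem cl (p : P) : #{l | I p l} = t + 1 := by
  rw [← Q.card_lns p, ← Set.ncard_coe_finset]; simp

theorem cp' {p : P} {l : L} (h : I p l) : #(({q | I q l} : Finset P).erase p) = s := by
  rw [card_erase_of_mem (by simpa), Q.cp, Nat.add_sub_cancel]

theorem cl' {p : P} {l : L} (h : I p l) : #(({m | I p m} : Finset L).erase l) = t := by
  rw [card_erase_of_mem (by simpa), Q.cl, Nat.add_sub_cancel]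

omit [Fintype P] [Fintype L] in
theorem star {c : P} {A : Finset L} (hA : ∀ l ∈ A, I c l) {f : L → Finset P}
    (hf : ∀ l ∈ A, ∀ p ∈ f l, I p l ∧ p ≠ c) : #(A.biUnion f) = ∑ l ∈ A, #(f l) :=
  card_biUnion fun l hl m hm e => disjoint_left.2 fun p h1 h2 =>
    (Q.line_eq (hf l hl p h1).1 (hA l hl) (hf m hm p h2).1 (hA m hm)).elim (hf l hl p h1).2 e

omit [Fintype L] in
theorem one {p : P} {l : L} (h : ¬ I p l) : #{a | I a l ∧ Col I a p} = 1 := by
  obtain ⟨a, m, h1, h2, h3⟩ := Q.ex h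
  refine card_eq_one.2 ⟨a, ext fun b => ?_⟩
  simp only [mem_filter, mem_univ, true_and, mem_singleton]
  exact ⟨fun ⟨k, n, k1, k2⟩ => (Q.uniq h k2 k1 k h1 h2 h3).1, fun e => e ▸ ⟨h3, m, h2, h1⟩⟩

theorem trace {a b : P} (h : ¬ Col I a b) : #{c | Col I c a ∧ Col I c b} = t + 1 := by
  have e : ({c | Col I c a ∧ Col I c b} : Finset P) =
      ({l | I a l} : Finset L).biUnion fun l => {c | I c l ∧ Col I c b} := by
    ext c
    simp only [mem_filter, mem_univ, true_and, mem_biUnion]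
    exact ⟨fun ⟨⟨l, h1, h2⟩, k⟩ => ⟨l, h2, h1, k⟩, fun ⟨l, h2, h1, k⟩ => ⟨⟨l, h1, h2⟩, k⟩⟩
  rw [e, Q.star (c := a) (by simp) (fun l _ p hp => ⟨(mem_filter.1 hp).2.1,
    fun k => h (k ▸ (mem_filter.1 hp).2.2)⟩), sum_congr rfl fun l hl =>
      Q.one fun k => h ⟨l, (mem_filter.1 hl).2, k⟩, sum_const, Q.cl, smul_eq_mul, mul_one]

theorem card_far {x z : P} (h : ¬ Col I x z) :
    #{v | ¬ Col I v x ∧ ¬ Col I v z} + (1 + (t + 1) * (s - 1)) ≤ s * (t * s) := by
  obtain ⟨l, hl⟩ : ({l | I x l} : Finset L).Nonempty := card_pos.1 (by rw [Q.cl]; omega)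
  replace hl := (mem_filter.1 hl).2
  have h1 : #{v | ¬ Col I v x} ≤ s * (t * s) := by
    refine (card_le_card (t := (({q | I q l} : Finset P).erase x).biUnion fun a =>
      (({m | I a m} : Finset L).erase l).biUnion fun m => ({q | I q m} : Finset P).erase a)
      fun v hv => ?_).trans ?_
    · replace hv := (mem_filter.1 hv).2
      have k : ¬ I v l := fun k => hv ⟨l, k, hl⟩
      obtain ⟨a, m, h1, h2, h3⟩ := Q.ex k
      simp only [mem_biUnion, mem_erase, mem_filter, mem_univ, true_and]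
      exact ⟨a, ⟨fun e => hv ⟨m, h1, e ▸ h2⟩, h3⟩, m, ⟨fun e => k (e ▸ h1), h2⟩,
        fun e => k (e ▸ h3), h1⟩
    · rw [← congrArg (· * (t * s)) (Q.cp' hl)]
      refine card_biUnion_le_card_mul _ _ _ fun a ha => ?_
      rw [← congrArg (· * s) (Q.cl' (mem_filter.1 (mem_erase.1 ha).2).2)]
      exact card_biUnion_le_card_mul _ _ _ fun m hm =>
        (Q.cp' (mem_filter.1 (mem_erase.1 hm).2).2).le
  have h2 : 1 + (t + 1) * (s - 1) ≤ #{v | ¬ Col I v x ∧ Col I v z} := by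
    refine le_trans ?_ (card_le_card (s := insert z (({l | I z l} : Finset L).biUnion fun m =>
      {q | q ≠ z ∧ I q m ∧ ¬ Col I q x})) fun v hv => ?_)
    · rw [card_insert_of_notMem (by simp), Q.star (c := z) (by simp) (by simp +contextual), add_comm,
        ← Q.cl z, ← smul_eq_mul]
      refine Nat.succ_le_succ (card_nsmul_le_sum _ _ _ fun m hm => ?_)
      replace hm := (mem_filter.1 hm).2
      have k1 := Q.one (p := x) (l := m) fun k => h ⟨m, k, hm⟩
      have k2 := Q.cp' hm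
      have k3 := card_le_card (s := ({q | I q m} : Finset P).erase z)
        (t := ({q | q ≠ z ∧ I q m ∧ ¬ Col I q x} : Finset P) ∪
          ({a | I a m ∧ Col I a x} : Finset P)) fun q hq => by
          simp only [mem_erase, mem_filter, mem_univ, true_and, mem_union] at hq ⊢
          tauto
      have k4 := k3.trans (card_union_le _ _)
      omega
    · obtain ⟨n, hn⟩ : ({l | I z l} : Finset L).Nonempty := card_pos.1 (by rw [Q.cl]; omega)
      simp only [mem_insert, mem_biUnion, mem_filter, mem_univ, true_and] at hv hn ⊢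
      rcases hv with rfl | ⟨m, k1, -, k2, k3⟩
      exacts [⟨fun k => h k.symm, n, hn, hn⟩, ⟨k3, m, k2, k1⟩]
  have h3 := card_filter_add_card_filter_not (s := ({v | ¬ Col I v x} : Finset P)) (Col I · z)
  rw [filter_filter, filter_filter] at h3
  omega

theorem card_far_col {x z c : P} (h : ¬ Col I x z) (h1 : Col I c x) (h2 : Col I c z) :
    #{v ∈ ({v | ¬ Col I v x ∧ ¬ Col I v z} : Finset P) | Col I v c} = (t - 1) * s := by
  obtain ⟨l, l1, l2⟩ := h1
  obtain ⟨m, m1, m2⟩ := h2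
  have ne : m ≠ l := fun e => h ⟨l, l2, e ▸ m2⟩
  have e : {v ∈ ({v | ¬ Col I v x ∧ ¬ Col I v z} : Finset P) | Col I v c} =
      ((({n | I c n} : Finset L).erase l).erase m).biUnion
        fun n => ({q | I q n} : Finset P).erase c := by
    ext v
    simp only [mem_filter, mem_univ, true_and, mem_biUnion, mem_erase]
    refine ⟨fun ⟨⟨a, b⟩, n, n1, n2⟩ => ⟨n, ⟨fun e => b ⟨m, e ▸ n1, m2⟩, fun e => a ⟨l, e ▸ n1, l2⟩,
      n2⟩, fun e => a ⟨l, e ▸ l1, l2⟩, n1⟩, fun ⟨n, ⟨a, b, n2⟩, k, n1⟩ => ⟨⟨?_, ?_⟩, n, n1, n2⟩⟩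
    · rintro ⟨o, o1, o2⟩
      exact (Q.line_eq (Q.tri n1 n2 o2 o1 l2 l1 k) n2 l2 l1).elim
        (fun e => h ⟨m, e ▸ m1, m2⟩) b
    · rintro ⟨o, o1, o2⟩
      exact (Q.line_eq (Q.tri n1 n2 o2 o1 m2 m1 k) n2 m2 m1).elim
        (fun e => h ⟨l, l2, e ▸ l1⟩) a
  have k : ∀ n ∈ (({n | I c n} : Finset L).erase l).erase m, I c n := by simp +contextual
  rw [e, Q.star k (by simp +contextual), sum_congr rfl fun n hn => Q.cp' (k n hn), sum_const,
    card_erase_of_mem (by simp [ne, m1]), Q.cl' l1, smul_eq_mul]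

/-- Higman's inequality -/
theorem higman {x z : P} (h : ¬ Col I x z) : t ≤ s ^ 2 := by
  set V : Finset P := {v | ¬ Col I v x ∧ ¬ Col I v z} with hV
  set R : Finset P := {c | Col I c x ∧ Col I c z} with hR
  have cR : #R = t + 1 := Q.trace h
  let e : P → P → ℕ := fun v c => if Col I v c then 1 else 0
  have h1 : ∀ c ∈ R, ∑ v ∈ V, e v c = (t - 1) * s := fun c hc => by
    rw [← Q.card_far_col h (mem_filter.1 hc).2.1 (mem_filter.1 hc).2.2, card_filter]
  have h2 : ∀ c ∈ R, ∀ d ∈ R.erase c, ∑ v ∈ V, e v c * e v d ≤ t - 1 := fun c hc d hd => by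
    obtain ⟨ne, hd⟩ := mem_erase.1 hd
    obtain ⟨⟨l, l1, l2⟩, m, m1, m2⟩ := (mem_filter.1 hc).2
    obtain ⟨⟨n, n1, n2⟩, o, o1, o2⟩ := (mem_filter.1 hd).2
    have k := Q.trace (a := c) (b := d) fun ⟨q, q1, q2⟩ =>
      h ⟨q, Q.tri q2 q1 n2 n1 l2 l1 ne, Q.tri q2 q1 o2 o1 m2 m1 ne⟩
    have xz : z ≠ x := fun e => h ⟨l, l2, e ▸ l2⟩
    have k2 := card_le_card (s := {v ∈ V | Col I v c ∧ Col I v d})
      (t := (({v | Col I v c ∧ Col I v d} : Finset P).erase x).erase z) fun v hv => by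
        simp only [hV, mem_filter, mem_univ, true_and, mem_erase] at hv ⊢
        exact ⟨fun e => hv.1.2 ⟨m, e ▸ m2, m2⟩, fun e => hv.1.1 ⟨l, e ▸ l2, l2⟩, hv.2⟩
    rw [card_erase_of_mem (by simpa [xz] using ⟨⟨m, m2, m1⟩, o, o2, o1⟩),
      card_erase_of_mem (by simpa using ⟨⟨l, l2, l1⟩, n, n2, n1⟩), k, card_filter] at k2
    exact (sum_congr rfl fun v _ => by simp only [e, ite_and]; split_ifs <;> rfl).trans_le k2
  have h3 := sq_sum_le_card_mul_sum_sq (s := V) (f := fun v => ∑ c ∈ R, e v c)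
  have h4 : ∑ v ∈ V, (∑ c ∈ R, e v c) ^ 2 ≤ (t + 1) * ((t - 1) * s + t * (t - 1)) := by
    simp only [sq, sum_mul_sum]
    rw [sum_comm, ← cR, ← smul_eq_mul]
    refine sum_le_card_nsmul _ _ _ fun c hc => ?_
    rw [sum_comm, ← add_sum_erase _ _ hc]
    refine add_le_add ((sum_congr rfl fun v _ => ?_).trans (h1 c hc)).le
      ((sum_le_card_nsmul _ _ _ (h2 c hc)).trans ?_)
    · simp only [e]; split_ifs <;> rfl
    · rw [card_erase_of_mem hc, cR]; rfl
  rw [sum_comm, sum_congr rfl h1, sum_const, cR, smul_eq_mul] at h3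
  have h5 := Q.card_far h
  have h6 := h3.trans (Nat.mul_le_mul_left _ h4)
  obtain ⟨a, rfl⟩ := Nat.exists_eq_add_of_le' Q.two_le_s
  obtain ⟨b, rfl⟩ := Nat.exists_eq_add_of_le' Q.two_le_t
  rw [← hV] at h5
  generalize #V = d at h5 h6
  simp only [show ∀ n, n + 2 - 1 = n + 1 from fun _ => rfl, Nat.cast_id] at h5 h6
  have h7 : (b + 3) * (b + 1) * (a + 2) ^ 2 ≤ d * (a + b + 4) :=
    Nat.le_of_mul_le_mul_left (c := (b + 3) * (b + 1))
      ((le_of_eq (by ring)).trans (h6.trans_eq (by ring))) (by positivity)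
  clear h1 h2 h3 h4 h6 cR
  by_contra h8
  have h9 := Nat.mul_le_mul_right (a + b + 4) h5
  have h10 := Nat.mul_le_mul_left ((b + 2) * (a + 1)) (Nat.succ_le_of_lt (not_le.1 h8))
  nlinarith

section Act

variable {S : Type*} [Group S] [MulAction S P] [MulAction S L]
  (hI : ∀ (g : S) x l, I x l → I (g • x) (g • l))
include hI

omit [Fintype P] [Fintype L] in
theorem fix_line {g : S} {u v : P} {l : L} (h1 : I u l) (h2 : I v l) (ne : u ≠ v) (hu : g • u = u)
    (hv : g • v = v) : g • l = l :=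
  (Q.line_eq (hu ▸ hI g u l h1) (hv ▸ hI g v l h2) h1 h2).resolve_left ne

omit [Fintype P] [Fintype L] in
theorem fix_proj {g : S} {p a : P} {l m : L} (h : ¬ I p l) (h1 : I p m) (h2 : I a m) (h3 : I a l)
    (hp : g • p = p) (hl : g • l = l) : g • a = a ∧ g • m = m :=
  Q.uniq h (hp ▸ hI g p m h1) (hI g a m h2) (hl ▸ hI g a l h3) h1 h2 h3

omit [Fintype P] [Fintype L] in
theorem fix_opp {g : S} {l m : L} (h : ∀ u, I u l → ¬ I u m) (hl : ∀ u, I u l → g • u = u)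
    (hm : g • m = m) (u : P) (hu : I u m) : g • u = u := by
  obtain ⟨a, n, h1, h2, h3⟩ := Q.ex fun k => h u k hu
  exact (Q.fix_proj hI (h a h3) h2 h1 hu (hl a h3) hm).1

omit Q hI [Fintype P] in
/-- the fixed lines through a point -/
noncomputable def FL (I : P → L → Prop) (A : Subgroup S) (u : P) : Finset L :=
  {l | I u l ∧ ∀ g ∈ A, g • l = l}

omit Q hI [Fintype P] in
theorem mem_FL {A : Subgroup S} {u : P} {l : L} :
    l ∈ FL I A u ↔ I u l ∧ ∀ g ∈ A, g • l = l := by simp [FL]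

omit [Fintype P] in
theorem FL_le {A : Subgroup S} {u v : P} (h : ¬ Col I u v) (hv : ∀ g ∈ A, g • v = v) :
    #(FL I A u) ≤ #(FL I A v) := by
  have k : ∀ l ∈ FL I A u, ¬ I v l := fun l hl e => h ⟨l, (mem_FL.1 hl).1, e⟩
  choose! a m h1 h2 h3 using fun l hl => Q.ex (k l hl)
  refine card_le_card_of_injOn m (fun l hl => mem_coe.2 (mem_FL.2 ⟨h1 l hl, fun g hg =>
    (Q.fix_proj hI (k l hl) (h1 l hl) (h2 l hl) (h3 l hl) (hv g hg) ((mem_FL.1 hl).2 g hg)).2⟩))
    fun l hl l' hl' e => ?_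
  exact (Q.uniq (fun e => h ⟨_, e, h1 l hl⟩) (mem_FL.1 hl).1 (h3 l hl) (h2 l hl) (mem_FL.1 hl').1
    (h3 l' hl') (e ▸ h2 l' hl')).2

theorem FL_le' {A : Subgroup S} {u v : P} {m : L} (hu : ¬ I u m) (hv : ¬ I v m)
    (fv : ∀ g ∈ A, g • v = v) (fm : ∀ g ∈ A, ∀ a, I a m → g • a = a) :
    #(FL I A u) ≤ #(FL I A v) := by
  obtain ⟨a, ha, k⟩ := exists_mem_notMem_of_card_lt_card (t := ({p | I p m} : Finset P))
    (s := ({a | I a m ∧ Col I a u} : Finset P) ∪ ({a | I a m ∧ Col I a v} : Finset P))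
    ((card_union_le _ _).trans_lt (by
      have := Q.two_le_s
      rw [Q.one hu, Q.one hv, Q.cp]; omega))
  simp only [mem_filter, mem_univ, true_and, mem_union, not_or, not_and] at ha k
  exact (Q.FL_le hI (fun e => k.1 ha e.symm) fun g hg => fm g hg a ha).trans
    (Q.FL_le hI (k.2 ha) fv)

theorem step {A B : Subgroup S} (hAB : A ≤ B) {x : P} {M M' l : L} (h1 : I x M) (hl : I x l)
    (fM : ∀ g ∈ B, g • M = M) (fM' : ∀ g ∈ B, g • M' = M') (fx : ∀ g : S, g • x = x)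
    (pw : ∀ (g : S) m, g • m = m → ∀ u, I u m → g • u = u) (o1 : ∀ u, I u M → ¬ I u M')
    (o2 : ∀ u, I u l → ¬ I u M') (la : ∀ g ∈ A, g • l = l) (lb : ¬ ∀ g ∈ B, g • l = l) :
    s * (#(FL I B x) - 1) + 1 ≤ #(FL I A x) := by
  obtain ⟨u, hu⟩ : (({q | I q l} : Finset P).erase x).Nonempty :=
    card_pos.1 (by have := Q.two_le_s; rw [Q.cp' hl]; omega)
  simp only [mem_erase, mem_filter, mem_univ, true_and] at hu
  have nb : ∀ a, I a l → a ≠ x → ¬ ∀ g ∈ B, g • a = a := fun a ha ne k =>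
    lb fun g hg => Q.fix_line hI ha hl ne (k g hg) (fx g)
  have nu : ∀ n, (∀ g ∈ B, g • n = n) → ¬ I u n := fun n hn e =>
    nb u hu.2 hu.1 fun g hg => pw g n (hn g hg) u e
  refine le_trans ?_ (Q.FL_le' hI (o2 u hu.2) (o1 x h1) (fun g _ => fx g)
    fun g hg => pw g _ (fM' g (hAB hg)))
  let X := (({q | I q M} : Finset P).erase x).biUnion fun c => (FL I B c).erase M
  have mX : ∀ n ∈ X, ∃ c, c ≠ x ∧ I c M ∧ n ≠ M ∧ I c n ∧ ∀ g ∈ B, g • n = n := by
    simp only [X, mem_biUnion, mem_erase, mem_filter, mem_univ, true_and, mem_FL]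
    exact fun n ⟨c, k1, k2⟩ => ⟨c, k1.1, k1.2, k2⟩
  have cX : s * (#(FL I B x) - 1) ≤ #X := by
    rw [card_biUnion, ← congrArg (· * (#(FL I B x) - 1)) (Q.cp' h1), ← smul_eq_mul]
    · refine card_nsmul_le_sum _ _ _ fun c hc => ?_
      replace hc := (mem_filter.1 (mem_erase.1 hc).2).2
      rw [card_erase_of_mem (mem_FL.2 ⟨hc, fM⟩)]
      exact Nat.sub_le_sub_right (Q.FL_le' hI (o1 x h1) (o1 c hc)
        (fun g hg => pw g M (fM g hg) c hc) fun g hg => pw g _ (fM' g hg)) 1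
    · refine fun c hc d hd ne => disjoint_left.2 fun n k1 k2 => ?_
      simp only [coe_erase, Set.mem_sdiff, mem_coe, mem_erase, mem_filter, mem_univ, true_and,
        mem_FL] at hc hd k1 k2
      exact (Q.line_eq k1.2.1 k2.2.1 hc.1 hd.1).elim ne k1.1
  have k : ∀ n ∈ X, ¬ I u n := fun n hn => (mX n hn).elim fun _ h => nu n h.2.2.2.2
  have : Nonempty P := ⟨x⟩
  choose! a m h2 h3 h4 using fun n hn => Q.ex (k n hn)
  have fa : ∀ n ∈ X, ∀ g ∈ B, g • a n = a n := fun n hn g hg =>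
    (mX n hn).elim fun _ h => pw g n (h.2.2.2.2 g hg) _ (h4 n hn)
  have fu : ∀ g ∈ A, g • u = u := fun g hg => pw g l (la g hg) u hu.2
  have c2 : #X ≤ #((FL I A u).erase l) := by
    refine card_le_card_of_injOn m (fun n hn => mem_coe.2 (mem_erase.2 ⟨fun e => ?_, mem_FL.2
      ⟨h2 n hn, fun g hg => Q.fix_line hI (h2 n hn) (h3 n hn) (fun e => k n hn (e ▸ h4 n hn))
        (fu g hg) (fa n hn g (hAB hg))⟩⟩)) fun n hn n' hn' e => ?_
    · obtain ⟨c, c1, c2, c3, c4, -⟩ := mX n hn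
      refine nb _ (e ▸ h3 n hn) (fun e' => ?_) (fa n hn)
      exact (Q.line_eq c4 (e' ▸ h4 n hn) c2 h1).elim c1 c3
    · obtain ⟨c, c1, c2, c3, c4, -⟩ := mX n hn
      obtain ⟨d, -, d2, -, d4, -⟩ := mX n' hn'
      have e1 : a n = a n' := by_contra fun ne => nu _ (fun g hg => Q.fix_line hI (h3 n hn)
        (e ▸ h3 n' hn') ne (fa n hn g hg) (fa n' hn' g hg)) (h2 n hn)
      refine (Q.uniq (fun o => c1 ?_) (h4 n hn) c4 c2 (e1 ▸ h4 n' hn') d4 d2).2
      rw [(Q.line_eq c4 (h4 n hn) c2 o).resolve_right c3]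
      exact (Q.uniq (nu M fM) (h2 n hn) (h3 n hn) o hu.2 hl h1).1
  rw [card_erase_of_mem (mem_FL.2 ⟨hu.2, la⟩)] at c2
  have := card_pos.2 ⟨l, (mem_FL (A := A)).2 ⟨hu.2, la⟩⟩
  omega

end Act

end IsGQ

theorem IsGQ.index_lt {P L S : Type*} [Finite P] [Finite L] [Group S] [Finite S] [MulAction S P]
    [MulAction S L] {I : P → L → Prop} {s t p : ℕ} (Q : IsGQ I s t) (hp : p.Prime) (hps : p ∣ s)
    (hS : IsPGroup p S) (hI : ∀ (g : S) x l, I x l → I (g • x) (g • l))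
    {x y w z : P} {M T M' T' : L} (h1 : I x M) (h2 : I y M) (h3 : I x T) (h4 : I w T)
    (h5 : I w M') (h6 : I z M') (h7 : I y T') (h8 : I z T') (hxy : x ≠ y) (hxw : x ≠ w)
    (hMT : M ≠ T) (hzy : z ≠ y) (hzw : z ≠ w) (hTM : T ≠ M') (hMT' : M ≠ T')
    (fM : ∀ (g : S) u, I u M → g • u = u) (fT : ∀ (g : S) u, I u T → g • u = u)
    (fz : ∀ g : S, g • z = z) (K : Subgroup S)
    (hK : ∀ g : S, (∀ l, I x l → g • l = l) → g ∈ K) : K.index < s ^ 2 := by
  classical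
  have := Fintype.ofFinite P
  have := Fintype.ofFinite L
  have := Fact.mk hp
  have hs := Q.two_le_s
  have fx := fun g : S => fM g x h1
  have fw := fun g : S => fT g w h4
  have lM := fun g : S => Q.fix_line hI h1 h2 hxy (fx g) (fM g y h2)
  have lT := fun g : S => Q.fix_line hI h3 h4 hxw (fx g) (fw g)
  have lM' := fun g : S => Q.fix_line hI h6 h5 hzw (fz g) (fw g)
  have xM' : ¬ I x M' := fun k => (Q.line_eq h3 h4 k h5).elim hxw hTM
  have opp : ∀ l, I x l → l ≠ T → ∀ u, I u l → ¬ I u M' := fun l hl ne u k1 k2 =>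
    ne (Q.uniq xM' hl k1 k2 h3 h4 h5).2
  have pw : ∀ (g : S) m, g • m = m → ∀ u, I u m → g • u = u := fun g m hm => by
    by_cases a : ∀ u, I u M → ¬ I u m
    · exact Q.fix_opp hI a (fM g) hm
    by_cases b : ∀ u, I u T → ¬ I u m
    · exact Q.fix_opp hI b (fT g) hm
    by_cases e : m = T
    · exact e ▸ fT g
    push Not at a b
    obtain ⟨a, a1, a2⟩ := a
    obtain ⟨b, b1, b2⟩ := b
    have k : I x m := by
      by_cases e' : a = b
      · exact (Q.line_eq a1 h1 (e' ▸ b1) h3).resolve_right hMT ▸ a2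
      · exact Q.tri a2 b2 h1 a1 h3 b1 e'
    exact Q.fix_opp hI (fun u k1 k2 => opp m k e u k2 k1)
      (Q.fix_opp hI (opp M h1 hMT) (fM g) (lM' g)) hm
  have hig := Q.higman (x := x) (z := z) fun ⟨l, k1, k2⟩ => opp l k1
    (fun e => (Q.line_eq (e ▸ k2) h4 h6 h5).elim hzw hTM) z k2 h6
  by_cases c1 : ∀ l, I x l → ∀ g : S, g • l = l
  · rw [(Subgroup.eq_top_iff' K).2 fun g => hK g fun l hl => c1 l hl g, Subgroup.index_top]
    nlinarith
  push Not at c1
  obtain ⟨l, hl, g, hg⟩ := c1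
  by_cases c2 : ∀ m, I x m → ∀ g ∈ MulAction.stabilizer S l, g • m = m
  · refine (Nat.le_of_dvd (Nat.pos_of_ne_zero Subgroup.index_ne_zero_of_finite)
      (Subgroup.index_dvd_of_le (H := MulAction.stabilizer S l)
        fun g hg => hK g fun m hm => c2 m hm g hg)).trans_lt ?_
    have k : ∀ m, (∀ g : S, g • m = m) → ∀ a : S, a • l ≠ m := fun m hm a e =>
      hg (by rw [← inv_smul_smul a l, e, hm, hm])
    have := Set.ncard_le_ncard (s := MulAction.orbit S l)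
      (t := ((({m | I x m} : Finset L).erase M).erase T : Finset L)) (by
        rintro _ ⟨a, rfl⟩
        simpa using ⟨⟨fx a ▸ hI a x l hl, k M lM a⟩, k T lT a⟩)
    rw [Set.ncard_coe_finset, card_erase_of_mem (by simp [hMT.symm, h3]), Q.cl' h1] at this
    rw [MulAction.index_stabilizer]
    have := Q.two_le_t
    omega
  push Not at c2
  obtain ⟨m, hm, a, ha, ha'⟩ := c2
  have s1 := Q.step hI (A := ⊥) (B := MulAction.stabilizer S l) bot_le h1 hm (fun g _ => lM g)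
    (fun g _ => lM' g) fx pw (opp M h1 hMT) (opp m hm fun e => ha' (e ▸ lT a)) (by simp)
    fun k => ha' (k a ha)
  have s2 := Q.step hI (A := MulAction.stabilizer S l) (B := ⊤) le_top h1 hl (fun g _ => lM g)
    (fun g _ => lM' g) fx pw (opp M h1 hMT) (opp l hl fun e => hg (e ▸ lT g)) (fun _ h => h)
    fun k => hg (k g trivial)
  have s3 : #(IsGQ.FL I (⊥ : Subgroup S) x) ≤ t + 1 := by
    rw [← Q.card_lns x, ← Set.ncard_coe_finset]
    exact Set.ncard_le_ncard fun n hn => (IsGQ.mem_FL.1 hn).1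
  have s4 : 1 < #(IsGQ.FL I (⊤ : Subgroup S) x) := one_lt_card.2
    ⟨M, IsGQ.mem_FL.2 ⟨h1, fun g _ => lM g⟩, T, IsGQ.mem_FL.2 ⟨h3, fun g _ => lT g⟩, hMT⟩
  let D : SubMulAction S L := ⟨{l | I x l}, fun g l k => fx g ▸ hI g x l k⟩
  have s5 := hS.card_modEq_card_fixedPoints D
  have e1 : Nat.card D = t + 1 := Q.card_lns x
  have e2 : Nat.card (MulAction.fixedPoints S D) = #(IsGQ.FL I (⊤ : Subgroup S) x) := by
    rw [← Nat.card_eq_finsetCard]
    exact Nat.card_congr ⟨fun n => ⟨n.1.1, IsGQ.mem_FL.2 ⟨n.1.2, fun g _ =>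
      congrArg Subtype.val (n.2 g)⟩⟩, fun n => ⟨⟨n.1, (IsGQ.mem_FL.1 n.2).1⟩, fun g =>
      Subtype.ext ((IsGQ.mem_FL.1 n.2).2 g trivial)⟩, fun _ => rfl, fun _ => rfl⟩
  rw [e1, e2] at s5
  generalize #(IsGQ.FL I (⊤ : Subgroup S) x) = n at *
  obtain ⟨n, rfl⟩ := Nat.exists_eq_add_of_lt s4
  have s6 : s * (s * (n + 1)) ≤ t := by
    have := Nat.mul_le_mul_left s (Nat.le_sub_one_of_lt s2)
    rw [show 1 + n + 1 - 1 = n + 1 by omega] at this
    omega
  obtain rfl : n = 0 := by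
    by_contra h
    nlinarith [Nat.mul_le_mul_left (s * s) (Nat.pos_of_ne_zero h)]
  obtain rfl : t = s ^ 2 := by nlinarith
  exact absurd ((Nat.modEq_zero_iff_dvd.2 (dvd_pow hps two_ne_zero)).symm.trans
    (Nat.ModEq.add_right_cancel' 1 s5)).dvd (by
      simpa using fun h => hp.one_lt.ne' (by exact_mod_cast Int.eq_one_of_dvd_one (by omega) h))

end Cfsg.Agent.BNP
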