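import Mathlib
import Cfsg.Agent.BNP.Glob

/-!
The torus acts transitively on the chambers of a panel of linear type outside the apartment.
-/

set_option autoImplicit false
set_option linter.unusedSectionVars false

namespace Cfsg.Agent.BNP

open Cfsg.Agent.Chev Cfsg.Agent.St Cfsg.Agent.KSG
open scoped commutatorElement

variable {G ι W : Type*} [Group G] [Group W] {T : Tits G ι W} [Finite W]

set_option hygiene false in
local notation "δ" => dist T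
set_option hygiene false in
local notation "𝐬" => T.s
set_option hygiene false in
local notation "ℓ" => wlen T.s

theorem smul_eq_of_rho {J : Set ι} {g g' : LJ T J} (h : rho T J g = rho T J g') {y : Ch T}
    (hy : Rs T J (ap T 1) y) : g.1 • y = g'.1 • y :=
  congrArg Subtype.val (Equiv.congr_fun h ⟨y, hy⟩)

theorem smul_eq_of_Kr {x y : Ch T} {J : Set ι} {g g' : G} (h : g⁻¹ * g' ∈ Kr T x J)
    (hy : Rs T J x y) : g' • y = g • y := by
  rw [← mul_inv_cancel_left g g', mul_smul, mem_Kr.1 h y hy]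

theorem MoufJ.eq_of_fix {J : Set ι} {i : ι} (h : MoufJ T J i) {y : Ch T}
    (hy : Rs T {i} (ap T 1) y) (hf : ∀ g ∈ XJ T J (rt 𝐬 1 i), g • y = y) : y = ap T 1 := by
  by_contra hne
  obtain ⟨z, h1, h2⟩ := exists_gen_ne (ap T 1) i y
  obtain ⟨g, hg, rfl⟩ := h z h1
  obtain ⟨g', hg', rfl⟩ := h y (hy.dist_eq (Ne.symm hne))
  exact h2 (by rw [← hf _ (mul_mem hg (inv_mem hg')), mul_smul, inv_smul_smul])

theorem MoufJ.eq_of_fix' {J : Set ι} {i : ι} (h : MoufJ T J i) (hi : i ∈ J) {y : Ch T}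
    (hy : Rs T {i} (ap T 1) y) (hf : ∀ g ∈ XJ T J (rt 𝐬 1 i)ᶜ, g • y = y) : y = ap T (𝐬 i) := by
  obtain ⟨n, hn⟩ := exists_mv T (𝐬 i)
  rw [← mul_one (𝐬 i), ← hn, ← inv_smul_eq_iff]
  refine h.eq_of_fix (LJ_rs (inv_mem (hn.mem_LJ (gen_mem_WJ (Set.mem_singleton i)))) hy) fun g hg => ?_
  have := hf _ (tr_gen_rt (T := T) i ▸ hn.conj_mem_XJ (gen_mem_WJ hi) hg)
  rwa [mul_smul, mul_smul, smul_eq_iff_eq_inv_smul] at this

theorem ncard_panel (x : Ch T) (i : ι) : {y | δ x y = 𝐬 i}.ncard = qq T i := by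
  obtain ⟨g, rfl, -⟩ := exists_smul_eq (x := ap T 1) (y := ap T 1) (x' := x) (y' := x) (by simp)
  rw [qq, ← Set.ncard_image_of_injective {y | δ (ap T 1) y = 𝐬 i} (MulAction.injective g)]
  refine congrArg _ (Set.ext fun y => ⟨fun h => ⟨g⁻¹ • y, (dist_smul_left g _ y).symm.trans h,
    smul_inv_smul g y⟩, ?_⟩)
  rintro ⟨z, hz, rfl⟩
  exact (dist_smul g _ _).trans hz

namespace PlaneSys

variable {a b : ι} {F : Type} [Field F] (P : PlaneSys T a b F)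

theorem rho_w (i j : Fin 3) (t : F) :
    rho T {a, b} (wE P.x i j t) = wE (fun i j t => rho T {a, b} (P.x i j t)) i j t := by
  simp only [wE, map_mul]

theorem rho_h (i j : Fin 3) (t : F) :
    rho T {a, b} (hE P.x i j t) = hE (fun i j t => rho T {a, b} (P.x i j t)) i j t := by
  simp only [hE, map_mul, map_inv, rho_w]

theorem fix_w {k l : Fin 3} (hkl : k ≠ l) {n : LJ T {a, b}} {c : Fin 3 → F}
    (hn : Act (fun i j t => rho T {a, b} (P.x i j t)) (rho T {a, b} n) (Equiv.swap k l) c) {v : W}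
    (hv : v ∈ WJ 𝐬 {a, b}) (h : v ∈ rA 𝐬 a b k l) :
    ∀ g ∈ XJ T {a, b} (rA 𝐬 a b l k), g • n.1 • ap T v = n.1 • ap T v := fun g hg => by
  obtain ⟨u, hu⟩ := P.surj l k hkl.symm g hg
  have h1 := hn.inv.2 l k hkl.symm u
  simp only [Equiv.swap_inv, Equiv.swap_apply_left, Equiv.swap_apply_right, ← map_inv,
    ← map_mul] at h1
  have h2 := smul_eq_of_rho h1 (rs_ap_one hv)
  rw [(P.mem k l hkl _).1 v h] at h2
  rw [← smul_eq_of_Kr hu (LJ_rs n.2 (rs_ap_one hv))]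
  simpa [mul_smul, inv_smul_eq_iff] using h2

theorem mv_w {k l : Fin 3} (hkl : k ≠ l) {i : ι} (hi : i ∈ ({a, b} : Set ι))
    (hm : MoufJ T {a, b} i) (e : rA 𝐬 a b k l = rt 𝐬 1 i) (e' : rA 𝐬 a b l k = (rt 𝐬 1 i)ᶜ)
    {t : F} (ht : t ≠ 0) : Mv T (wE P.x k l t).1 (𝐬 i) := by
  have h1 : ∀ u, (P.x k l u).1 ∈ LJ T {i} := fun u =>
    Fx_le_LJ (inJ_one i) (e ▸ (P.mem k l hkl u).1)
  have h2 : ∀ u, (P.x l k u).1 ∈ LJ T {i} := fun u =>
    Fx_le_LJ ((inJ_one i).compl T.cox) (e' ▸ (P.mem l k hkl.symm u).1)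
  have h3 : (wE P.x k l t).1 ∈ LJ T {i} := mul_mem (mul_mem (h1 _) (h2 _)) (h1 _)
  have h4 := P.rho_w k l t ▸ P.st.act_w (by simp) hkl ht
  refine mv_gen_of_LJ h3 (hm.eq_of_fix' hi (LJ_rs h3 (Rs.refl _ _)) ?_)
    (hm.eq_of_fix (LJ_rs h3 (rs_ap_one (gen_mem_WJ rfl))) ?_)
  · exact e' ▸ P.fix_w hkl h4 (one_mem _) (e ▸ self_mem_rt T.cox 1 i)
  · exact e ▸ P.fix_w hkl.symm (Equiv.swap_comm k l ▸ h4) (gen_mem_WJ hi) (e' ▸ gen_mem_compl i)

theorem mv_a {t : F} (ht : t ≠ 0) : Mv T (wE P.x 0 1 t).1 (𝐬 a) :=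
  P.mv_w (by decide) (by simp) P.mouf_a rfl rfl ht

theorem mv_b {t : F} (ht : t ≠ 0) : Mv T (wE P.x 1 2 t).1 (𝐬 b) :=
  P.mv_w (by decide) (by simp) P.mouf_b rfl rfl ht

theorem exists_x {y : Ch T} (hy : δ (ap T 1) y = 𝐬 b) : ∃ u, (P.x 1 2 u).1 • ap T (𝐬 b) = y := by
  obtain ⟨g, hg, rfl⟩ := P.mouf_b y hy
  obtain ⟨u, hu⟩ := P.surj 1 2 (by decide) g hg
  exact ⟨u, smul_eq_of_Kr hu (rs_ap_one (gen_mem_WJ (by simp)))⟩

theorem x_zero {k l : Fin 3} (hkl : k ≠ l) : (P.x k l 0).1 ∈ Kr T (ap T 1) {a, b} :=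
  (rho_eq_one T).1 (P.st.zero hkl)

include P in
theorem exists_H [Finite F] {y z : Ch T} (hy : δ (ap T 1) y = 𝐬 b) (hz : δ (ap T 1) z = 𝐬 b)
    (hy' : y ≠ ap T (𝐬 b)) (hz' : z ≠ ap T (𝐬 b)) : ∃ h, Mv T h 1 ∧ h • y = z := by
  have hb : Rs T {a, b} (ap T 1) (ap T (𝐬 b)) := rs_ap_one (gen_mem_WJ (by simp))
  obtain ⟨u, rfl⟩ := P.exists_x hy
  obtain ⟨u', rfl⟩ := P.exists_x hz
  have hu : u ≠ 0 := by rintro rfl; exact hy' (P.x_zero (by decide) _ hb)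
  have hu' : u' ≠ 0 := by rintro rfl; exact hz' (P.x_zero (by decide) _ hb)
  have ht := div_ne_zero hu hu'
  have h1 : Mv T (hE P.x 0 1 (u / u')).1 1 :=
    mul_inv_cancel (𝐬 a) ▸ (P.mv_a ht).mul (P.mv_a one_ne_zero).inv
  have h2 := (P.rho_h 0 1 _ ▸ P.st.act_h (by simp) (i := 0) (j := 1) (by decide) ht).2 1 2
    (by decide) u
  simp only [← map_inv, ← map_mul] at h2
  have h3 := smul_eq_of_rho h2 hb
  refine ⟨_, h1, ?_⟩
  have h4 := h1.inv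
  rw [inv_one] at h4
  simpa [mul_smul, h4.fix, hu] using h3

include P in
/-- A `p`-group normalised by the torus and fixing two chambers of a panel of linear type acts
trivially on the panel. -/
theorem le_Kr [Finite F] {p : ℕ} (hp : p.Prime) (hq : p ∣ qq T b) {Y : Subgroup G}
    (hY : IsPGroup p Y) (hN : ∀ h, Mv T h 1 → ∀ g ∈ Y, h * g * h⁻¹ ∈ Y) {x : W}
    (h1 : ∀ g ∈ Y, g • ap T x = ap T x) (h2 : ∀ g ∈ Y, g • ap T (x * 𝐬 b) = ap T (x * 𝐬 b)) :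
    Y ≤ Kr T (ap T x) {b} := by
  haveI := Fact.mk hp
  let Ω : SubMulAction Y (Ch T) := ⟨{y | δ (ap T x) y = 𝐬 b} \ {ap T (x * 𝐬 b)}, fun g y hy =>
    ⟨(dist_of_fix (h1 g g.2) y).trans hy.1, fun h => hy.2
      (MulAction.injective g.1 (h.trans (h2 g g.2).symm))⟩⟩
  have hc : ¬ p ∣ Nat.card Ω := fun h => by
    have h3 : 0 < qq T b := P.card_b ▸ Nat.card_pos
    have h4 := Set.ncard_sdiff_singleton_add_one (s := {y | δ (ap T x) y = 𝐬 b})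
      (dist_ap_mul x _) (Set.finite_of_ncard_pos (by rwa [ncard_panel]))
    rw [ncard_panel] at h4
    exact hp.one_lt.ne' (Nat.dvd_one.1 ((Nat.dvd_add_right h).1 (h4 ▸ hq)))
  obtain ⟨⟨y, hy, hy'⟩, h3⟩ := hY.nonempty_fixed_point_of_prime_not_dvd_card Ω hc
  obtain ⟨n, hn⟩ := exists_mv T x
  have e : ∀ {z}, δ (ap T x) z = 𝐬 b → δ (ap T 1) (n⁻¹ • z) = 𝐬 b := fun h => by
    rwa [← dist_smul_left, hn, mul_one]
  have e' : ∀ {z}, z ≠ ap T (x * 𝐬 b) → n⁻¹ • z ≠ ap T (𝐬 b) := fun h h' =>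
    h (by rw [← hn, ← h', smul_inv_smul])
  refine fun g hg => fixR_one (h1 g hg) fun z hz => ?_
  by_cases hz' : z = ap T (x * 𝐬 b)
  · exact hz' ▸ h2 g hg
  obtain ⟨h, h4, h5⟩ := P.exists_H (e hz) (e hy) (e' hz') (e' hy')
  have h6 := (hn.mul h4).mul hn.inv
  rw [mul_one, mul_inv_cancel] at h6
  have h7 : (n * h * n⁻¹ * g * (n * h * n⁻¹)⁻¹) • y = y :=
    congrArg Subtype.val (h3 ⟨_, hN _ h6 g hg⟩)
  have h8 : (n * h * n⁻¹) • z = y := by rw [mul_smul, mul_smul, h5, smul_inv_smul]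
  rwa [← h8, mul_smul, inv_smul_smul, mul_smul, smul_left_cancel_iff] at h7

end PlaneSys

end Cfsg.Agent.BNP
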