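import Mathlib
import Cfsg.Agent.BNP.Plane
import Cfsg.Agent.BNP.Lift
import Cfsg.Agent.BNP.GQ

/-!
A residue of type `C₂` of a finite Tits system is a generalized quadrangle.
-/

set_option autoImplicit false
set_option linter.unusedSectionVars false

namespace Cfsg.Agent.BNP

open Cfsg Cfsg.Agent.St Cfsg.Agent.Chev

universe u v
variable {G : Type u} {ι : Type*} {W : Type v} [Group G] [Group W] {T : Tits G ι W} [Finite W]

set_option hygiene false in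
local notation "δ" => dist T
set_option hygiene false in
local notation "𝐬" => T.s

namespace GQR

variable {J : Set ι} {b c : ι}

theorem card_pan [Finite G] (hbc : b ≠ c) (hb : b ∈ J) (l : Pan T J b c) :
    {p : Pan T J c b | p ∈ l}.ncard = qq T b + 1 := by
  obtain ⟨z, rfl⟩ := pan_surj l
  have hb' : ({b} : Set ι) ⊆ J := Set.singleton_subset_iff.2 hb
  rw [← ncard_panel z.1 b, ← Set.ncard_insert_of_notMem (a := z.1) fun h => ne_of_dist_gen h rfl]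
  have k : ∀ y ∈ insert z.1 {y | δ z.1 y = 𝐬 b}, Rs T {b} z.1 y := fun y hy =>
    rs_one.2 (hy.imp_left Eq.symm)
  refine (Set.ncard_congr (fun y hy => pan c b ⟨y, z.2.trans ((k y hy).mono hb')⟩)
    (fun y hy => ?_) (fun y y' hy hy' e => ?_) ?_).symm
  · exact ⟨_, rfl, pan_eq.2 (k y hy).symm⟩
  · exact eq_of_rs hbc ((k y hy).symm.trans (k y' hy')) (pan_eq.1 e)
  · rintro _ ⟨y, rfl, e⟩
    exact ⟨y.1, (rs_one.1 (pan_eq.1 e).symm).imp_left Eq.symm, rfl⟩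

theorem two_le_qq [Finite G] (i : ι) : 2 ≤ qq T i := by
  obtain ⟨y, hy, -⟩ := exists_gen_ne (ap T 1) i (ap T 1)
  obtain ⟨z, hz, h⟩ := exists_gen_ne (ap T 1) i y
  exact (Set.one_lt_ncard (Set.toFinite _)).2 ⟨z, hz, y, hy, h⟩

theorem av_notMem {d e i : ι} {k : ℕ} (h1 : 2 ≤ k) (h2 : k ≤ orderOf (𝐬 d * 𝐬 e)) :
    av 𝐬 d e k ∉ WJ 𝐬 {i} := fun h => by
  have := wlen_av T.cox h2
  rcases (mem_WJ_one T.cox).1 h with e | e <;> rw [e] at this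
  · rw [wlen_one] at this; omega
  · rw [T.cox.wlen_gen] at this; omega

theorem nc (h : orderOf (𝐬 b * 𝐬 c) = 4) : 𝐬 b * 𝐬 c ≠ 𝐬 c * 𝐬 b := not_commute_of_ord h (by omega)

theorem exists_word (h : orderOf (𝐬 b * 𝐬 c) = 4) {x : W} (hx : x ∈ WJ 𝐬 {b, c}) :
    ∃ u ∈ WJ 𝐬 {c}, ∃ v ∈ WJ 𝐬 {b}, ∃ u' ∈ WJ 𝐬 {c}, ∃ v' ∈ WJ 𝐬 {b}, x = u * (v * (u' * v')) := by
  have hb : 𝐬 b ∈ WJ 𝐬 {b} := gen_mem_WJ rfl
  have hc : 𝐬 c ∈ WJ 𝐬 {c} := gen_mem_WJ rfl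
  have e4 := av_ord T.cox b c
  obtain ⟨k, hk, e⟩ := eq_av T.cox hx
  rw [h] at hk e4
  interval_cases k <;> rcases e with e | e <;> rw [e]
  · exact ⟨1, one_mem _, 1, one_mem _, 1, one_mem _, 1, one_mem _, by simp⟩
  · exact ⟨1, one_mem _, 1, one_mem _, 1, one_mem _, 1, one_mem _, by simp⟩
  · exact ⟨1, one_mem _, _, hb, 1, one_mem _, 1, one_mem _, by simp [av_succ]⟩
  · exact ⟨_, hc, 1, one_mem _, 1, one_mem _, 1, one_mem _, by simp [av_succ]⟩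
  · exact ⟨1, one_mem _, _, hb, _, hc, 1, one_mem _, by simp [av_succ]⟩
  · exact ⟨_, hc, _, hb, 1, one_mem _, 1, one_mem _, by simp [av_succ]⟩
  · exact ⟨1, one_mem _, _, hb, _, hc, _, hb, by simp [av_succ]⟩
  · exact ⟨_, hc, _, hb, _, hc, 1, one_mem _, by simp [av_succ]⟩
  · exact ⟨_, hc, _, hb, _, hc, _, hb, by rw [e4]; simp [av_succ]⟩
  · exact ⟨_, hc, _, hb, _, hc, _, hb, by simp [av_succ]⟩

theorem eq_of_dist (h : orderOf (𝐬 b * 𝐬 c) = 4) {y z y' z' : Ch T} (h1 : δ y z = 𝐬 b * 𝐬 c)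
    (h2 : δ y' z' = 𝐬 b * 𝐬 c) (h3 : Rs T {c} y' y) (h4 : Rs T {b} z' z) : y' = y ∧ z' = z := by
  have hne : b ≠ c := ne_of_nc (nc h)
  have e1 : δ y' z = 𝐬 b * 𝐬 c * δ z' z := by
    rw [← h2]
    refine dist_gate (fun j hj => ?_) h4
    rw [hj, h2, ← av_two]; exact not_RD_av T.cox (by omega)
  have e2 : δ y' z = δ y' y * (𝐬 b * 𝐬 c) := by
    rw [dist_comm z, dist_gate (x := z) (fun j hj => ?_) h3.symm, mul_inv_rev, ← dist_comm,
      ← dist_comm, h1]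
    rw [hj, dist_comm, h1, mul_inv_rev, gen_inv T.cox, gen_inv T.cox, ← av_two]
    exact not_RD_av T.cox (by rw [ord_comm T.cox]; omega)
  rw [e1] at e2
  rcases rs_one.1 h3 with e3 | e3 <;> rcases rs_one.1 h4 with e4 | e4
  · exact ⟨e3, e4⟩
  · rw [e3, e4, dist_self, one_mul, mul_eq_left] at e2
    exact absurd e2 (gen_ne_one' T.cox b)
  · rw [e3, e4, dist_self, mul_one, eq_comm, mul_eq_right] at e2
    exact absurd e2 (gen_ne_one' T.cox c)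
  · rw [e3, e4, ← av_three, ← mul_assoc, ← av_three] at e2
    have := orderOf_dvd_of_pow_eq_one ((wprod_alt_eq_iff 𝐬 T.cox.sq 3 b c).1 e2)
    rw [h] at this; omega

theorem isGQ [Finite G] (h : orderOf (𝐬 b * 𝐬 c) = 4) :
    IsGQ (fun (p : Pan T {b, c} c b) (l : Pan T {b, c} b c) => p ∈ l) (qq T b) (qq T c) where
  line_eq := pan_eq_or (nc h)
  proj p l hn := by
    have hne : b ≠ c := ne_of_nc (nc h)
    have hb : ({b} : Set ι) ⊆ {b, c} := by simp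
    have hc : ({c} : Set ι) ⊆ {b, c} := by simp
    have key : ∀ x : Pan T {b, c} c b × Pan T {b, c} b c, p ∈ x.2 ∧ x.1 ∈ x.2 ∧ x.1 ∈ l →
        ∃ y z : RJ T {b, c}, δ y.1 z.1 = 𝐬 b * 𝐬 c ∧ pan c b y = p ∧ pan b c z = l ∧
          x = (pan c b z, pan b c y) := by
      rintro ⟨x, m⟩ ⟨⟨y, rfl, e1⟩, ⟨y', e2, e3⟩, ⟨z, e4, rfl⟩⟩
      have d1 := (pan_eq.1 (e1.trans e3.symm)).dist_eq fun e =>
        hn ⟨z, by rw [e4, ← e2, Subtype.ext e], rfl⟩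
      have d2 := (pan_eq.1 (e2.trans e4.symm)).dist_eq fun e =>
        hn ⟨y, rfl, by rw [e1, ← e3, Subtype.ext e]⟩
      exact ⟨y, z, by rw [dist_of_rs hne (rs_gen d1) (rs_gen d2), d1, d2], rfl, rfl,
        Prod.ext e4.symm e1.symm⟩
    refine existsUnique_of_exists_of_unique ?_ fun x x' hx hx' => ?_
    · obtain ⟨y, rfl⟩ := pan_surj p
      obtain ⟨z, rfl⟩ := pan_surj l
      obtain ⟨u, hu, v, hv, u', hu', v', hv', e⟩ := exists_word h (y.2.symm.trans z.2)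
      obtain ⟨y1, rfl, e1⟩ := exists_mid e
      obtain ⟨y2, rfl, e2⟩ := exists_mid e1
      obtain ⟨y3, rfl, rfl⟩ := exists_mid e2
      have r1 := y.2.trans (Rs.mono hu hc)
      have r2 := r1.trans (Rs.mono hv hb)
      have r3 := r2.trans (Rs.mono hu' hc)
      exact ⟨(pan c b ⟨y2, r2⟩, pan b c ⟨y1, r1⟩), ⟨⟨y1, r1⟩, pan_eq.2 (Rs.symm hu), rfl⟩,
        ⟨⟨y2, r2⟩, rfl, pan_eq.2 (Rs.symm hv)⟩, ⟨⟨y3, r3⟩, pan_eq.2 (Rs.symm hu'), pan_eq.2 hv'⟩⟩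
    · obtain ⟨y, z, d, e1, e2, rfl⟩ := key x hx
      obtain ⟨y', z', d', e1', e2', rfl⟩ := key x' hx'
      obtain ⟨k1, k2⟩ := eq_of_dist h d' d (pan_eq.1 (e1.trans e1'.symm))
        (pan_eq.1 (e2.trans e2'.symm))
      rw [Subtype.ext k1, Subtype.ext k2]
  card_pts := card_pan (ne_of_nc (nc h)) (by simp)
  card_lns p := by
    rw [← card_pan (ne_of_nc (nc h)).symm (by simp) p]
    exact congrArg _ (Set.ext fun _ => ⟨mem_pan_symm, mem_pan_symm⟩)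
  two_le_s := two_le_qq b
  two_le_t := two_le_qq c

end GQR

open GQR

theorem relIndex_lt_of_four [Finite G] {b c : ι} (h : orderOf (T.s b * T.s c) = 4) {p : ℕ}
    (hp : p.Prime) (hq : p ∣ qq T b) {S : Subgroup G} (hS : IsPGroup p S)
    (h1 : ∀ g ∈ S, ∀ w ∈ WJ T.s {b, c}, g • ap T w = ap T w) (h2 : S ≤ Kr T (ap T 1) {b})
    (h3 : S ≤ Kr T (ap T (T.s c)) {b}) : (Kr T (ap T 1) {c}).relIndex S < qq T b ^ 2 := by
  have hne : b ≠ c := ne_of_nc (nc h)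
  have h' : orderOf (𝐬 c * 𝐬 b) = 4 := by rw [ord_comm T.cox, h]
  have hb : 𝐬 b ∈ WJ 𝐬 {b} := gen_mem_WJ rfl
  have hc : 𝐬 c ∈ WJ 𝐬 {c} := gen_mem_WJ rfl
  have le : S ≤ StR T {b, c} := fun g hg => by
    change Rs _ _ _ _
    rw [h1 g hg 1 (one_mem _)]; exact Rs.refl _ _
  let φ : S →* AutR T {b, c} := toA.comp (Subgroup.inclusion le)
  letI : MulAction S (Pan T {b, c} c b) := MulAction.compHom _ φ
  letI : MulAction S (Pan T {b, c} b c) := MulAction.compHom _ φ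
  let A : ℕ → RJ T {b, c} := fun k => ⟨ap T (av 𝐬 c b k), rs_ap_one (av_mem' b c k)⟩
  let B : ℕ → RJ T {b, c} := fun k => ⟨ap T (av 𝐬 b c k), rs_ap_one (av_mem b c k)⟩
  have rA : ∀ k, Rs T {lt c b k} (A (k + 1)).1 (A k).1 := fun k => by
    refine (rs_gen ?_).symm
    change δ (ap T _) (ap T (av 𝐬 c b (k + 1))) = _
    rw [av_succ', dist_ap_mul]
  have rB : ∀ k, Rs T {lt b c k} (B (k + 1)).1 (B k).1 := fun k => by
    refine (rs_gen ?_).symm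
    change δ (ap T _) (ap T (av 𝐬 b c (k + 1))) = _
    rw [av_succ', dist_ap_mul]
  have e4 : av 𝐬 c b 4 = av 𝐬 b c 4 := by simpa [h'] using av_ord T.cox c b
  have e4' : A 4 = B 4 := Subtype.ext (congrArg (ap T) e4)
  have fx : ∀ (g : S) (y : RJ T {b, c}), g.1 • y.1 = y.1 → (φ g).1 y = y :=
    fun g y e => Subtype.ext e
  have ne : ∀ {i j : ι} {y z : RJ T {b, c}} {v w : W}, y.1 = ap T v → z.1 = ap T (v * w) →
      w ∉ WJ 𝐬 {i} → pan i j y ≠ pan i j z := fun {i j y z v w} e1 e2 hw e => hw (by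
    have := pan_eq.1 e
    rwa [Rs, e1, e2, dist_ap_mul] at this)
  refine (isGQ h).index_lt hp hq hS (x := pan c b (A 0)) (y := pan c b (B 1)) (w := pan c b (A 2))
    (z := pan c b (A 4)) (M := pan b c (A 0)) (T := pan b c (A 1)) (M' := pan b c (A 3))
    (T' := pan b c (B 2)) ?_ (pan_mem _) ⟨B 1, rfl, pan_eq.2 (rB 0)⟩ ⟨A 1, pan_eq.2 (rA 0), rfl⟩
    ⟨A 2, rfl, pan_eq.2 (rA 1)⟩ ⟨A 3, pan_eq.2 (rA 2), rfl⟩ ⟨A 4, rfl, pan_eq.2 (rA 3)⟩
    ⟨B 2, pan_eq.2 (rB 1), rfl⟩ ⟨B 3, pan_eq.2 (e4' ▸ (rB 3).symm), pan_eq.2 (rB 2)⟩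
    (ne (v := 1) (w := 𝐬 b) rfl (by simp [B, av_one]) fun e => hne (T.cox.mem_of_gen_mem (J := {c}) e))
    (ne (v := 1) (w := av 𝐬 c b 2) rfl (by simp [A]) (av_notMem le_rfl (by omega)))
    (ne (v := 1) (w := 𝐬 c) rfl (by simp [A, av_one]) fun e =>
      hne (T.cox.mem_of_gen_mem (J := {b}) e).symm)
    (ne (v := 𝐬 b) (w := av 𝐬 c b 3) (by simp [B, av_one]) (by rw [e4']; rfl)
      (av_notMem (by omega) (by omega))).symm
    (ne (v := av 𝐬 c b 2) (w := av 𝐬 c b 2) rfl (by simp [A, av_succ, mul_assoc])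
      (av_notMem le_rfl (by omega))).symm
    (ne (v := 𝐬 c) (w := av 𝐬 b c 2) (by simp [A, av_one]) rfl (av_notMem le_rfl (by omega)))
    (ne (v := 1) (w := av 𝐬 b c 2) rfl (by simp [B]) (av_notMem le_rfl (by omega)))
    ?_ ?_ (fun g => congrArg (pan c b) (fx g _ (h1 g g.2 _ (av_mem' b c 4)))) _ fun g hg y hy => ?_
  · rintro g _ _ ⟨y, rfl, rfl⟩
    exact pan_mem _
  · rintro g _ ⟨y, rfl, e⟩
    exact congrArg (pan c b) (fx g _ (h2 g.2 _ (pan_eq.1 e).symm))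
  · rintro g _ ⟨y, rfl, e⟩
    refine congrArg (pan c b) (fx g _ (h3 g.2 _ ?_))
    rw [← av_one (s := 𝐬) c b]
    exact (pan_eq.1 e).symm
  · let y' : RJ T {b, c} := ⟨y, hy.mono (by simp)⟩
    exact eq_of_rs hne (pan_eq.1 (hg (pan b c y') ⟨y', pan_eq.2 hy.symm, rfl⟩))
      ((hy.smul_of_fix (h1 g g.2 1 (one_mem _))).symm.trans hy)

end Cfsg.Agent.BNP
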