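import Mathlib
import Cfsg.Agent.BNP.Lift
import Cfsg.Agent.BNP.Plane

/-!
From the Moufang condition in rank two residues to the global Moufang condition.
-/

set_option autoImplicit false
set_option linter.unusedSectionVars false

namespace Cfsg.Agent.BNP

open Cfsg.Agent.Chev Cfsg.Agent.St Cfsg.Agent.KSG
open scoped commutatorElement

variable {G ι W : Type*} [Group G] [Group W] {T : Tits G ι W} [Finite W]

set_option hygiene false in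
local notation "δ" => dist T
set_option hygiene false in
local notation "𝐬" => T.s
set_option hygiene false in
local notation "ℓ" => wlen T.s

theorem ringChar_eq_of_dvd {F : Type*} [Field F] [Finite F] {p : ℕ} (hp : p.Prime)
    (h : p ∣ Nat.card F) : ringChar F = p := by
  cases nonempty_fintype F
  obtain ⟨n, h1, h2⟩ := FiniteField.card F (ringChar F)
  rw [Nat.card_eq_fintype_card, h2] at h
  exact ((Nat.prime_dvd_prime_iff_eq hp h1).1 (hp.dvd_of_dvd_pow h)).symm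

theorem PlaneSys.pow_char {a b : ι} {F : Type} [Field F] (P : PlaneSys T a b F)
    (hab : orderOf (𝐬 a * 𝐬 b) = 3) {i j : Fin 3} (h : i ≠ j) {g : G}
    (hg : g ∈ XJ T {a, b} (rA 𝐬 a b i j)) :
    g ^ ringChar F ∈ Kr T (ap T 1) {a, b} := by
  obtain ⟨t, ht⟩ := P.surj i j h g hg
  have h1 := (rho_eq_iff T (g := ⟨g, Fx_le_LJ (inJ_rA hab h) hg.1⟩)).2 ht
  refine (rho_eq_one T (g := ⟨g, Fx_le_LJ (inJ_rA hab h) hg.1⟩ ^ ringChar F)).1 ?_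
  rw [map_pow, h1, stSL_pow P.st h, ringChar.Nat.cast_ringChar, zero_mul, P.st.zero h]

variable [Finite G] {p : ℕ} (hp : p.Prime)
include hp

theorem elat {k l : ι} (hkl : orderOf (𝐬 k * 𝐬 l) = 3) (hq : p ∣ qq T l) {g : G} {m : ℕ}
    {y z : Ch T} (h1 : g ^ p ^ m ∈ Kr T y {k, l}) (h2 : g ∈ Kr T y {k}) (hz : δ y z = 𝐬 l)
    (h3 : g • z = z) : g ∈ Kr T y {l} := by
  obtain ⟨F, _, _, ⟨P⟩⟩ := exists_planeSys hkl
  exact P.elat_a g m y z (by rwa [ringChar_eq_of_dvd hp (P.card_b ▸ hq)]) h2 hz h3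

theorem pow_mem_Kr {a b : ι} (hab : orderOf (𝐬 a * 𝐬 b) = 3) (hq : p ∣ qq T b) {g : G}
    (hg : g ∈ XJ T {a, b} (rt 𝐬 1 b)) : g ^ p ∈ Kr T (ap T 1) {a, b} := by
  obtain ⟨F, _, _, ⟨P⟩⟩ := exists_planeSys hab
  exact ringChar_eq_of_dvd hp (P.card_b ▸ hq) ▸ P.pow_char hab (i := 1) (j := 2) (by decide) hg

theorem mouf_of_local (hf : Faith T) {j a : ι}
    (ho : ∀ k l, k ≠ l → orderOf (𝐬 k * 𝐬 l) ∈ ({2, 3, 4} : Set ℕ))
    (hq : ∀ k l, orderOf (𝐬 k * 𝐬 l) = 3 → p ∣ qq T l) (ha : orderOf (𝐬 a * 𝐬 j) = 3)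
    (h0 : ∀ y, δ (ap T 1) y = 𝐬 j → ∃ g ∈ XJ T {a, j} (rt 𝐬 1 j),
      (∀ k, 𝐬 j * 𝐬 k ≠ 𝐬 k * 𝐬 j → g ∈ Kr T (ap T 1) {k}) ∧ g • ap T (𝐬 j) = y)
    (ht : ∀ P : ι → Prop, (∀ k, 𝐬 j * 𝐬 k ≠ 𝐬 k * 𝐬 j → P k) →
      (∀ k l, l ≠ j → orderOf (𝐬 k * 𝐬 l) = 3 → P k → P l) → ∀ k ≠ j, P k)
    (hn : ∀ b c, (∀ l, orderOf (𝐬 l * 𝐬 c) ≠ 3) → orderOf (𝐬 b * 𝐬 c) = 4 → MoufJ T {b, c} b) :
    Mouf T j := by
  let Y : Subgroup G := XJ T {a, j} (rt 𝐬 1 j) ⊓ ⨅ k ≠ j, Kr T (ap T 1) {k}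
  have mY : ∀ {g}, g ∈ Y ↔ g ∈ XJ T {a, j} (rt 𝐬 1 j) ∧ ∀ k ≠ j, g ∈ Kr T (ap T 1) {k} := by
    simp [Y, Subgroup.mem_iInf]
  have hj : Rs T {a, j} (ap T 1) (ap T (𝐬 j)) := rs_ap_one (gen_mem_WJ (by simp))
  have pY : IsPGroup p Y := fun ⟨g, hg⟩ => ⟨1, Subtype.ext (by
    have h1 := pow_mem_Kr hp ha (hq _ _ ha) (mY.1 hg).1
    rw [pow_one]
    refine hf.eq_one (mem_Kr_of_mv (x := 1) (mv_one_of_Fx (pow_mem (mY.1 hg).1.1 p) (h1 _ hj))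
      fun k _ => ?_)
    by_cases hk : k = j
    · exact Kr_mono (by simp [hk]) (Rs.refl _ _) h1
    · exact pow_mem ((mY.1 hg).2 k hk) p)⟩
  have lin : ∀ g ∈ Y, ∀ x l, (∃ k, orderOf (𝐬 k * 𝐬 l) = 3) → x ∈ rt 𝐬 1 j → x * 𝐬 l ∈ rt 𝐬 1 j →
      g ∈ Kr T (ap T x) {l} := by
    rintro g hg x l ⟨k, hk⟩ h1 h2
    obtain ⟨F, _, _, ⟨P⟩⟩ := exists_planeSys hk
    refine P.le_Kr hp (hq _ _ hk) pY (fun h hh g hg => mY.2 ⟨conj_mem_XJ_of_Fx (hh.mem_Fx _)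
      (mY.1 hg).1, fun k hk => ?_⟩) (fun g hg => (mY.1 hg).1.1 _ h1)
      (fun g hg => (mY.1 hg).1.1 _ h2) hg
    simpa using hh.conj_mem_Kr ((mY.1 hg).2 k hk)
  have ty : ∀ w l, rt 𝐬 w l = rt 𝐬 1 j → ∃ k, orderOf (𝐬 k * 𝐬 l) = 3 := fun w l e =>
    (eq_or_lin ho e).elim (fun h => ⟨a, h ▸ ha⟩) fun h => h.1.imp fun k hk => by
      rwa [ord_comm T.cox]
  have key : Y ≤ X T (rt 𝐬 1 j) := fun g hg => by
    have hF := (mY.1 hg).1.1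
    refine mem_X_of_cut (isRt_rt 1 j) (self_mem_rt T.cox 1 j) hF
      (fun k hk => (mY.1 hg).2 k ((gen_mem_rt_one T.cox).1 hk).symm) ?_
    intro x i k hik hx _ _ hJ h1 v hv c hc h2 h3
    by_cases hl : ∃ k, orderOf (𝐬 k * 𝐬 c) = 3
    · exact lin g hg _ _ hl h2 h3
    obtain ⟨b, hbc, e⟩ : ∃ b, b ≠ c ∧ ({i, k} : Set ι) = {b, c} := by
      rcases hc with rfl | rfl
      exacts [⟨k, hik.symm, Set.pair_comm _ _⟩, ⟨i, hik, rfl⟩]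
    rw [e] at hJ h1 hv
    have h4 : ∀ w ∈ rt 𝐬 1 j, w * 𝐬 c ∈ rt 𝐬 1 j := fun w hw => by
      by_contra h
      exact hl (ty _ _ ((isRt_rt 1 j).eq_of_cross T.cox hw h).symm)
    have h5 := h1 c (by simp) (h4 x hx)
    obtain ⟨y, hy, m, hm, e1⟩ := hJ
    have e2 : rt 𝐬 (x * y) m = rt 𝐬 1 j := by rw [← tr_rt, ← e1, tr_tr, mul_inv_cancel, tr_one]
    obtain rfl : b = m := hm.elim Eq.symm fun h => absurd (ty _ _ (h ▸ e2)) hl
    rcases ho b c hbc with h6 | h6 | h6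
    · have h7 := (commute_iff_two hbc).2 h6
      have h8 : x * 𝐬 b ∈ rt 𝐬 1 j → g ∈ Kr T (ap T (x * 𝐬 b)) {c} := fun h =>
        Kr_par_gen h5 hbc.symm h7.symm (hF _ h)
      have h9 : x * (𝐬 b * 𝐬 c) * 𝐬 c ∈ rt 𝐬 1 j → g ∈ Kr T (ap T (x * (𝐬 b * 𝐬 c))) {c} := by
        rw [← mul_assoc, cancel_r T.cox, Kr_ap_gen]; exact h8
      obtain ⟨r, hr, h⟩ := eq_av T.cox hv
      rw [h6] at hr
      interval_cases r
      · obtain rfl : v = 1 := h.elim id id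
        rwa [mul_one]
      · rw [av_one, av_one] at h
        rcases h with rfl | rfl
        exacts [h8 h2, by rwa [Kr_ap_gen]]
      · rw [av_two, av_two, ← h7, or_self] at h
        subst h; exact h9 h3
    · exact absurd ⟨b, h6⟩ hl
    · have h7 := hn b c (fun l h => hl ⟨l, h⟩) h6
      by_cases h8 : x * 𝐬 b ∈ rt 𝐬 1 j
      · have h9 : ∀ l ∈ ({b, c} : Set ι), x * 1 * 𝐬 l ∈ rt 𝐬 1 j := by
          rw [mul_one]; rintro l (rfl | rfl); exacts [h8, h4 x hx]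
        exact h7.mem_Kr hF hy e2 (one_mem _) (by rwa [mul_one]) h9
          (fun l hl => by simpa using h1 l hl (by simpa using h9 l hl)) hv (by simp) h2 h3
      · have h9 : x * 𝐬 c * 𝐬 b ∈ rt 𝐬 1 j := by
          rw [(isRt_rt 1 j).eq_of_cross T.cox hx h8, ← mul_one x, ← tr_rt, mul_one, mul_assoc,
            mul_mem_tr]
          exact gen_mul_gen_mem_rt T.cox (not_commute_of_ord h6 (by norm_num)) b
        refine h7.mem_Kr hF hy e2 (gen_mem_WJ (j := c) (by simp)) (h4 x hx) ?_ ?_ hv (by simp) h2 h3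
        · rintro l (rfl | rfl)
          exacts [h9, by rwa [cancel_r T.cox]]
        · rintro l (rfl | rfl)
          exacts [lin g hg _ _ (ty _ _ e2) (h4 x hx) h9, by rwa [Kr_ap_gen]]
  intro y hy
  obtain ⟨g, h1, h2, rfl⟩ := h0 y hy
  obtain ⟨m, n, h3⟩ := exists_pPart hp g
  refine ⟨g ^ (p * m + 1), key (mY.2 ⟨pow_mem h1 _, ht _ (fun k hk => pow_mem (h2 k hk) _)
    fun k l hl hkl hk => elat hp hkl (hq _ _ hkl) (h3 ▸ one_mem _) hk (dist_ap_one _)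
      (pow_mem h1.1 _ _ ((gen_mem_rt_one T.cox).2 hl.symm))⟩), ?_⟩
  rw [pow_succ', mul_smul, pow_mul,
    mem_Kr.1 (pow_mem (pow_mem_Kr hp ha (hq _ _ ha) h1) m) _ hj]

end Cfsg.Agent.BNP
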