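import Mathlib
import Cfsg.Agent.BNP.MoufLoc
import Cfsg.Agent.BNP.GQRes

/-!
The Moufang condition for the middle node of a residue of type `C₃`.
-/

set_option autoImplicit false
set_option linter.unusedSectionVars false

namespace Cfsg.Agent.BNP

open Cfsg.Agent.Chev Cfsg.Agent.St Cfsg.Agent.KSG
open scoped commutatorElement

variable {G ι W : Type*} [Group G] [Group W] {T : Tits G ι W} [Finite W]

set_option hygiene false in
local notation "δ" => dist T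
set_option hygiene false in
local notation "𝐬" => T.s
set_option hygiene false in
local notation "ℓ" => wlen T.s

theorem exists_pLift {L Γ : Type*} [Group L] [Finite L] [Group Γ] (ρ : L →* Γ) {p : ℕ}
    (hp : p.Prime) {E : Subgroup Γ} (hE : IsPGroup p E) (h : E ≤ ρ.range) :
    ∃ S : Subgroup L, IsPGroup p S ∧ S.map ρ = E := by
  haveI := Fact.mk hp
  have hf : Function.Surjective (ρ.subgroupComap E) := fun ⟨e, he⟩ => by
    obtain ⟨g, rfl⟩ := h he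
    exact ⟨⟨g, he⟩, rfl⟩
  obtain ⟨S⟩ : Nonempty (Sylow p (E.comap ρ)) := inferInstance
  have h1 := (S.mapSurjective hf).3 (hE.to_subgroup ⊤) le_top
  refine ⟨S.1.map (Subgroup.subtype _), S.2.map _, le_antisymm ?_ fun e he => ?_⟩
  · rintro _ ⟨_, ⟨g, -, rfl⟩, rfl⟩; exact g.2
  · obtain ⟨g, hg, e1⟩ : (⟨e, he⟩ : E) ∈ S.1.map (ρ.subgroupComap E) :=
      h1.le (Subgroup.mem_top _)
    exact ⟨g, ⟨g, hg, rfl⟩, congrArg Subtype.val e1⟩

theorem fix_of_LJ {J K : Set ι} {g : G} (hg : g ∈ LJ T J) {b : ι} (hb : b ∈ J)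
    (hK : ∀ k ∈ K, k ∈ J → k = b) (h1 : g • ap T 1 = ap T 1) (h2 : g • ap T (𝐬 b) = ap T (𝐬 b))
    {v : W} (hv : v ∈ WJ 𝐬 K) : g • ap T v = ap T v := by
  have h3 := mul_mem (gen_mem_WJ (s := 𝐬) hb) (wJ_mem (T := T) J)
  refine fix_of_btw (btw_one.2 (T.cox.wlen_eq_of_LD (fun k hk => LD_mul_w0.2 fun h => ?_) hv)) h1
    (LJ_proj hg h3 h3 (by rwa [wJ_cancel']))
  obtain rfl := hK k hk (T.cox.mem_of_LD h3 h)
  exact T.cox.LD_gen_mul.1 h (T.cox.LD_of_isTop (isTop_wJ J) hb)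

theorem mem_Kr_of_rho {J K : Set ι} {g x : LJ T J} (h : rho T J g = rho T J x) {y : Ch T}
    (hy : Rs T J (ap T 1) y) (hK : K ⊆ J) (hx : x.1 ∈ Kr T y K) : g.1 ∈ Kr T y K := by
  simpa using mul_mem hx (Kr_mono hK hy ((rho_eq_iff T).1 h.symm))

theorem mem_XJ_of_rho {J : Set ι} {g x : LJ T J} (h : rho T J g = rho T J x) {i : ι} (hi : i ∈ J)
    (hx : x.1 ∈ XJ T J (rt 𝐬 1 i)) : g.1 ∈ XJ T J (rt 𝐬 1 i) := by
  have h1 : ∀ v ∈ WJ 𝐬 J, v ∈ rt 𝐬 1 i → g.1 • ap T v = ap T v := fun v h1 h2 =>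
    (smul_eq_of_rho h (rs_ap_one h1)).trans (hx.1 v h2)
  refine ⟨mem_Fx_of_LJ g.2 hi (h1 _ (one_mem _) (self_mem_rt T.cox 1 i))
    (h1 _ (mul_mem (gen_mem_WJ hi) (wJ_mem J)) ?_), fun v h2 h3 k hk h4 =>
      mem_Kr_of_rho h (rs_ap_one h3) (Set.singleton_subset_iff.2 hk) (hx.2 v h2 h3 k hk h4)⟩
  exact ((inJ_rt (one_mem _) hi).mul_top_mem T.cox (isTop_wJ J) (gen_mem_WJ hi)).2
    (gen_mem_compl i)

theorem braid_of_four {b c : ι} (h : orderOf (𝐬 b * 𝐬 c) = 4) :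
    𝐬 b * (𝐬 c * 𝐬 b * 𝐬 c) = 𝐬 c * 𝐬 b * 𝐬 c * 𝐬 b ∧ ¬ RD 𝐬 (𝐬 c * 𝐬 b * 𝐬 c) b := by
  have h2 := av_ord T.cox b c
  have h3 := not_RD_av T.cox (a := c) (b := b) (k := 3) (by rw [ord_comm T.cox]; omega)
  rw [h, av_succ' 3 c b, av_succ b c 3, av_three] at h2
  exact ⟨h2, av_three (s := 𝐬) c b ▸ h3⟩

namespace PlaneSys

variable {a b c : ι} {F : Type} [Field F] (P : PlaneSys T a b F)

set_option hygiene false in
local notation "ρ" => rho T {a, b}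

theorem not_fix {i j : Fin 3} (hij : i ≠ j) {k l : ι} (e : rA 𝐬 a b i j = rt 𝐬 1 k)
    (hl : l ∈ ({a, b} : Set ι)) (hkl : 𝐬 k * 𝐬 l ≠ 𝐬 l * 𝐬 k) {t : F}
    (h : (P.x i j t).1 • ap T (𝐬 k) = ap T (𝐬 k)) : t = 0 :=
  P.inj i j hij t (mem_Kr_of_XJ hl hkl (e ▸ P.mem i j hij t) (dist_ap_one _) h)

/-- The elations with a common centre. -/
def elH : Multiplicative (F × F) →* Equiv.Perm (RJ T {a, b}) :=
  MonoidHom.mk' (fun v => ρ (P.x 0 1 v.toAdd.1) * ρ (P.x 0 2 v.toAdd.2)) fun v w => by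
    rw [toAdd_mul, Prod.fst_add, Prod.snd_add, ← P.st.add 0 1 (by decide),
      ← P.st.add 0 2 (by decide), mul_assoc, mul_assoc, ← mul_assoc (ρ (P.x 0 1 w.toAdd.1)),
      (P.st.comm 0 1 0 2 (by decide) (by decide) (by decide) (by decide) _ _).eq, mul_assoc]

variable (hab : orderOf (T.s a * T.s b) = 3)
include hab

theorem elH_injective : Function.Injective P.elH := by
  refine (injective_iff_map_eq_one _).2 fun v hv => ?_
  have h1 : ρ (P.x 0 1 v.toAdd.1 * P.x 0 2 v.toAdd.2) = ρ 1 := by rw [map_mul, map_one]; exact hv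
  have h2 := smul_eq_of_rho h1 (rs_ap_one (gen_mem_WJ (j := a) (by simp)))
  rw [Subgroup.coe_mul, mul_smul, (P.mem 0 2 (by decide) _).1 _ (self_mem_rt T.cox _ _)] at h2
  have h3 := P.not_fix (i := 0) (j := 1) (by decide) rfl (by simp)
    (not_commute_of_ord hab le_rfl) (h2.trans (one_smul _ _))
  rw [map_mul, h3, P.st.zero (by decide), one_mul, map_one] at h1
  exact Prod.ext h3 (P.inj 0 2 (by decide) _ ((rho_eq_one T).1 h1))

theorem mem02 {g : LJ T {a, b}} {u : F} (h : ρ g = ρ (P.x 0 2 u)) {k : ι}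
    (hk : k ∈ ({a, b} : Set ι)) : g.1 ∈ Kr T (ap T 1) {k} := by
  refine mem_Kr_of_rho h (Rs.refl _ _) (Set.singleton_subset_iff.2 hk) ((P.mem 0 2 (by decide) u).2 1
    (one_mem_bt T.cox (k := 1) (by omega) |> (bt_one a b).subset) (one_mem _) k hk ?_)
  rw [one_mul]
  rcases hk with rfl | rfl
  · exact self_mem_rt T.cox _ _
  · refine (bt_one a k).subset ?_
    rw [← av_one (s := 𝐬) k a, av_mem_bt' T.cox] <;> omega

theorem mem01 {g : LJ T {a, b}} {t : F} (h : ρ g = ρ (P.x 0 1 t)) :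
    g.1 ∈ Kr T (ap T 1) {b} ∧ g.1 ∈ Kr T (ap T (𝐬 b)) {a} := by
  have h1 := mem_XJ_of_rho h (by simp) (P.mem 0 1 (by decide) t)
  have h2 := (gen_mem_rt_one T.cox).2 (ne_of_ord hab (by norm_num))
  exact ⟨h1.2 1 (self_mem_rt T.cox 1 a) (one_mem _) b (by simp) (by rwa [one_mul]),
    h1.2 _ h2 (gen_mem_WJ (by simp)) a (by simp)
      (gen_mul_gen_mem_rt T.cox (not_commute_of_ord hab le_rfl) a)⟩

variable (hbc : orderOf (T.s b * T.s c) = 4) (hac : orderOf (T.s a * T.s c) = 2)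
include hbc hac

/-- A central elation of the plane acting trivially on the residue of its centre. -/
theorem exists_cent [Finite G] [Finite F] : ∃ (g : LJ T {a, b}) (t u : F),
    ρ g = ρ (P.x 0 1 t) * ρ (P.x 0 2 u) ∧ (t ≠ 0 ∨ u ≠ 0) ∧ g.1 ∈ Kr T (ap T 1) {b, c} := by
  have hp : (ringChar F).Prime := CharP.char_is_prime F _
  have ab := ne_of_ord hab (by norm_num)
  have bc := ne_of_ord hbc (by norm_num)
  have ac := ne_of_ord hac (by norm_num)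
  have eac := (commute_iff_two ac).2 hac
  have hq : ringChar F ∣ qq T b := by
    cases nonempty_fintype F
    obtain ⟨n, -, h⟩ := FiniteField.card F (ringChar F)
    rw [← P.card_b, Nat.card_eq_fintype_card, h]
    exact dvd_pow_self _ n.ne_zero
  obtain ⟨S, hS, e⟩ := exists_pLift ρ hp (E := P.elH.range) (IsPGroup.of_surjective
    (fun v => ⟨1, by rw [pow_one, ← ofAdd_toAdd v, ← ofAdd_nsmul]; simp [Prod.ext_iff]⟩) _
      P.elH.rangeRestrict_surjective) (by rintro _ ⟨v, rfl⟩; exact ⟨_, map_mul _ _ _⟩)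
  have ex : ∀ t u, ∃ g ∈ S, ρ g = ρ (P.x 0 1 t) * ρ (P.x 0 2 u) := fun t u =>
    e.ge ⟨Multiplicative.ofAdd (t, u), rfl⟩
  have dec : ∀ Y : Subgroup G, (∀ g ∈ S, ∀ t, ρ g = ρ (P.x 0 1 t) → g.1 ∈ Y) →
      (∀ g ∈ S, ∀ t, ρ g = ρ (P.x 0 2 t) → g.1 ∈ Y) → ∀ g ∈ S, g.1 ∈ Y := by
    intro Y h1 h2 g hg
    obtain ⟨v, hv⟩ := e.le ⟨g, hg, rfl⟩
    obtain ⟨g', hg', e1⟩ := ex v.toAdd.1 0
    rw [P.st.zero (i := 0) (j := 2) (by decide), mul_one] at e1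
    simpa using mul_mem (h1 g' hg' _ e1) (h2 (g'⁻¹ * g) (mul_mem (inv_mem hg') hg) v.toAdd.2 (by
      rw [map_mul, map_inv, e1, ← hv]; exact inv_mul_cancel_left _ _))
  have k1 := dec _ (fun g _ t h => (P.mem01 hab h).1) fun g _ t h => P.mem02 hab h (by simp)
  have k2 : ∀ g ∈ S, ∀ v ∈ WJ 𝐬 {b, c}, g.1 • ap T v = ap T v := fun g hg v hv =>
    fix_of_LJ g.2 (b := b) (by simp) (by simp [ac.symm, bc.symm]) (Kr_self (k1 g hg))
      (k1 g hg _ (rs_gen (dist_ap_one _))) hv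
  have hb : 𝐬 b ∈ WJ 𝐬 {b, c} := gen_mem_WJ (by simp)
  have hc : 𝐬 c ∈ WJ 𝐬 {b, c} := gen_mem_WJ (by simp)
  have k3 : ∀ g ∈ S, ∀ x ∈ WJ 𝐬 {b, c}, g.1 ∈ Kr T (ap T x) {a} →
      g.1 ∈ Kr T (ap T (x * 𝐬 c)) {b} := fun g hg x hx h => by
    obtain ⟨k, hk⟩ := hS ⟨g, hg⟩
    refine P.elat_a g.1 k _ _ ?_ (Kr_par_gen h ac eac (k2 g hg _ (mul_mem hx hc)))
      (dist_ap_mul _ _) (k2 g hg _ (mul_mem (mul_mem hx hc) hb))
    rw [show g.1 ^ ringChar F ^ k = 1 by simpa [Subtype.ext_iff] using hk]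
    exact one_mem _
  have k4 : ∀ g ∈ S, g.1 ∈ Kr T (ap T (𝐬 c)) {b} := by
    refine dec _ (fun g hg t h => ?_) fun g hg t h => by
      simpa using k3 g hg 1 (one_mem _) (P.mem02 hab h (by simp))
    have h1 := k3 g hg _ hb (P.mem01 hab h).2
    obtain ⟨h2, h3⟩ := braid_of_four hbc
    rw [← Kr_ap_gen] at h1 ⊢
    have h4 : 𝐬 b * 𝐬 c * 𝐬 b * (𝐬 c * 𝐬 b * 𝐬 c) = 𝐬 c * 𝐬 b := by
      rw [show 𝐬 b * 𝐬 c * 𝐬 b * (𝐬 c * 𝐬 b * 𝐬 c) = 𝐬 b * (𝐬 c * 𝐬 b * 𝐬 c) * 𝐬 b * 𝐬 c by group,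
        h2, cancel_r T.cox, cancel_r T.cox]
    exact h4 ▸ Kr_par_ap h1 h2 h3 (k2 g hg _ (h4.symm ▸ mul_mem hc hb))
  have h5 := relIndex_lt_of_four hbc hp hq (hS.map (LJ T {a, b}).subtype)
    (by rintro _ ⟨g, hg, rfl⟩; exact k2 g hg) (by rintro _ ⟨g, hg, rfl⟩; exact k1 g hg)
    (by rintro _ ⟨g, hg, rfl⟩; exact k4 g hg)
  by_contra! hn
  refine h5.not_ge ?_
  rw [← Subgroup.relIndex_comap, ← Subgroup.inf_relIndex_right]
  refine le_trans ?_ (Subgroup.relIndex_le_of_le_left (K := (ρ).ker) (fun g ⟨h1, hg⟩ => ?_)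
    Subgroup.FiniteIndex.index_ne_zero)
  · rw [Subgroup.relIndex_ker, e, ← Nat.card_congr (P.elH.ofInjective (P.elH_injective hab)).toEquiv,
      Nat.card_congr Multiplicative.toAdd, Nat.card_prod, P.card_b, sq]
  · obtain ⟨v, hv⟩ := e.le ⟨g, hg, rfl⟩
    by_contra h
    refine hn g _ _ hv.symm ?_ (rigid_ap (by simpa using k2 g hg) ?_)
    · by_contra! h2
      exact h (by rw [MonoidHom.mem_ker, ← hv, show v = 1 from Prod.ext h2.1 h2.2, map_one])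
    · rintro j (rfl | rfl)
      exacts [k1 g hg, h1]

theorem mem_Kr_plane {g : G} (h1 : g ∈ XJ T {a, b} (rt 𝐬 1 b)) (h2 : g ∈ Kr T (ap T (𝐬 a)) {b, c}) :
    g ∈ Kr T (ap T (𝐬 c)) {a, b} := by
  have ab := ne_of_ord hab (by norm_num)
  have ac := ne_of_ord hac (by norm_num)
  have eac := (commute_iff_two ac).2 hac
  have hc : 𝐬 c ∈ WJ 𝐬 {b, c} := gen_mem_WJ (by simp)
  have h3 := mem_Kr.1 h2 _ (rs_ap_mul _ hc)
  have h4 := h1.2 1 (self_mem_rt T.cox 1 b) (one_mem _) a (by simp)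
    (by rw [one_mul, gen_mem_rt_one T.cox]; exact ab.symm)
  rw [← Kr_ap_gen, one_mul] at h4
  rw [← Kr_ap_mul _ (gen_mem_WJ (j := a) (by simp)), ← eac]
  refine rigid_smul h3 ?_ (y := ap T (𝐬 a * 𝐬 c * wJ T {a, b})) (by
    rw [dist_ap_mul]; exact isTop_wJ _) (h1.1 _ ?_)
  · rintro j (rfl | rfl)
    exacts [Kr_par_gen h4 ac eac h3, Kr_le_one hc (by simp) h2]
  · rw [wJ_pair, hab, av_three, eac, ← mul_assoc, ← mul_assoc, cancel_r T.cox]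
    exact (inJ_rt (J := {b, c}) (one_mem _) (by simp)).mul_gen_mem T.cox
      (mul_mem hc (gen_mem_WJ (by simp)))
      (gen_mul_gen_mem_rt T.cox (not_commute_of_ord hbc (by norm_num)) b) (by simp [ab, ac])

include P in
theorem exists_root [Finite G] [Finite F] :
    ∃ g ∈ XJ T {a, b} (rt 𝐬 1 b) ⊓ XJ T {b, c} (rt 𝐬 1 b), g • ap T (𝐬 b) ≠ ap T (𝐬 b) := by
  have hp : (ringChar F).Prime := CharP.char_is_prime F _
  have ab := ne_of_ord hab (by norm_num)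
  have bc := ne_of_ord hbc (by norm_num)
  have ac := ne_of_ord hac (by norm_num)
  have eac := (commute_iff_two ac).2 hac
  have nab := not_commute_of_ord hab le_rfl
  have hb : 𝐬 b ∈ WJ 𝐬 {b, c} := gen_mem_WJ (by simp)
  have hc : 𝐬 c ∈ WJ 𝐬 {b, c} := gen_mem_WJ (by simp)
  have hb' : Rs T {a, b} (ap T 1) (ap T (𝐬 b)) := rs_ap_one (gen_mem_WJ (by simp))
  have nf : ∀ (g : LJ T {a, b}) v, v ≠ 0 → ρ g = ρ (P.x 1 2 v) → g.1 • ap T (𝐬 b) ≠ ap T (𝐬 b) :=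
    fun g v hv h h' => hv (P.not_fix (i := 1) (j := 2) (by decide) rfl (by simp) nab.symm
      ((smul_eq_of_rho h hb').symm.trans h'))
  have cj : ∀ {k l : Fin 3}, k ≠ l → ∀ {i j : Fin 3}, i ≠ j → ∀ {g : LJ T {a, b}} {u : F}, u ≠ 0 →
      ρ g = ρ (P.x i j u) → ∃ v ≠ 0, ρ (wE P.x k l 1 * g * (wE P.x k l 1)⁻¹) =
        ρ (P.x (Equiv.swap k l i) (Equiv.swap k l j) v) := by
    intro k l hkl i j hij g u hu h
    have h1 := P.st.act_w (by simp) hkl one_ne_zero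
    exact ⟨_, div_ne_zero (mul_ne_zero (h1.1 i) hu) (h1.1 j), by
      rw [map_mul, map_mul, map_inv, h, P.rho_w]; exact h1.2 i j hij u⟩
  obtain ⟨z, u, hu, ez, hz⟩ : ∃ (z : LJ T {a, b}) (u : F), u ≠ 0 ∧ ρ z = ρ (P.x 0 2 u) ∧
      z.1 ∈ Kr T (ap T 1) {b, c} := by
    obtain ⟨y, t, u, e, h1, h2⟩ := P.exists_cent hab hbc hac
    by_cases ht : t = 0
    · exact ⟨y, u, h1.resolve_left (by simp [ht]), by rw [e, ht, P.st.zero (by decide), one_mul], h2⟩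
    refine ⟨y⁻¹ * (P.x 1 2 1 * y * (P.x 1 2 1)⁻¹), -t, neg_ne_zero.2 ht, ?_, mul_mem (inv_mem h2)
      (conj_mem_Kr' h2 (by
        rw [(P.mem 1 2 (by decide) 1).1 1 (self_mem_rt T.cox 1 b)]; exact Rs.refl _ _))⟩
    rw [map_mul, map_mul, map_mul, map_inv, map_inv, e, P.st.conj_row (i := 1) (j := 2) (k := 0)
      (by decide) (by decide) (by decide), mul_inv_rev, mul_assoc, inv_mul_cancel_left,
      P.st.inv (by decide), P.st.add 0 2 (by decide)]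
    congr 2; ring
  have na := P.mv_a one_ne_zero
  obtain ⟨u', hu', ez'⟩ := cj (k := 1) (l := 2) (by decide) (by decide) hu ez
  have hz' := (P.mv_b one_ne_zero).conj_mem_Kr hz
  rw [mul_one, ← one_mul (𝐬 b), Kr_ap_mul _ hb] at hz'
  obtain ⟨u1, hu1, ez1⟩ := cj (k := 0) (l := 1) (by decide) (by decide) hu' ez'
  have hz1 := na.conj_mem_Kr hz'
  have fz1 := na.conj_mem_Fx (mem_XJ_of_rho ez' (i := a) (by simp) (P.mem 0 1 (by decide) u')).1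
    (𝐬 a * (𝐬 c * (𝐬 b * 𝐬 a))) (by
      rw [mul_mem_tr, ← rt_eq_of_conj T.cox eac (fun h => ac ((RD_gen T.cox).1 h)),
        ← mul_one (𝐬 c), ← tr_rt, mul_one, mul_mem_tr]
      exact gen_mul_gen_mem_rt T.cox nab a)
  obtain ⟨v, hv, eg⟩ := cj (k := 0) (l := 1) (by decide) (by decide) hu ez
  have hg := na.conj_mem_Kr hz
  rw [mul_one] at hg hz1
  have xg := mem_XJ_of_rho eg (i := b) (by simp) (P.mem 1 2 (by decide) v)
  set g := (wE P.x 0 1 1 * z * (wE P.x 0 1 1)⁻¹ : LJ T {a, b})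
  obtain ⟨m, k, hk⟩ := exists_pPart hp g.1
  obtain ⟨n, hn⟩ := exists_mv T (𝐬 c * 𝐬 b * 𝐬 c)
  obtain ⟨b1, b2⟩ := braid_of_four hbc
  have f2 := hn.conj_mem_Fx (pow_mem xg.1 (ringChar F * m + 1))
  rw [tr_rt, mul_one, rt_eq_of_conj T.cox b1 b2] at f2
  have k2 := hn.conj_mem_Kr (pow_mem (mem_Kr_plane hab hbc hac xg hg) (ringChar F * m + 1))
  rw [cancel_r T.cox, Kr_ap_mul _ (gen_mem_WJ (by simp))] at k2
  have k3 := hn.conj_mem_Kr (pow_mem hg (ringChar F * m + 1))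
  have k4 := Kr_par_gen (Kr_mono (K := {a}) (by simp) (Rs.refl _ _) k2) ac eac (by
    rw [T.cox.sq]; exact f2 1 (self_mem_rt T.cox 1 b))
  rw [T.cox.sq] at k4
  have x2 : n * g.1 ^ (ringChar F * m + 1) * n⁻¹ ∈ XJ T {a, b} (rt 𝐬 1 b) := by
    refine mem_XJ_pair f2 fun r hr => ?_
    rw [hab] at hr
    obtain rfl | rfl : r = 0 ∨ r = 1 := by omega
    · exact k4
    · rw [av_one]
      refine P.elat_a _ k _ _ (by rw [conj_pow, hk]; simp) ?_ (dist_ap_mul _ _)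
        (f2 _ (gen_mul_gen_mem_rt T.cox nab.symm b))
      rwa [← one_mul (𝐬 a), Kr_ap_gen]
  obtain ⟨v2, e2⟩ := P.surj 1 2 (by decide) _ x2
  have hv2 : v2 ≠ 0 := by
    rintro rfl
    have h1 := (hn.inv.mul (mv_one_of_Fx f2 ((smul_eq_of_Kr e2 hb').symm.trans
      (P.x_zero (by decide) _ hb')))).mul hn
    rw [mul_one, inv_mul_cancel] at h1
    refine nf g v hv eg ?_
    simpa [mul_assoc, pow_succ', mul_smul, pow_mul, mem_Kr.1
      (pow_mem (P.pow_char hab (i := 1) (j := 2) (by decide) xg) m) _ hb'] using h1.fix (𝐬 b)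
  obtain ⟨v3, hv3, e3⟩ := cj (k := 0) (l := 1) (by decide) (by decide) hv2
    ((rho_eq_iff T (g := ⟨_, Fx_le_LJ (inJ_rA hab (i := 1) (j := 2) (by decide)) f2⟩)).2 e2)
  have k5 := na.conj_mem_Kr k3
  rw [mul_assoc _ (𝐬 c), ← eac, show 𝐬 a * (𝐬 c * 𝐬 b * (𝐬 a * 𝐬 c)) =
    𝐬 a * (𝐬 c * (𝐬 b * 𝐬 a)) * 𝐬 c by simp only [mul_assoc], Kr_ap_mul _ hc] at k5
  have k6 := comm_mem_Kr hz1 (n := (wE P.x 0 1 1).1 * (n * g.1 ^ (ringChar F * m + 1) * n⁻¹) *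
    ((wE P.x 0 1 1).1)⁻¹) (by
      rw [na.conj_mem_Fx f2 (𝐬 a) (by
        rw [tr_rt, mul_one]; exact self_mem_rt T.cox _ _)]; exact Rs.refl _ _)
  have k7 := comm_mem_Kr' k5 (by rw [fz1]; exact Rs.refl _ _)
  have e4 := P.st.cmt 1 0 2 (by decide) (by decide) (by decide) u1 v3
  erw [← ez1, ← e3] at e4
  simp only [← map_inv, ← map_mul] at e4
  have x4 := mem_XJ_of_rho e4 (i := b) (by simp) (P.mem 1 2 (by decide) _)
  refine ⟨_, ⟨x4, ?_⟩, nf _ _ (mul_ne_zero hu1 hv3) e4⟩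
  rw [Set.pair_comm]
  refine mem_XJ_pair x4.1 fun r hr => ?_
  rw [ord_comm T.cox, hbc] at hr
  obtain rfl | rfl | rfl : r = 0 ∨ r = 1 ∨ r = 2 := by omega
  · have := Kr_par_gen (Kr_mono (K := {c}) (by simp) (Rs.refl _ _) k6) ac.symm eac.symm (by
      rw [T.cox.sq]; exact x4.1 1 (self_mem_rt T.cox 1 b))
    rwa [T.cox.sq] at this
  · rw [av_one]
    exact Kr_mono (by simp [lt]) (Rs.refl _ _) (mem_Kr_plane hab hbc hac x4 k6)
  · rw [← mul_assoc (𝐬 a), eac, mul_assoc (𝐬 c), ← mul_assoc (𝐬 a), braid_of_three hab,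
      ← mul_assoc (𝐬 c), Kr_ap_mul _ hb, ← mul_assoc (𝐬 c)] at k7
    have := Kr_par_gen (Kr_mono (K := {c}) (by simp) (Rs.refl _ _) k7) ac.symm eac.symm (by
      rw [cancel_r T.cox]
      exact x4.1 _ (gen_mul_gen_mem_rt T.cox (not_commute_of_ord hbc (by norm_num)) b))
    rwa [cancel_r T.cox, ← av_two] at this

end PlaneSys

theorem mouf_C3 [Finite G] {a b c : ι} (hab : orderOf (T.s a * T.s b) = 3)
    (hbc : orderOf (T.s b * T.s c) = 4) (hac : orderOf (T.s a * T.s c) = 2) {y : Ch T}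
    (hy : dist T (ap T 1) y = T.s b) :
    ∃ g ∈ XJ T {a, b} (rt T.s 1 b) ⊓ XJ T {b, c} (rt T.s 1 b), g • ap T (T.s b) = y := by
  obtain ⟨F, _, _, ⟨P⟩⟩ := exists_planeSys hab
  obtain ⟨g, hg, h⟩ := P.exists_root hab hbc hac
  by_cases hy' : y = ap T (𝐬 b)
  · exact ⟨1, one_mem _, by rw [one_smul, hy']⟩
  obtain ⟨n, hn, rfl⟩ := P.exists_H ((dist_of_fix (hg.1.1 1 (self_mem_rt T.cox 1 b)) _).trans
    (dist_ap_one _)) hy h hy'
  have h1 := hn.inv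
  rw [inv_one] at h1
  exact ⟨n * g * n⁻¹, ⟨conj_mem_XJ_of_Fx (hn.mem_Fx _) hg.1, conj_mem_XJ_of_Fx (hn.mem_Fx _) hg.2⟩,
    by rw [mul_smul, mul_smul, h1.fix]⟩

end Cfsg.Agent.BNP
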