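import Mathlib
import Cfsg.Agent.BNP.Glob

/-!
The Moufang condition at the end node of a double bond `a - b = c`.
-/

set_option autoImplicit false
set_option linter.unusedSectionVars false

namespace Cfsg.Agent.BNP

open Cfsg.Agent.Chev Cfsg.Agent.St

variable {G ι W : Type*} [Group G] [Group W] {T : Tits G ι W} [Finite W]

set_option hygiene false in
local notation "δ" => dist T
set_option hygiene false in
local notation "𝐬" => T.s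
set_option hygiene false in
local notation "ℓ" => wlen T.s

theorem me_not_LD_mul {J : Set ι} {i : ι} {d v : W} (h1 : ∀ j ∈ J, ¬ RD 𝐬 (𝐬 i * d) j)
    (h2 : ¬ LD 𝐬 d i) (hv : v ∈ WJ 𝐬 J) : ¬ LD 𝐬 (d * v) i := by
  have h3 := T.cox.wlen_mul_of_not_RD h1 hv
  have h4 := T.cox.not_LD_iff.1 h2
  have h5 := T.cox.inv.wlen_mul_le d v
  unfold LD
  rw [← mul_assoc]
  omega

theorem me_pair {a b : ι} {g : G} {x : W}
    (h : ∀ k, k + 2 ≤ orderOf (𝐬 a * 𝐬 b) → g ∈ Kr T (ap T (x * av 𝐬 a b k)) {lt a b k}) {v : W}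
    (hv : v ∈ WJ 𝐬 {a, b}) {l : ι} (hl : l ∈ ({a, b} : Set ι)) (hx : v ∈ rt 𝐬 1 b)
    (hl' : v * 𝐬 l ∈ rt 𝐬 1 b) : g ∈ Kr T (ap T (x * v)) {l} := by
  have hm := ord_pos T.cox a b
  obtain ⟨k, hk, e⟩ := eq_av T.cox hv
  have e' : v = av 𝐬 a b k := e.elim id fun e => by
    rw [← bt_last a b, e, av_mem_bt' T.cox hk (by omega)] at hx
    rw [e, show k = 0 by omega]; rfl
  subst e'
  rw [← bt_last a b] at hx hl'
  rw [av_mem_bt T.cox hk (by omega)] at hx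
  rcases eq_lt_or hl k with rfl | rfl
  · rw [← av_succ', av_mem_bt T.cox (by omega) (by omega)] at hl'
    exact h k (by omega)
  · cases k with
    | zero => exact absurd (bt_last (T := T) a b ▸ hl') (mul_gen_notMem_rt T.cox 1 b)
    | succ k => rw [av_succ', lt_succ, ← mul_assoc, Kr_ap_gen]; exact h k (by omega)

theorem me_mem_rt {x v : W} {i : ι} : x * v ∈ rt 𝐬 x i ↔ v ∈ rt 𝐬 1 i := by
  rw [mem_rt, mem_rt, inv_mul_cancel_left, inv_one, one_mul]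

variable (T) in
/-- The shape of the diagram near an end node `c` of a double bond. -/
structure EndH (a b c : ι) : Prop where
  hab : orderOf (𝐬 a * 𝐬 b) = 3
  hbc : orderOf (𝐬 b * 𝐬 c) = 4
  hc : ∀ k, k ≠ b → 𝐬 k * 𝐬 c = 𝐬 c * 𝐬 k
  hb : ∀ k, k ≠ a → k ≠ c → 𝐬 k * 𝐬 b = 𝐬 b * 𝐬 k

variable (T) in
/-- Triviality on the panels near a boundary chamber. -/
def PPe (b c : ι) (g : G) (x : W) : Prop :=
  (∀ k, k ≠ c → g ∈ Kr T (ap T x) {k}) ∧ g ∈ Kr T (ap T (x * 𝐬 b)) {c}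

variable (T) in
/-- The group generated by the long root groups through a point. -/
def QQe (a b c : ι) : Subgroup G where
  carrier := {g | g ∈ LJ T {b, c} ∧ (∀ k, k ≠ b → g ∈ Kr T (ap T 1) {k}) ∧
    g ∈ Kr T (ap T (𝐬 a)) {b, c}}
  one_mem' := ⟨one_mem _, fun _ _ => one_mem _, one_mem _⟩
  mul_mem' h h' := ⟨mul_mem h.1 h'.1, fun k hk => mul_mem (h.2.1 k hk) (h'.2.1 k hk),
    mul_mem h.2.2 h'.2.2⟩
  inv_mem' h := ⟨inv_mem h.1, fun k hk => inv_mem (h.2.1 k hk), inv_mem h.2.2⟩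

namespace EndH

variable {a b c : ι} (H : EndH T a b c)
include H

theorem hba : orderOf (𝐬 b * 𝐬 a) = 3 := by rw [ord_comm T.cox, H.hab]

theorem hcb : orderOf (𝐬 c * 𝐬 b) = 4 := by rw [ord_comm T.cox, H.hbc]

theorem ab : a ≠ b := ne_of_ord H.hab (by omega)

theorem bc : b ≠ c := ne_of_ord H.hbc (by omega)

theorem ac : a ≠ c := by
  rintro rfl
  have := H.hab.symm.trans H.hcb
  omega

theorem cac : 𝐬 a * 𝐬 c = 𝐬 c * 𝐬 a := H.hc a H.ab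

theorem braid : 𝐬 b * 𝐬 c * 𝐬 b * 𝐬 c = 𝐬 c * 𝐬 b * 𝐬 c * 𝐬 b := by
  have := av_ord T.cox b c
  rw [H.hbc] at this
  simpa [av_succ, mul_assoc] using this

theorem wJ_eq : wJ T {b, c} = 𝐬 c * 𝐬 b * 𝐬 c * 𝐬 b := by
  rw [wJ_pair, H.hbc, ← H.braid]; simp [av_succ, mul_assoc]

theorem l_bc : ℓ (𝐬 b * 𝐬 c) = 2 := by
  rw [← av_two]; exact wlen_av T.cox (by rw [H.hbc]; omega)

theorem l_cb : ℓ (𝐬 c * 𝐬 b) = 2 := by
  rw [← av_two]; exact wlen_av T.cox (by rw [H.hcb]; omega)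

theorem l_bcb : ℓ (𝐬 b * 𝐬 c * 𝐬 b) = 3 := by
  rw [← av_three]; exact wlen_av T.cox (by rw [H.hbc]; omega)

theorem l_cbc : ℓ (𝐬 c * 𝐬 b * 𝐬 c) = 3 := by
  rw [← av_three]; exact wlen_av T.cox (by rw [H.hcb]; omega)

theorem l_cbcb : ℓ (𝐬 c * 𝐬 b * 𝐬 c * 𝐬 b) = 4 := by
  have := wlen_av T.cox (a := c) (b := b) (k := 4) (by rw [H.hcb])
  simpa [av_succ, mul_assoc] using this

theorem l_ba : ℓ (𝐬 b * 𝐬 a) = 2 := by
  rw [← av_two]; exact wlen_av T.cox (by rw [H.hba]; omega)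

theorem l_bab : ℓ (𝐬 b * 𝐬 a * 𝐬 b) = 3 := by
  rw [← av_three]; exact wlen_av T.cox (by rw [H.hba])

theorem l_c_mul {v : W} (hv : v ∈ WJ 𝐬 {b, a}) : ℓ (𝐬 c * v) = ℓ v + 1 := by
  rw [T.cox.wlen_mul_of_not_RD (J := {b, a}) _ hv, T.cox.wlen_gen, add_comm]
  rintro j (rfl | rfl) <;> rw [RD_gen T.cox]
  exacts [H.bc, H.ac]

theorem l_mul_a {v : W} (hv : v ∈ WJ 𝐬 {b, c}) : ℓ (v * 𝐬 a) = ℓ v + 1 := by
  rw [T.cox.wlen_mul_of_not_LD (K := {b, c}) _ hv, T.cox.wlen_gen]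
  rintro j (rfl | rfl) <;> rw [LD_gen T.cox]
  exacts [H.ab.symm, H.ac.symm]

theorem a_mul_mem {v : W} (hv : v ∈ WJ 𝐬 {b, c}) : 𝐬 a * v ∈ rt 𝐬 1 b := by
  rw [mem_rt, inv_one, one_mul]
  refine me_not_LD_mul ?_ (by rw [LD_gen T.cox]; exact H.ab.symm) hv
  rintro j (rfl | rfl) <;> rw [T.cox.not_RD_iff, H.l_ba]
  · exact H.l_bab
  · rw [mul_assoc, H.cac, ← mul_assoc, H.l_mul_a (av_two (s := 𝐬) b j ▸ av_mem b j 2), H.l_bc]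

theorem ba_mul_mem {v : W} (hv : v ∈ WJ 𝐬 {b, c}) : 𝐬 b * 𝐬 a * v ∈ rt 𝐬 1 c := by
  rw [mem_rt, inv_one, one_mul]
  have h1 := H.l_c_mul (av_two (s := 𝐬) b a ▸ av_mem b a 2)
  refine me_not_LD_mul ?_ (T.cox.not_LD_iff.2 h1) hv
  rintro j (rfl | rfl) <;> rw [T.cox.not_RD_iff, h1, H.l_ba]
  · rw [mul_assoc, H.l_c_mul (av_three (s := 𝐬) j a ▸ av_mem j a 3), H.l_bab]
  · rw [mul_assoc, mul_assoc, H.cac, ← mul_assoc, ← mul_assoc,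
      H.l_mul_a (av_three (s := 𝐬) j b ▸ av_mem' b j 3), H.l_cbc]

theorem av_mem_c {k : ℕ} (hk : k ≤ 3) : av 𝐬 b c k ∈ rt 𝐬 1 c := by
  rw [← bt_zero c b, av_mem_bt' T.cox (by rw [H.hcb]; omega) (by rw [H.hcb]; omega), H.hcb]
  omega

theorem type_c {w x : W} {l : ι} (e : rt 𝐬 w l = rt 𝐬 x c) : l = c := by
  have e' : rt 𝐬 (x⁻¹ * w) l = rt 𝐬 1 c := by
    rw [← tr_rt, e, tr_rt, inv_mul_cancel]
  refine groupoid T.cox (P := fun _ i j => j = c → i = c) (fun _ h => h) ?_ e' rfl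
  rintro - i j l k v hk hv (rfl | rfl) e1 - ih hj
  · exact ih hj
  · obtain rfl := ih hj
    have h1 := odd_of_rt_eq hk.symm hv e1
    by_cases hi : i = b
    · rw [hi, H.hbc] at h1; exact absurd h1 (by decide)
    · rw [(commute_iff_two hk.symm).1 (H.hc i hi)] at h1; exact absurd h1 (by decide)

theorem uncut {x0 x v : W} {J : Set ι} (hJ : c ∉ J) (hx : x ∈ rt 𝐬 x0 c) (hv : v ∈ WJ 𝐬 J) :
    x * v ∈ rt 𝐬 x0 c := by
  refine (isRt_rt x0 c).mul_mem_of_not_inJ hx ?_ hv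
  rintro ⟨w, -, l, hl, e⟩
  rw [tr_rt] at e
  exact hJ (H.type_c e.symm ▸ hl)

section Glob

variable {g : G} {x : W} (hg : g ∈ Fx T (rt 𝐬 x c)) (hP : PPe T b c g x)
include hg hP

theorem u1 {J : Set ι} (hJ : c ∉ J) : g ∈ Kr T (ap T x) J :=
  mem_Kr_of_subset hg (fun _ hv => H.uncut hJ (self_mem_rt T.cox x c) hv)
    fun j hj => hP.1 j fun e => hJ (e ▸ hj)

theorem u2 : g ∈ Kr T (ap T (x * (𝐬 b * 𝐬 a))) {b, c} := by
  have h1 : ∀ v ∈ WJ 𝐬 {b, c}, x * (𝐬 b * 𝐬 a) * v ∈ rt 𝐬 x c := fun v hv => by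
    rw [mul_assoc, me_mem_rt]; exact H.ba_mul_mem hv
  refine mem_Kr_of_subset hg h1 ?_
  rintro j (rfl | rfl)
  · exact Kr_le_one (av_two (s := 𝐬) j a ▸ av_mem j a 2) (by simp)
      (H.u1 hg hP (by simp [H.bc.symm, H.ac.symm]))
  · rw [← mul_assoc]
    refine Kr_par_gen hP.2 H.ac.symm H.cac.symm (hg _ ?_)
    simpa [mul_assoc] using h1 1 (one_mem _)

theorem u3 : g ∈ Kr T (ap T (x * 𝐬 b * 𝐬 c)) {a, b} := by
  have h1 : x * 𝐬 b * 𝐬 c ∈ rt 𝐬 x c := by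
    rw [mul_assoc, me_mem_rt, ← av_two]; exact H.av_mem_c (by omega)
  have hJ : c ∉ ({a, b} : Set ι) := by simp [H.bc.symm, H.ac.symm]
  rw [← Kr_ap_mul _ (gen_mem_WJ (show a ∈ ({a, b} : Set ι) by simp))]
  refine mem_Kr_of_subset hg (fun v hv => H.uncut hJ
    (H.uncut hJ h1 (gen_mem_WJ (by simp))) hv) ?_
  rintro j (rfl | rfl)
  · rw [Kr_ap_gen]
    exact Kr_par_gen (Kr_le_one (gen_mem_WJ (by simp)) (by simp) (H.u1 hg hP hJ)) H.ac H.cac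
      (hg _ h1)
  · rw [mul_assoc, ← H.cac, ← mul_assoc, mul_assoc x]
    exact Kr_le_one (gen_mem_WJ (by simp)) (by simp) (H.u2 hg hP)

theorem move_k {k : ι} (hb : k ≠ b) (hc : k ≠ c) : PPe T b c g (x * 𝐬 k) := by
  refine ⟨fun j hj => Kr_le_one (J := {j, k}) (gen_mem_WJ (by simp)) (by simp)
    (H.u1 hg hP (by simp [hj.symm, hc.symm])), ?_⟩
  have h1 : x * 𝐬 k * 𝐬 b ∈ rt 𝐬 x c := by
    rw [mul_assoc]
    exact H.uncut (J := {k, b}) (by simp [H.bc.symm, hc.symm]) (self_mem_rt T.cox x c)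
      (av_two (s := 𝐬) k b ▸ av_mem k b 2)
  by_cases ha : k = a
  · subst ha
    have h2 := Kr_le_one (gen_mem_WJ (show b ∈ ({b, c} : Set ι) by simp))
      (show c ∈ ({b, c} : Set ι) by simp) (H.u2 hg hP)
    rw [mul_assoc, ← braid_of_three H.hab, ← mul_assoc, ← mul_assoc] at h2
    have h3 := Kr_par_gen h2 H.ac.symm H.cac.symm (by rw [cancel_r T.cox]; exact hg _ h1)
    rwa [cancel_r T.cox] at h3
  · rw [mul_assoc, H.hb k ha hc, ← mul_assoc] at h1 ⊢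
    exact Kr_par_gen hP.2 hc.symm (H.hc k hb).symm (hg _ h1)

theorem move_b : PPe T b c g (x * (𝐬 b * 𝐬 c * 𝐬 b)) := by
  refine ⟨fun j hj => ?_, ?_⟩
  · by_cases h1 : j ∈ ({a, b} : Set ι)
    · rw [← mul_assoc, ← mul_assoc]
      exact Kr_le_one (gen_mem_WJ (by simp)) h1 (H.u3 hg hP)
    · simp only [Set.mem_insert_iff, Set.mem_singleton_iff, not_or] at h1
      refine Kr_par_ap (hP.1 j hj) ?_ (fun hd => ?_) (hg _ ?_)
      · exact (((show Commute _ _ from H.hb j h1.1 hj).mul_right (H.hc j h1.2)).mul_right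
          (H.hb j h1.1 hj)).eq
      · rcases T.cox.mem_of_RD (av_three (s := 𝐬) b c ▸ av_mem b c 3) hd with e | e
        exacts [h1.2 e, hj e]
      · rw [me_mem_rt, ← av_three]; exact H.av_mem_c le_rfl
  · rw [mul_assoc, cancel_r T.cox, ← mul_assoc, Kr_ap_gen]; exact hP.2

theorem move {k : ι} (hk : k ≠ c) {v : W} (hv : v ∈ WJ 𝐬 {c, k}) (e : rt 𝐬 v c = rt 𝐬 1 c) :
    PPe T b c g (x * v) := by
  have h1 : v ∈ bt 𝐬 c k 0 := by rw [bt_zero, ← e]; exact self_mem_rt T.cox v c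
  have h2 : v * 𝐬 c ∉ rt 𝐬 1 c := e ▸ mul_gen_notMem_rt T.cox v c
  have hm := ord_pos T.cox c k
  obtain ⟨r, hr, rfl | rfl⟩ := eq_av T.cox hv
  · rw [av_mem_bt T.cox hr hm] at h1
    rw [show r = 0 by omega, av_zero, mul_one]; exact hP
  rw [av_mem_bt' T.cox hr hm] at h1
  by_cases hb : k = b
  · subst hb
    rw [H.hcb] at h1
    obtain rfl | rfl | rfl | rfl : r = 0 ∨ r = 1 ∨ r = 2 ∨ r = 3 := by omega
    · rw [av_zero, mul_one]; exact hP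
    · rw [av_one, ← av_two] at h2; exact absurd (H.av_mem_c (by omega)) h2
    · rw [av_two, cancel_r T.cox, ← av_one (s := 𝐬) k c] at h2; exact absurd (H.av_mem_c (by omega)) h2
    · rw [av_three]; exact H.move_b hg hP
  · rw [(commute_iff_two hk.symm).1 (H.hc k hb).symm] at h1
    obtain rfl | rfl : r = 0 ∨ r = 1 := by omega
    · rw [av_zero, mul_one]; exact hP
    · rw [av_one]; exact H.move_k hg hP hb hk

theorem all {y : W} (e : rt 𝐬 y c = rt 𝐬 x c) : PPe T b c g y := by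
  have e' : rt 𝐬 (x⁻¹ * y) c = rt 𝐬 1 c := by
    rw [← tr_rt, e, tr_rt, inv_mul_cancel]
  have := groupoid T.cox (P := fun w i j => j = c → i = c → PPe T b c g (x * w))
    (fun _ _ _ => by rwa [mul_one]) ?_ e' rfl rfl
  · rwa [mul_inv_cancel_left] at this
  rintro u i j l k v hk hv - e1 e2 ih rfl rfl
  obtain rfl := H.type_c e2
  rw [← mul_assoc]
  refine H.move ?_ (ih rfl rfl) hk hv e1
  rwa [← tr_rt, e2, tr_rt, mul_one]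

theorem pair {k : ι} (hk : k ≠ c) {v : W} (hv : v ∈ WJ 𝐬 {k, c}) {l : ι}
    (hl : l ∈ ({k, c} : Set ι)) (h1 : x * v ∈ rt 𝐬 x c) (h2 : x * v * 𝐬 l ∈ rt 𝐬 x c) :
    g ∈ Kr T (ap T (x * v)) {l} := by
  rw [mul_assoc] at h2
  refine me_pair (fun r hr => ?_) hv hl (me_mem_rt.1 h1) (me_mem_rt.1 h2)
  by_cases hb : k = b
  · subst hb
    rw [H.hbc] at hr
    obtain rfl | rfl | rfl : r = 0 ∨ r = 1 ∨ r = 2 := by omega
    · rw [av_zero, mul_one]; exact hP.1 _ hk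
    · rw [av_one]; exact hP.2
    · rw [av_two, ← mul_assoc]
      exact Kr_mono (Set.singleton_subset_iff.2 (show k ∈ ({a, k} : Set ι) by simp))
        (Rs.refl _ _) (H.u3 hg hP)
  · rw [(commute_iff_two hk).1 (H.hc k hb)] at hr
    rw [show r = 0 by omega, av_zero, mul_one]; exact hP.1 _ hk

theorem glob (h1 : (1 : W) ∈ rt 𝐬 x c) (h0 : ∀ k, g ∈ Kr T (ap T 1) {k}) :
    g ∈ X T (rt 𝐬 x c) := by
  refine mem_X_of_cut (isRt_rt x c) h1 hg (fun k _ => h0 k) ?_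
  rintro y i k hik - - - ⟨w, hw, l, hl, e⟩ - v hv l' hl' h2 h3
  have e1 : rt 𝐬 (y * w) l = rt 𝐬 x c := by
    rw [← tr_rt, ← e, tr_tr, mul_inv_cancel, tr_one]
  obtain rfl := H.type_c e1
  obtain ⟨k', hk', e2⟩ : ∃ k', k' ≠ l ∧ ({i, k} : Set ι) = {k', l} := by
    rcases hl with rfl | rfl
    · exact ⟨k, hik.symm, Set.pair_comm _ _⟩
    · exact ⟨i, hik, rfl⟩
  rw [e2] at hw hv hl'
  have e3 : y * v = y * w * (w⁻¹ * v) := by group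
  rw [e3] at h2 h3 ⊢
  rw [← e1] at h2 h3
  exact H.pair (e1 ▸ hg) (H.all hg hP e1) hk' (mul_mem (inv_mem hw) hv) hl' h2 h3

end Glob

theorem X_le_QQ : X T (rt 𝐬 1 b) ≤ QQe T a b c := fun g hg => by
  refine ⟨X_le_LJ (inJ_rt (one_mem _) (by simp)) hg, fun k hk =>
    hg.2 1 (self_mem_rt T.cox 1 b) k (mul_gen_mem_rt T.cox hk.symm),
    mem_Kr_of_subset hg.1 (fun v hv => H.a_mul_mem hv) fun j hj =>
      hg.2 _ ?_ j (H.a_mul_mem (gen_mem_WJ hj))⟩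
  simpa using H.a_mul_mem (one_mem _)

theorem star {n : G} (hn : n ∈ LJ T {b, c}) (h : Rs T {c} (ap T 1) (n • ap T 1)) :
    Rs T {b, c} (ap T (𝐬 a)) (n • ap T (𝐬 a)) := by
  have ha : 𝐬 a ∉ WJ 𝐬 {b, c} := fun h => by
    rcases T.cox.mem_of_gen_mem h with e | e
    exacts [H.ab e, H.ac e]
  have key : ∀ z, δ (ap T 1) z = 𝐬 a → (∃ v ∈ WJ 𝐬 {b, c}, δ z (ap T (w0 T)) = 𝐬 a * v * w0 T) →
      z = ap T (𝐬 a) := by
    rintro z h1 ⟨v, hv, h2⟩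
    have hb := btw_top T.cox isTop_w0 (x := 1) (y := 𝐬 a) (mem_WJ_univ (T := T) _)
    rw [one_mul] at hb
    refine eq_ap_of_btw hb (by rw [h1, inv_one, one_mul]) ?_
    rcases dist_left_gen (dist_gen_symm h1) (ap T (w0 T)) with e | e <;> rw [dist_ap_one] at e
    · rw [e, gen_inv T.cox]
    · rw [h2, mul_eq_right, mul_eq_one_iff_eq_inv] at e
      exact absurd (e ▸ inv_mem hv) ha
  have h1 : ∃ v ∈ WJ 𝐬 {b, c}, δ (n • ap T (𝐬 a)) (ap T (w0 T)) = 𝐬 a * v * w0 T := by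
    obtain ⟨u, hu, e⟩ := (inv_mem hn).2.exists_right (ap T (𝐬 a))
    refine ⟨_, conj_w0_mem' hu, ?_⟩
    rw [dist_smul_left, e, dist_ap, gen_inv T.cox]
    simp only [mul_assoc, wJ_mul_self, mul_one]
  have h2 : δ (n • ap T 1) (n • ap T (𝐬 a)) = 𝐬 a := by rw [dist_smul, dist_ap_one]
  rcases rs_one.1 h with e | e
  · rw [key _ (e ▸ h2) h1]; exact Rs.refl _ _
  · have h3 : δ (ap T 1) (n • ap T (𝐬 a)) = 𝐬 a * 𝐬 c := by
      rw [dist_right_up h2 (by rw [e, RD_gen T.cox]; exact H.ac), e, H.cac]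
    obtain ⟨z, h4, h5⟩ := exists_mid h3
    obtain ⟨v, hv, h6⟩ := h1
    have h7 : Rs T {b, c} z (n • ap T (𝐬 a)) := rs_of_gen (by simp) h5
    suffices e : z = ap T (𝐬 a) by subst e; exact h7
    refine key z h4 ?_
    rcases dist_left_gen h5 (ap T (w0 T)) with e | e
    · refine ⟨_, mul_mem (gen_mem_WJ (show c ∈ ({b, c} : Set ι) by simp)) hv, ?_⟩
      rw [e, h6, ← mul_assoc, ← mul_assoc, ← H.cac, mul_assoc (𝐬 a)]
    · exact ⟨v, hv, e.trans h6⟩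

theorem conj_QQ {n g : G} (hn : n ∈ LJ T {b, c}) (h : Rs T {c} (ap T 1) (n • ap T 1))
    (hg : g ∈ QQe T a b c) : n * g * n⁻¹ ∈ QQe T a b c := by
  refine ⟨mul_mem (mul_mem hn hg.1) (inv_mem hn), fun k hk => ?_,
    conj_mem_Kr' hg.2.2 (H.star hn h)⟩
  have h1 := conj_mem_Kr' (hg.2.1 c H.bc.symm) h
  by_cases hc : k = c
  · rwa [hc]
  have h2 := conj_mem_Kr (hg.2.1 k hk) n
  rcases rs_one.1 h with e | e
  · rwa [← e] at h2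
  · exact FixR.parallel h2 hc (H.hc k hk) (dist_gen_symm e) (Kr_self h1)

theorem trans_t (h : Mouf T b) {t y y' : Ch T}
    (ht : δ (ap T 1) t = 𝐬 b * 𝐬 c ∨ δ (ap T 1) t = 𝐬 c * 𝐬 b * 𝐬 c) (hy : δ t y = 𝐬 b)
    (hy' : δ t y' = 𝐬 b) : ∃ g ∈ QQe T a b c, g • y = y' := by
  obtain ⟨x, h1, h2⟩ : ∃ x, Rs T {c} (ap T 1) x ∧ δ x t = 𝐬 c * 𝐬 b * 𝐬 c := by
    rcases ht with e | e
    · obtain ⟨x, hx⟩ := exists_dist (ap T 1) (𝐬 c)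
      refine ⟨x, rs_gen hx, ?_⟩
      rw [dist_left_up (dist_gen_symm hx) (by
        rw [e, T.cox.not_LD_iff, ← mul_assoc, H.l_cbc, H.l_bc]), e, mul_assoc]
    · exact ⟨_, Rs.refl _ _, e⟩
  obtain ⟨n, hn, e1, e2⟩ := exists_LJ (J := {b, c}) (h1.mono (by simp)) (y := t) (by
    rw [Rs, h2, ← av_three]; exact av_mem' b c 3)
  rw [h2] at e2
  have e3 : rt 𝐬 (𝐬 c * 𝐬 b * 𝐬 c) b = rt 𝐬 1 b := by
    have := bt_last (T := T) c b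
    rwa [H.hcb, bt, av_three] at this
  have key : ∀ y, δ t y = 𝐬 b → ∃ g ∈ QQe T a b c,
      g • ap T (𝐬 c * 𝐬 b * 𝐬 c * 𝐬 b) = n⁻¹ • y := fun y hy => by
    obtain ⟨g, h3, h4⟩ := h.exists_X e3 (y := n⁻¹ • y) (by rw [← dist_smul_left, e2, hy])
    exact ⟨g, H.X_le_QQ (e3 ▸ h3), h4⟩
  obtain ⟨g, h3, h4⟩ := key y hy
  obtain ⟨g', h5, h6⟩ := key y' hy'
  refine ⟨_, H.conj_QQ hn (e1 ▸ h1) (mul_mem h5 (inv_mem h3)), ?_⟩
  rw [mul_smul, mul_smul, ← h4, mul_smul, inv_smul_smul, h6, smul_inv_smul]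

theorem opp_c {y z : Ch T}
    (hy : δ (ap T 1) y = 𝐬 b * 𝐬 c * 𝐬 b ∨ δ (ap T 1) y = 𝐬 c * 𝐬 b * 𝐬 c * 𝐬 b)
    (h : Rs T {c} y z) :
    δ (ap T 1) z = 𝐬 b * 𝐬 c * 𝐬 b ∨ δ (ap T 1) z = 𝐬 c * 𝐬 b * 𝐬 c * 𝐬 b := by
  obtain ⟨u, hu, e⟩ := h.exists_right (ap T 1)
  rcases (mem_WJ_one T.cox).1 hu with rfl | rfl
  · rwa [e, mul_one]
  · rw [e]
    rcases hy with e | e <;> rw [e]
    · exact Or.inr H.braid
    · left; rw [← H.braid, cancel_r T.cox]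

theorem trans_o (h : Mouf T b) {y y' : Ch T}
    (hy : δ (ap T 1) y = 𝐬 b * 𝐬 c * 𝐬 b ∨ δ (ap T 1) y = 𝐬 c * 𝐬 b * 𝐬 c * 𝐬 b)
    (hy' : δ (ap T 1) y' = 𝐬 b * 𝐬 c * 𝐬 b ∨ δ (ap T 1) y' = 𝐬 c * 𝐬 b * 𝐬 c * 𝐬 b)
    (hyy : Rs T {b} y y') : ∃ g ∈ QQe T a b c, g • y = y' := by
  obtain ⟨t, h1, h2⟩ := exists_gate {b} (ap T 1) y
  have key : ∀ z, (δ (ap T 1) z = 𝐬 b * 𝐬 c * 𝐬 b ∨ δ (ap T 1) z = 𝐬 c * 𝐬 b * 𝐬 c * 𝐬 b) →
      Rs T {b} t z → δ t z = 𝐬 b := fun z hz h3 => h3.dist_eq (by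
    rintro rfl
    refine h2 b rfl ?_
    rcases hz with e | e <;> rw [e, T.cox.RD_iff, cancel_r T.cox]
    · rw [H.l_bc, H.l_bcb]
    · rw [H.l_cbc, H.l_cbcb])
  have h3 := key y hy h1.symm
  refine H.trans_t h ?_ h3 (key y' hy' (h1.symm.trans hyy))
  rw [dist_right_up h3 (h2 b rfl)] at hy
  exact hy.imp mul_right_cancel mul_right_cancel

theorem exists_Q (h : Mouf T b) {y : Ch T} (hy : δ (ap T (𝐬 b)) y = 𝐬 c) :
    ∃ g ∈ QQe T a b c, g ∈ Fx T (rt 𝐬 (𝐬 b) c) ∧ g • ap T (𝐬 b * 𝐬 c) = y := by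
  obtain ⟨g0, hg0, rfl⟩ := exists_Fx_rt hy
  have m : ∀ k ≤ 2, av 𝐬 c b k ∈ rt 𝐬 (𝐬 b) c := fun k hk => by
    rw [← bt_one, av_mem_bt' T.cox (by rw [H.hbc]; omega) (by rw [H.hbc]; omega), H.hbc]
    omega
  have f0 : g0 • ap T 1 = ap T 1 := hg0 _ (m 0 (by omega))
  have f1 : g0 • ap T (𝐬 c) = ap T (𝐬 c) := hg0 _ (av_one (s := 𝐬) c b ▸ m 1 (by omega))
  have f2 : g0 • ap T (𝐬 c * 𝐬 b) = ap T (𝐬 c * 𝐬 b) :=
    hg0 _ (av_two (s := 𝐬) c b ▸ m 2 le_rfl)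
  have n1 : ¬ RD 𝐬 (𝐬 c * 𝐬 b * 𝐬 c) b := by rw [T.cox.not_RD_iff, H.l_cbcb, H.l_cbc]
  obtain ⟨z, h1, h2⟩ := exists_gen_ne (ap T (𝐬 b * 𝐬 c)) b (ap T (𝐬 b * 𝐬 c * 𝐬 b))
  have r1 : Rs T {b} (ap T (𝐬 b * 𝐬 c * 𝐬 b)) z :=
    (rs_gen (dist_ap_mul _ _)).symm.trans (rs_gen h1)
  have o0 : δ (ap T 1) z = 𝐬 b * 𝐬 c * 𝐬 b := by
    rw [dist_right_up h1 (by rw [dist_ap_one, T.cox.not_RD_iff, H.l_bcb, H.l_bc]), dist_ap_one]
  have h3 : δ (ap T (𝐬 c * 𝐬 b)) (ap T (𝐬 b * 𝐬 c * 𝐬 b)) = 𝐬 c * 𝐬 b * 𝐬 c := by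
    rw [dist_ap, mul_inv_rev, gen_inv T.cox, gen_inv T.cox, ← mul_assoc, ← mul_assoc,
      H.braid, cancel_r T.cox]
  have h4 : δ z (ap T (𝐬 c * 𝐬 b)) = 𝐬 b * 𝐬 c * 𝐬 b * 𝐬 c := by
    rw [dist_comm, dist_right_up (r1.dist_eq h2.symm) (h3 ▸ n1), h3]
    simp only [mul_inv_rev, gen_inv T.cox, mul_assoc]
  have h5 : δ (ap T (𝐬 c * 𝐬 b)) (g0 • ap T (𝐬 c * 𝐬 b * 𝐬 c)) = 𝐬 c := by
    rw [dist_of_fix f2, dist_ap_mul]
  obtain ⟨u, hu, h6⟩ : ∃ u ∈ WJ 𝐬 {c},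
      δ z (g0 • ap T (𝐬 c * 𝐬 b * 𝐬 c)) = u * (𝐬 b * (𝐬 c * 𝐬 b)) := by
    rcases dist_right_gen h5 z with e | e
    · exact ⟨1, one_mem _, by rw [e, h4, cancel_r T.cox, one_mul, mul_assoc]⟩
    · exact ⟨_, gen_mem_WJ rfl, by rw [e, h4, H.braid]; simp only [mul_assoc]⟩
  obtain ⟨z1, k1, h7⟩ := exists_mid h6
  obtain ⟨z2, k2, h8⟩ := exists_mid h7
  obtain ⟨z3, k3, k4⟩ := exists_mid h8
  have r2 : Rs T {c} z z1 := by rwa [Rs, k1]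
  have h9 : δ (ap T 1) (g0 • ap T (𝐬 c * 𝐬 b * 𝐬 c)) = 𝐬 c * 𝐬 b * 𝐬 c := by
    rw [dist_of_fix f0, dist_ap_one]
  have o3 : δ (ap T 1) z3 = 𝐬 c * 𝐬 b * 𝐬 c * 𝐬 b := by
    rw [dist_right_up (dist_gen_symm k4) (by rwa [h9]), h9]
  obtain ⟨u1, q1, e1⟩ := H.trans_o h (Or.inl (dist_ap_one _)) (Or.inl o0) r1
  obtain ⟨u2, q2, e2⟩ := H.trans_o h (H.opp_c (Or.inl o0) r2)
    (H.opp_c (Or.inr o3) (rs_gen k3).symm) (rs_gen k2)
  obtain ⟨u3, q3, e3⟩ := H.trans_o h (y' := g0 • ap T (𝐬 c * 𝐬 b * 𝐬 c * 𝐬 b)) (Or.inr o3)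
    (Or.inr (by rw [dist_of_fix f0, dist_ap_one]))
    ((rs_gen k4).trans (rs_gen (by rw [dist_smul, dist_ap_mul])))
  have q := mul_mem q3 (mul_mem q2 q1)
  have r3 : Rs T {c} ((u3 * (u2 * u1)) • ap T (𝐬 c * 𝐬 b * 𝐬 c * 𝐬 b))
      (g0 • ap T (𝐬 c * 𝐬 b * 𝐬 c * 𝐬 b)) := by
    rw [mul_smul, mul_smul, ← e3, rs_smul]
    refine Rs.trans ?_ (rs_gen k3)
    rw [← e2, rs_smul]
    refine Rs.trans ?_ r2
    rw [← e1, rs_smul, ← H.braid]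
    exact (rs_gen (dist_ap_mul _ _)).symm
  have n2 : ¬ RD 𝐬 (δ (ap T (𝐬 c)) (ap T (𝐬 c * 𝐬 b * 𝐬 c * 𝐬 b))) c := by
    rw [mul_assoc, mul_assoc, dist_ap_mul, ← mul_assoc, T.cox.not_RD_iff, H.braid, H.l_cbcb,
      H.l_bcb]
  have e4 := gate_unique_one (x := ap T (𝐬 c))
    (by rwa [dist_of_fix (q.2.1 c H.bc.symm _ (rs_gen (dist_ap_one _)))])
    (by rwa [dist_of_fix f1]) r3
  have hm : Mv T (g0⁻¹ * (u3 * (u2 * u1))) 1 := by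
    refine mv_one_of_LJ (J := {b, c}) (mul_mem (inv_mem (Fx_le_LJ
      (inJ_rt (gen_mem_WJ (by simp)) (by simp)) hg0)) q.1) (one_mem _) ?_ ?_
    · rw [mul_smul, Kr_self (q.2.1 c H.bc.symm), inv_smul_eq_iff, f0]
    · rw [one_mul, H.wJ_eq, mul_smul, e4, inv_smul_smul]
  refine ⟨_, q, ?_, ?_⟩
  · simpa using mul_mem hg0 (hm.mem_Fx _)
  · rw [← inv_smul_eq_iff, ← mul_smul, hm.fix]

theorem mem_X {g : G} (q : g ∈ QQe T a b c) (hg : g ∈ Fx T (rt 𝐬 (𝐬 b) c)) :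
    g ∈ X T (rt 𝐬 (𝐬 b) c) := by
  have h1 : (1 : W) ∈ rt 𝐬 (𝐬 b) c := by
    rw [one_mem_rt T.cox, RD_gen T.cox]; exact H.bc.symm
  have hJ : c ∉ ({a, b} : Set ι) := by simp [H.bc.symm, H.ac.symm]
  have h2 : g ∈ Kr T (ap T 1) {a, b} := by
    rw [← Kr_ap_mul _ (gen_mem_WJ (show a ∈ ({a, b} : Set ι) by simp))]
    refine mem_Kr_of_subset hg (fun v hv => H.uncut hJ
      (H.uncut hJ h1 (gen_mem_WJ (by simp))) hv) ?_
    rintro j (rfl | rfl)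
    · rw [Kr_ap_gen]; exact q.2.1 j H.ab
    · rw [one_mul]; exact Kr_mono (by simp) (Rs.refl _ _) q.2.2
  have h3 : ∀ k, g ∈ Kr T (ap T 1) {k} := fun k => by
    by_cases hk : k = b
    · exact Kr_mono (by simp [hk]) (Rs.refl _ _) h2
    · exact q.2.1 k hk
  refine H.glob hg ⟨fun k hk => ?_, by rw [T.cox.sq]; exact h3 c⟩ h1 h3
  rw [← one_mul (𝐬 b)]
  by_cases h4 : k ∈ ({a, b} : Set ι)
  · exact Kr_le_one (gen_mem_WJ (by simp)) h4 h2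
  · simp only [Set.mem_insert_iff, Set.mem_singleton_iff, not_or] at h4
    exact Kr_par_gen (h3 k) h4.2 (H.hb k h4.1 hk)
      (by rw [one_mul]; exact hg _ (self_mem_rt T.cox _ _))

theorem mouf (h : Mouf T b) : Mouf T c := fun y hy => by
  obtain ⟨n, hn⟩ := exists_mv T (𝐬 b)
  obtain ⟨g, q, h1, h2⟩ := H.exists_Q h (y := n • y) (by
    rw [← mul_one (𝐬 b), ← hn, dist_smul, hy])
  refine ⟨n⁻¹ * g * n, hn.conj_mem_X' (by rw [tr_rt, mul_one]; exact H.mem_X q h1), ?_⟩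
  rw [mul_smul, mul_smul, hn, h2, inv_smul_smul]

end EndH

theorem mouf_end (hf : Faith T) {a b c : ι} (hab : orderOf (T.s a * T.s b) = 3)
    (hbc : orderOf (T.s b * T.s c) = 4) (hc : ∀ k, k ≠ b → T.s k * T.s c = T.s c * T.s k)
    (hb : ∀ k, k ≠ a → k ≠ c → T.s k * T.s b = T.s b * T.s k) (h : Mouf T b) : Mouf T c :=
  have _ := hf
  EndH.mouf ⟨hab, hbc, hc, hb⟩ h

end Cfsg.Agent.BNP
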