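import Mathlib
import Cfsg.Agent.BNP.MoufC3
import Cfsg.Agent.BNP.MoufEnd
import Cfsg.Agent.BNP.IsoC
import Cfsg.Agent.BNP.Res

/-!
Finite irreducible Tits systems of rank at least three are Moufang.
-/

set_option autoImplicit false
set_option linter.unusedSectionVars false

namespace Cfsg.Agent.BNP

open Cfsg.Agent.Chev Cfsg.Agent.St

variable {G ι W : Type*} [Group G] [Group W] [Finite W] [Finite G]

theorem qq_eq_of_three {T : Tits G ι W} {a b : ι} (h : orderOf (T.s a * T.s b) = 3) :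
    qq T a = qq T b := by
  obtain ⟨F, _, _, ⟨P⟩⟩ := exists_planeSys h
  rw [← P.card_a, P.card_b]

theorem exists_prime_qq {T : Tits G ι W} {a b : ι} (h : orderOf (T.s a * T.s b) = 3) :
    ∃ p : ℕ, p.Prime ∧ p ∣ qq T b := by
  obtain ⟨F, _, _, ⟨P⟩⟩ := exists_planeSys h
  exact Nat.exists_prime_and_dvd (P.card_b ▸ Finite.one_lt_card.ne')

theorem nc_iff {T : Tits G ι W} {i j : ι} :
    T.s i * T.s j ≠ T.s j * T.s i ↔ i ≠ j ∧ orderOf (T.s i * T.s j) ≠ 2 :=
  ⟨fun h => ⟨by rintro rfl; exact h rfl, fun h' =>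
    h ((commute_iff_two (by rintro rfl; exact h rfl)).2 h')⟩,
    fun h h' => h.2 ((commute_iff_two h.1).1 h')⟩

/-- Simply laced diagrams: `j` is a leaf joined to `a`, and `par` leads towards `j`. -/
theorem mh_of_tree {T : Tits G ι W} (hf : Faith T) {j a : ι}
    (ho : ∀ k l, k ≠ l → orderOf (T.s k * T.s l) ∈ ({2, 3} : Set ℕ))
    (ha : orderOf (T.s a * T.s j) = 3) (hj : ∀ k, orderOf (T.s j * T.s k) = 3 → k = a)
    (r : ι → ℕ) (hr : ∀ k, k ≠ j → k ≠ a → ∃ l, r l < r k ∧ l ≠ j ∧ orderOf (T.s l * T.s k) = 3) :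
    MH T := by
  have ind : ∀ P : ι → Prop, P a → (∀ k l, l ≠ j → orderOf (T.s k * T.s l) = 3 → P k → P l) →
      ∀ k ≠ j, P k := fun P h1 h2 k => by
    induction hn : r k using Nat.strong_induction_on generalizing k with
    | _ n ih =>
    intro hk
    by_cases h : k = a
    · rwa [h]
    obtain ⟨l, h3, h4, h5⟩ := hr k hk h
    exact h2 l k hk h5 (ih _ (hn ▸ h3) l rfl h4)
  have ha' : orderOf (T.s j * T.s a) = 3 := by rwa [ord_comm T.cox]
  obtain ⟨p, hp, hq⟩ := exists_prime_qq ha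
  have all : ∀ P : ι → Prop, P j → (∀ k l, orderOf (T.s k * T.s l) = 3 → P k → P l) → ∀ k, P k :=
    fun P h1 h2 k => by
      by_cases h : k = j
      exacts [h ▸ h1, ind P (h2 _ _ ha' h1) (fun k l _ => h2 k l) k h]
  have hm : Mouf T j := by
    obtain ⟨F, _, _, ⟨P⟩⟩ := exists_planeSys ha
    refine mouf_of_local hp hf (fun k l h => (ho k l h).imp_right Or.inl)
      (fun _ l _ => all (fun k => p ∣ qq T k) hq (fun k l h h' => qq_eq_of_three h ▸ h') l) ha
      (fun y hy => ?_) (fun P h1 => ind P (h1 a (not_commute_of_ord ha' le_rfl)))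
      fun b c _ h => absurd (ho b c (ne_of_ord h (by norm_num))) (by simp [h])
    obtain ⟨g, hg, e⟩ := P.mouf_b y hy
    refine ⟨g, hg, fun k hk => ?_, e⟩
    obtain ⟨h1, h2⟩ := nc_iff.1 hk
    obtain rfl := hj k ((ho j k h1).resolve_left h2)
    exact hg.2 1 (self_mem_rt T.cox 1 j) (one_mem _) k (by simp)
      (by rwa [one_mul, gen_mem_rt_one T.cox])
  exact ⟨hf, all _ ⟨a, not_commute_of_ord ha' le_rfl⟩ fun k l h _ =>
    ⟨k, (not_commute_of_ord h le_rfl).symm⟩, all _ hm fun k l h h' => h'.of_three h⟩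

variable {n : ℕ} {S : Tits G (Fin n) W}

theorem mA_three {i j : Fin n} : mA n i j = 3 ↔ i.val + 1 = j.val ∨ j.val + 1 = i.val := by
  simp only [mA, Fin.ext_iff]; split_ifs <;> simp <;> omega

theorem mD_three {i j : Fin n} : mD n i j = 3 ↔ (j.val = i.val + 1 ∧ j.val + 2 ≤ n) ∨
    (i.val = j.val + 1 ∧ i.val + 2 ≤ n) ∨ (i.val + 3 = n ∧ j.val + 1 = n) ∨
    (j.val + 3 = n ∧ i.val + 1 = n) := by
  simp only [mD, Fin.ext_iff]; split_ifs <;> simp <;> omega

theorem mE_three {i j : Fin n} : mE n i j = 3 ↔ (i.val = 0 ∧ j.val = 2) ∨ (i.val = 2 ∧ j.val = 0) ∨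
    (i.val = 1 ∧ j.val = 3) ∨ (i.val = 3 ∧ j.val = 1) ∨ (2 ≤ i.val ∧ j.val = i.val + 1) ∨
    (2 ≤ j.val ∧ i.val = j.val + 1) := by
  simp only [mE, Fin.ext_iff]; split_ifs <;> simp <;> omega

theorem mC_three {i j : Fin n} : mC n i j = 3 ↔ (i.val + 1 = j.val ∨ j.val + 1 = i.val) ∧
    i.val + 1 ≠ n ∧ j.val + 1 ≠ n := by
  simp only [mC, Fin.ext_iff]; split_ifs <;> simp <;> omega

theorem mC_four {i j : Fin n} : mC n i j = 4 ↔ (i.val + 1 = j.val ∨ j.val + 1 = i.val) ∧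
    (i.val + 1 = n ∨ j.val + 1 = n) := by
  simp only [mC, Fin.ext_iff]; split_ifs <;> simp <;> omega

theorem mC_two {i j : Fin n} : mC n i j = 2 ↔ i.val ≠ j.val ∧ i.val + 1 ≠ j.val ∧
    j.val + 1 ≠ i.val := by
  simp only [mC, Fin.ext_iff]; split_ifs <;> simp <;> omega

theorem mh_A (hf : Faith S) (hn : 3 ≤ n)
    (h : ∀ i j, orderOf (S.s i * S.s j) = mA n i j) : MH S := by
  refine mh_of_tree hf (j := ⟨0, by omega⟩) (a := ⟨1, by omega⟩) (fun k l hkl => ?_)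
    (by simp [h, mA]) (fun k hk => ?_) Fin.val fun k h1 h2 => ⟨⟨k - 1, by omega⟩, ?_⟩
  · rw [h, mA, if_neg hkl]; split_ifs <;> simp
  all_goals simp only [h, mA_three, ne_eq, Fin.ext_iff] at *; omega

theorem mh_D (hf : Faith S) (hn : 4 ≤ n)
    (h : ∀ i j, orderOf (S.s i * S.s j) = mD n i j) : MH S := by
  refine mh_of_tree hf (j := ⟨n - 1, by omega⟩) (a := ⟨n - 3, by omega⟩) (fun k l hkl => ?_) ?_
    (fun k hk => ?_) (fun k => if k.val + 2 = n then 1 else n - 3 - k) fun k h1 h2 => ?_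
  · rw [h, mD, if_neg hkl]; split_ifs <;> simp
  · simp only [h, mD_three]; omega
  · simp only [h, mD_three, Fin.ext_iff] at hk ⊢; omega
  · simp only [ne_eq, Fin.ext_iff] at h1 h2
    have := k.2
    refine ⟨⟨if k.val + 2 = n then n - 3 else k + 1, by split_ifs <;> omega⟩, ?_⟩
    simp only [h, mD_three, ne_eq, Fin.ext_iff]
    split_ifs <;> omega

theorem mh_E (hf : Faith S) (hn : n = 6 ∨ n = 7 ∨ n = 8)
    (h : ∀ i j, orderOf (S.s i * S.s j) = mE n i j) : MH S := by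
  refine mh_of_tree hf (j := ⟨0, by omega⟩) (a := ⟨2, by omega⟩) (fun k l hkl => ?_)
    (by simp [h, mE]) (fun k hk => ?_) (fun k => if k.val = 1 then 4 else k) fun k h1 h2 => ?_
  · rw [h, mE, if_neg hkl]; split_ifs <;> simp
  · simp only [h, mE_three, Fin.ext_iff] at hk ⊢; omega
  · simp only [ne_eq, Fin.ext_iff] at h1 h2
    refine ⟨⟨if k.val = 1 then 3 else k - 1, by split_ifs <;> omega⟩, ?_⟩
    simp only [h, mE_three, ne_eq, Fin.ext_iff]
    split_ifs <;> simp <;> omega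

theorem mouf_of_C3 {T : Tits G ι W} (hf : Faith T) {p : ℕ} (hp : p.Prime) {a b c : ι}
    (ho : ∀ k l, k ≠ l → orderOf (T.s k * T.s l) ∈ ({2, 3, 4} : Set ℕ))
    (hq : ∀ k l, orderOf (T.s k * T.s l) = 3 → p ∣ qq T l) (hab : orderOf (T.s a * T.s b) = 3)
    (hbc : orderOf (T.s b * T.s c) = 4) (hac : orderOf (T.s a * T.s c) = 2)
    (hb : ∀ k, T.s b * T.s k ≠ T.s k * T.s b → k = a ∨ k = c)
    (ht : ∀ P : ι → Prop, P a → P c →
      (∀ k l, l ≠ b → orderOf (T.s k * T.s l) = 3 → P k → P l) → ∀ k ≠ b, P k)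
    (hn : ∀ b' c', (∀ l, orderOf (T.s l * T.s c') ≠ 3) → orderOf (T.s b' * T.s c') = 4 →
      b' = b ∧ c' = c) : Mouf T b := by
  refine mouf_of_local hp hf ho hq hab (fun y hy => ?_) (fun P h1 => ht P
    (h1 a (not_commute_of_ord hab le_rfl).symm) (h1 c (not_commute_of_ord hbc (by norm_num))))
    fun b' c' h1 h2 y hy => ?_
  · obtain ⟨g, hg, e⟩ := mouf_C3 hab hbc hac hy
    refine ⟨g, hg.1, fun k hk => ?_, e⟩
    have h1 : 1 * T.s k ∈ rt T.s 1 b := by
      rw [one_mul, gen_mem_rt_one T.cox]; exact (nc_iff.1 hk).1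
    rcases hb k hk with rfl | rfl
    exacts [hg.1.2 1 (self_mem_rt T.cox 1 b) (one_mem _) k (by simp) h1,
      hg.2.2 1 (self_mem_rt T.cox 1 b) (one_mem _) k (by simp) h1]
  · obtain ⟨rfl, rfl⟩ := hn b' c' h1 h2
    exact (mouf_C3 hab hbc hac hy).imp fun g hg => ⟨hg.1.2, hg.2⟩

theorem mh_C (hf : Faith S) (hn : 3 ≤ n)
    (h : ∀ i j, orderOf (S.s i * S.s j) = mC n i j) : MH S := by
  obtain ⟨a, ha⟩ : ∃ a : Fin n, a.val + 3 = n := ⟨⟨n - 3, by omega⟩, by simp; omega⟩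
  obtain ⟨b, hb⟩ : ∃ b : Fin n, b.val + 2 = n := ⟨⟨n - 2, by omega⟩, by simp; omega⟩
  obtain ⟨c, hc⟩ : ∃ c : Fin n, c.val + 1 = n := ⟨⟨n - 1, by omega⟩, by simp; omega⟩
  have hab : orderOf (S.s a * S.s b) = 3 := by rw [h, mC_three]; omega
  have hbc : orderOf (S.s b * S.s c) = 4 := by rw [h, mC_four]; omega
  have ind : ∀ P : Fin n → Prop, P a →
      (∀ k l, l ≠ b → orderOf (S.s k * S.s l) = 3 → P k → P l) → ∀ k, k.val + 3 ≤ n → P k := by
    intro P h1 h2 k hk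
    induction hm : n - 3 - k generalizing k with
    | zero => rwa [show k = a from Fin.ext (by omega)]
    | succ m ih =>
      exact h2 ⟨k + 1, by omega⟩ k (by rintro rfl; omega)
        (by simp only [h, mC_three, ne_eq, or_true, true_and]; omega)
        (ih _ (by simp only; omega) (by simp only; omega))
  have all : ∀ P : Fin n → Prop, P b → (∀ k l, orderOf (S.s k * S.s l) = 3 → P k → P l) →
      ∀ k ≠ c, P k := fun P h1 h2 k hk => by
    by_cases h3 : k = b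
    · rwa [h3]
    simp only [ne_eq, Fin.ext_iff] at hk h3
    exact ind P (h2 b a (by rwa [ord_comm S.cox]) h1) (fun k l _ => h2 k l) k (by omega)
  obtain ⟨p, hp, hq⟩ := exists_prime_qq hab
  have hm : Mouf S b := by
    refine mouf_of_C3 hf hp (fun k l hkl => ?_) (fun k l hkl => all (fun k => p ∣ qq S k) hq
      (fun k l h h' => qq_eq_of_three h ▸ h') l ?_) hab hbc (by rw [h, mC_two]; omega)
      (fun k hk => ?_) (fun P h1 h2 h3 k hk => ?_) fun b' c' h1 h2 => ?_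
    · rw [h, mC, if_neg hkl]; split_ifs <;> simp
    · rintro rfl; rw [h, mC_three] at hkl; omega
    · simp only [nc_iff, h, ne_eq, mC_two, Fin.ext_iff] at hk ⊢; omega
    · by_cases h4 : k = c
      · rwa [h4]
      simp only [ne_eq, Fin.ext_iff] at hk h4
      exact ind P h1 h3 k (by omega)
    · have := h1 a
      simp only [h, ne_eq, mC_three, mC_four, Fin.ext_iff] at h2 this ⊢; omega
  refine ⟨hf, fun k => ?_, fun k => ?_⟩
  · refine ⟨⟨if k.val = 0 then 1 else k - 1, by split_ifs <;> omega⟩, ?_⟩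
    simp only [nc_iff, h, ne_eq, mC_two, Fin.ext_iff]
    split_ifs <;> omega
  · by_cases hk : k = c
    · refine hk ▸ mouf_end hf hab hbc (fun k hk => ?_) (fun k h1 h2 => ?_) hm
      all_goals
        by_contra h3
        simp only [← ne_eq, nc_iff] at h3
        simp only [h, ne_eq, mC_two, Fin.ext_iff] at *
        omega
    · exact all _ hm (fun k l h h' => h'.of_three h) k hk

theorem mh_F {S : Tits G (Fin 4) W} (hf : Faith S)
    (h : ∀ i j, orderOf (S.s i * S.s j) = mF i j) : MH S := by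
  have h01 : orderOf (S.s 0 * S.s 1) = 3 := h 0 1
  have h32 : orderOf (S.s 3 * S.s 2) = 3 := h 3 2
  obtain ⟨p, hp, hq⟩ := exists_prime_qq h01
  have hq2 : p ∣ qq S 2 := by
    obtain ⟨G', W', _, _, _, _, T, h1, h2, h3⟩ := exists_res S (Fin.castSucc (n := 3))
      (Fin.castSucc_injective 3)
    have h4 : ∀ i j, orderOf (T.s i * T.s j) = mC 3 i j := fun i j => by
      rw [h2, h]; revert i j; decide
    have h5 := (quad_cases (mh_C h1 le_rfl h4) (h4 0 1) (h4 1 2) (h4 0 2)).2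
    rw [h3, h3] at h5
    change _ ∧ (qq S 2 = qq S 1 ∨ qq S 2 = qq S 1 ^ 2) ∧ _ ∨ _ ∧ ((qq S 2 = qq S 1 ∧ _) ∨
      qq S 2 ^ 2 = qq S 1 ∨ qq S 2 ^ 2 = qq S 1 ^ 3) at h5
    rcases h5 with ⟨-, h5 | h5, -⟩ | ⟨-, ⟨h5, -⟩ | h5 | h5⟩
    exacts [h5 ▸ hq, h5 ▸ dvd_pow hq two_ne_zero, h5 ▸ hq, hp.dvd_of_dvd_pow (h5 ▸ hq),
      hp.dvd_of_dvd_pow (h5 ▸ dvd_pow hq three_ne_zero)]
  have ho : ∀ k l, k ≠ l → orderOf (S.s k * S.s l) ∈ ({2, 3, 4} : Set ℕ) := fun k l => by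
    simp only [h, Set.mem_insert_iff, Set.mem_singleton_iff]; revert k l; decide
  have hq' : ∀ k l, orderOf (S.s k * S.s l) = 3 → p ∣ qq S l := fun _ l _ => by
    fin_cases l
    exacts [qq_eq_of_three h01 ▸ hq, hq, hq2, qq_eq_of_three h32 ▸ hq2]
  have m1 : Mouf S 1 := by
    refine mouf_of_C3 hf hp ho hq' h01 (h 1 2) (h 0 2) ?_ (fun P h1 h2 h3 k hk => ?_) ?_
    · simp only [nc_iff, h]; decide
    · fin_cases k
      exacts [h1, absurd rfl hk, h2, h3 2 3 (by decide) (h 2 3) h2]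
    · simp only [h]; decide
  have m2 : Mouf S 2 := by
    refine mouf_of_C3 hf hp ho hq' h32 (h 2 1) (h 3 1) ?_ (fun P h1 h2 h3 k hk => ?_) ?_
    · simp only [nc_iff, h]; decide
    · fin_cases k
      exacts [h3 1 0 (by decide) (h 1 0) h2, h2, absurd rfl hk, h1]
    · simp only [h]; decide
  refine ⟨hf, by simp only [nc_iff, h]; decide, fun k => ?_⟩
  fin_cases k
  exacts [m1.of_three (h 1 0), m1, m2, m2.of_three (h 2 3)]

end Cfsg.Agent.BNP
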