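import Mathlib
import Cfsg.Agent.BNP.Bt
import Cfsg.Agent.BNP.IsoC
import Cfsg.Agent.BNP.MoufAll
import Cfsg.Agent.BNP.Res
import Cfsg.Agent.BNP.ModelForm
import Cfsg.Agent.BNP.ModelExc
import Cfsg.Agent.Class.QF.Classify
import Cfsg.Agent.Chev.StChev
import Cfsg.Agent.S0270
import Cfsg.Agent.S0283
import Cfsg.Agent.S0295
import Cfsg.Agent.S0297
import Cfsg.Agent.S0821
import Cfsg.Agent.S1070
import Cfsg.Prelude.Def_Classification2

/-!
Recognition of simple groups with a Tits system of type `C_n` or `F₄`.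
-/

set_option autoImplicit false
set_option linter.unusedSectionVars false

namespace Cfsg.Agent.BNP

open Cfsg Cfsg.Agent.St Cfsg.Agent.Chev

section Reindex

variable {G ι κ W : Type*} [Group G] [Group W]

theorem rc_cox_comp {s : ι → W} (h : Cox s) (e : κ ≃ ι) : Cox (s ∘ e) where
  inv := ⟨fun i => h.sq _, by rw [e.surjective.range_comp]; exact h.inv.gen⟩
  ex l i hl hle := by
    have hw : ∀ l : List κ, wprod (s ∘ e) l = wprod s (l.map e) := by
      intro l; simp [wprod]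
    rw [Reduced, wlen_comp_surjective e.surjective, hw] at hl
    rw [wlen_comp_surjective e.surjective, hw] at hle
    obtain ⟨l₁, a, l₂, h1, h2⟩ := h.ex (l.map e) (e i) (by rw [Reduced, hl]; simp)
      (by simpa using hle)
    obtain ⟨m₁, m₂, rfl, rfl, h3⟩ := List.map_eq_append_iff.mp h1
    obtain ⟨c, m₃, rfl, rfl, rfl⟩ := List.map_eq_cons_iff.mp h3
    exact ⟨m₁, c, m₃, rfl, by rw [hw]; exact h2⟩
  inj := h.inj.comp e.injective

theorem rc_LD_comp {s : ι → W} (e : κ ≃ ι) (w : W) (i : κ) : LD (s ∘ e) w i ↔ LD s w (e i) := by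
  unfold LD
  rw [wlen_comp_surjective e.surjective, wlen_comp_surjective e.surjective]; rfl

/-- Relabelling the nodes of a Tits system. -/
def titsRx (T : Tits G ι W) (e : κ ≃ ι) : Tits G κ W where
  s := T.s ∘ e
  cox := rc_cox_comp T.cox e
  B := T.B
  N := T.N
  wt := T.wt
  wt_eq_one := T.wt_eq_one
  wt_B_mul := T.wt_B_mul
  wt_inv := T.wt_inv
  exists_eq := T.exists_eq
  wt_N_mul := T.wt_N_mul
  exists_N := T.exists_N
  gen_mul h := T.gen_mul h
  gen_mul_up h _ hg := T.gen_mul_up h fun h' => hg ((rc_LD_comp e _ _).2 h')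
  thick i := T.thick (e i)

variable (T : Tits G ι W) (e : κ ≃ ι)

theorem dist_rx (x y : Ch T) : dist (titsRx T e) x y = dist T x y := by
  unfold dist; rfl

theorem ap_rx (w : W) : ap (titsRx T e) w = ap T w := by
  unfold ap; rfl

theorem qq_rx (i : κ) : qq (titsRx T e) i = qq T (e i) := by
  refine congrArg Set.ncard (Set.ext fun y => ?_)
  exact Eq.congr_left ((dist_rx T e _ y).trans (congrArg (dist T · y) (ap_rx T e 1)))

theorem rt_rx (w : W) (i : κ) : rt (titsRx T e).s w i = rt T.s w (e i) := by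
  ext x; exact not_congr (rc_LD_comp e _ _)

theorem Kr_rx (x : Ch T) (k : κ) : Kr (titsRx T e) x {k} = Kr T x {e k} := by
  ext g
  refine forall_congr' fun y => imp_congr_left ?_
  exact (rs_one (T := titsRx T e)).trans
    ((or_congr_right (Eq.congr_left (dist_rx T e x y))).trans (rs_one (T := T)).symm)

theorem X_rx (A : Set W) : X (titsRx T e) A = X T A := by
  ext g
  refine and_congr (forall₂_congr fun x _ => by rw [ap_rx]; rfl) (forall₂_congr fun x _ => ?_)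
  rw [e.surjective.forall]
  refine forall₂_congr fun k _ => ?_
  rw [ap_rx, Kr_rx]

theorem Bt_rx (b c : κ) : Bt (titsRx T e) b c ↔ Bt T (e b) (e c) := by
  unfold Bt
  rw [X_rx, X_rx, bt_zero, bt_zero, bt_two, bt_two, rt_rx, rt_rx]; rfl

end Reindex

variable {G ι W : Type*} [Group G] [Group W] [Finite W] [Finite G]

theorem MH.qq_eq {T : Tits G ι W} (M : MH T) {i j : ι} (h : orderOf (T.s i * T.s j) = 3) :
    qq T i = qq T j := by
  rw [← M.card_X (T.s i * T.s j) i, ← M.card_X 1 j, ← bt_two, ← bt_zero j i,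
    bt_symm T.cox (a := i) (b := j) (l := 2) (by omega)]

/-- The possible parameters at a double bond. -/
def RcCs (q t : ℕ) (P : Prop) : Prop :=
  (P ∧ (t = q ∨ t = q ^ 2)) ∨ (¬ P ∧ ((t = q ∧ Odd q) ∨ t ^ 2 = q ∨ t ^ 2 = q ^ 3))

theorem rc_pow_ne {q a b : ℕ} (hq : 2 ≤ q) (h : q ^ a = q ^ b) : a = b :=
  Nat.pow_right_injective hq h

theorem RcCs.iff {q t : ℕ} {P P' : Prop} (h : RcCs q t P) (h' : RcCs q t P') (hq : 2 ≤ q)
    (hn : ¬ (t = q ∧ Odd q)) : P ↔ P' := by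
  have key : (t = q ∨ t = q ^ 2) → ¬ ((t = q ∧ Odd q) ∨ t ^ 2 = q ∨ t ^ 2 = q ^ 3) := by
    rintro (rfl | rfl) (h | h | h)
    · exact hn h
    · exact absurd (rc_pow_ne hq (h.trans (pow_one _).symm)) (by omega)
    · exact absurd (rc_pow_ne hq h) (by omega)
    · exact hn h
    · rw [← pow_mul] at h; exact absurd (rc_pow_ne hq (h.trans (pow_one _).symm)) (by omega)
    · rw [← pow_mul] at h; exact absurd (rc_pow_ne hq h) (by omega)
  rcases h with h | h <;> rcases h' with h' | h'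
  · exact iff_of_true h.1 h'.1
  · exact absurd h'.2 (key h.2)
  · exact absurd h.2 (key h'.2)
  · exact iff_of_false h.1 h'.1

theorem rcCs_of {T : Tits G ι W} (M : MH T) {a b c : ι} (hab : orderOf (T.s a * T.s b) = 3)
    (hbc : orderOf (T.s b * T.s c) = 4) (hac : orderOf (T.s a * T.s c) = 2) :
    RcCs (qq T b) (qq T c) (Bt T b c) :=
  (quad_cases M hab hbc hac).2.imp (fun h => ⟨h.1, h.2.1⟩)
    fun h => ⟨h.1, h.2.imp_left fun h => ⟨h.1, h.2.1⟩⟩

theorem rc_exists_field {q : ℕ} (hq : IsPrimePow q) :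
    ∃ (F : Type) (_ : Field F) (_ : Fintype F), Fintype.card F = q := by
  obtain ⟨p, k, hp, hk, rfl⟩ := (isPrimePow_nat_iff q).1 hq
  have := Fact.mk hp
  have := Fintype.ofFinite (GaloisField p k)
  exact ⟨GaloisField p k, inferInstance, this, by
    rw [← Nat.card_eq_fintype_card, GaloisField.card p k hk.ne']⟩

theorem rc_model {G' : Type} [Group G'] [Finite G'] {n : ℕ} {M : Fin n → Fin n → ℕ}
    {sz : Fin n → ℕ} (h : HasModel G' M sz) : ∃ (W' : Type) (_ : Group W') (_ : Finite W')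
      (T : Tits G' (Fin n) W'), (∀ i j, orderOf (T.s i * T.s j) = M i j) ∧ ∀ i, qq T i = sz i := by
  obtain ⟨W', _, T, h1, h2⟩ := h
  have := T.finite_W
  exact ⟨W', _, this, T, h1, fun i => Nat.succ_injective ((relIndex_eq_qq T i).symm.trans (h2 i))⟩

section C

variable {n : ℕ}

theorem rc_data_C [IsSimpleGroup G] {S : Tits G (Fin (n + 3)) W}
    (h : ∀ i j, orderOf (S.s i * S.s j) = mC (n + 3) i j) :
    MH S ∧ IsPrimePow (qq S ⟨n + 1, by omega⟩) ∧
      RcCs (qq S ⟨n + 1, by omega⟩) (qq S ⟨n + 2, by omega⟩)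
        (Bt S ⟨n + 1, by omega⟩ ⟨n + 2, by omega⟩) := by
  have M : MH S := mh_C (faith_of_simple S) (by omega) h
  have h1 : orderOf (S.s ⟨n, by omega⟩ * S.s ⟨n + 1, by omega⟩) = 3 := by rw [h]; simp [mC]
  have h2 : orderOf (S.s ⟨n + 1, by omega⟩ * S.s ⟨n + 2, by omega⟩) = 4 := by rw [h]; simp [mC]
  have h3 : orderOf (S.s ⟨n, by omega⟩ * S.s ⟨n + 2, by omega⟩) = 2 := by
    rw [h]; simp [mC]; omega
  exact ⟨M, (quad_cases M h1 h2 h3).1, rcCs_of M h1 h2 h3⟩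

theorem rc_qq_C {S : Tits G (Fin (n + 3)) W} (M : MH S)
    (h : ∀ i j, orderOf (S.s i * S.s j) = mC (n + 3) i j) (i : Fin (n + 3)) :
    qq S i = szC (n + 3) (qq S ⟨n + 1, by omega⟩) (qq S ⟨n + 2, by omega⟩) i := by
  have key : ∀ k (hk : k < n + 2), qq S ⟨k, by omega⟩ = qq S ⟨0, by omega⟩ := by
    intro k
    induction k with
    | zero => intro; rfl
    | succ k ih =>
      intro hk
      rw [← ih (by omega)]
      refine (M.qq_eq ?_).symm
      rw [h]; simp [mC]; omega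
  obtain ⟨i, hi⟩ := i
  unfold szC
  split_ifs with h1
  · obtain rfl : i = n + 2 := by simpa using h1
    rfl
  · rw [key i (by simp at h1; omega), key (n + 1) (by omega)]

/-- Comparison with a model. -/
theorem rc_cmp_C {G' : Type} [Group G'] [Finite G'] [IsSimpleGroup G'] {q t : ℕ}
    (hM : HasModel G' (mC (n + 3)) (szC (n + 3) q t)) : ∃ P : Prop, RcCs q t P ∧
      ∃ (W' : Type) (_ : Group W') (_ : Finite W') (S' : Tits G' (Fin (n + 3)) W'),
        (∀ i j, orderOf (S'.s i * S'.s j) = mC (n + 3) i j) ∧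
        (∀ i, qq S' i = szC (n + 3) q t i) ∧ (Bt S' ⟨n + 1, by omega⟩ ⟨n + 2, by omega⟩ ↔ P) := by
  obtain ⟨W', _, _, S', h1, h2⟩ := rc_model hM
  have h3 := (rc_data_C h1).2.2
  rw [h2, h2] at h3
  exact ⟨_, by simpa [szC] using h3, W', _, inferInstance, S', h1, h2, Iff.rfl⟩

theorem rc_iso_C [IsSimpleGroup G] {S : Tits G (Fin (n + 3)) W}
    (h : ∀ i j, orderOf (S.s i * S.s j) = mC (n + 3) i j) {G' : Type} [Group G'] [Finite G']
    [IsSimpleGroup G'] {q t : ℕ} (hq : qq S ⟨n + 1, by omega⟩ = q) (ht : qq S ⟨n + 2, by omega⟩ = t)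
    (hM : HasModel G' (mC (n + 3)) (szC (n + 3) q t)) (hn : ¬ (t = q ∧ Odd q)) :
    Nonempty (G ≃* G') := by
  obtain ⟨M, h1, h2⟩ := rc_data_C h
  obtain ⟨P, h3, W', _, _, S', h4, h5, h6⟩ := rc_cmp_C hM
  subst hq ht
  exact iso_C M (rc_data_C h4).1 h h4 (fun i => (rc_qq_C M h i).trans (h5 i).symm)
    ((h2.iff h3 h1.two_le hn).trans h6.symm)

end C

theorem recog_C [IsSimpleGroup G] {n : ℕ} (S : Tits G (Fin n) W) (hn : 3 ≤ n)
    (h : ∀ i j, orderOf (S.s i * S.s j) = mC n i j) :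
    IsPSp G ∨ IsPSU G ∨ IsPOmegaOdd G ∨ IsPOmegaMinus G := by
  obtain ⟨n, rfl⟩ := Nat.exists_eq_add_of_le' hn
  obtain ⟨M, h1, h2⟩ := rc_data_C h
  obtain ⟨F, _, _, hF⟩ := rc_exists_field h1
  have h2' := h1.two_le
  have hSp := S0270.result (F := F) (n + 3) (by omega) (by omega)
  by_cases ho : qq S ⟨n + 2, by omega⟩ = qq S ⟨n + 1, by omega⟩ ∧ Odd (qq S ⟨n + 1, by omega⟩)
  · have hO := S0295.result (F := F) (hF ▸ ho.2) (n + 3) hn
    obtain ⟨P, -, W1, _, _, S1, a1, a2, -⟩ := rc_cmp_C (model_Sp (F := F) hn)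
    obtain ⟨P, -, W2, _, _, S2, b1, b2, -⟩ := rc_cmp_C (model_Oodd (F := F) hn (hF ▸ ho.2))
    have h3 : ∀ i, qq S i = szC (n + 3) (Fintype.card F) (Fintype.card F) i := fun i => by
      rw [rc_qq_C M h i, ho.1, hF]
    by_cases e1 : Bt S ⟨n + 1, by omega⟩ ⟨n + 2, by omega⟩ ↔
        Bt S1 ⟨n + 1, by omega⟩ ⟨n + 2, by omega⟩
    · exact Or.inl ⟨F, _, inferInstance, n + 3, by omega, by omega,
        iso_C M (rc_data_C a1).1 h a1 (fun i => (h3 i).trans (a2 i).symm) e1⟩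
    by_cases e2 : Bt S ⟨n + 1, by omega⟩ ⟨n + 2, by omega⟩ ↔
        Bt S2 ⟨n + 1, by omega⟩ ⟨n + 2, by omega⟩
    · exact Or.inr (Or.inr (Or.inl ⟨F, _, inferInstance, n + 3, hn, hF ▸ ho.2,
        iso_C M (rc_data_C b1).1 h b1 (fun i => (h3 i).trans (b2 i).symm) e2⟩))
    obtain ⟨e⟩ := iso_C (rc_data_C a1).1 (rc_data_C b1).1 a1 b1
      (fun i => (a2 i).trans (b2 i).symm) (by tauto)
    exact ((S0821.result (hF ▸ ho.2) (n + 3) hn).false e).elim
  rcases h2 with ⟨-, e | e⟩ | ⟨-, e | e | e⟩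
  · exact Or.inl ⟨F, _, inferInstance, n + 3, by omega, by omega,
      rc_iso_C h hF.symm (e.trans hF.symm) (model_Sp hn) fun h' => ho ⟨e, hF ▸ h'.2⟩⟩
  · obtain ⟨ζ, hζ⟩ := Class.QF.exists_aniso (F := F)
    have := S0297.result (n + 4) (by omega) 1 ζ hζ
    exact Or.inr (Or.inr (Or.inr ⟨F, _, inferInstance, n + 4, 1, ζ, by omega, hζ,
      rc_iso_C h hF.symm (by rw [e, hF]) (model_Ominus hn hζ) (by rwa [hF, ← e])⟩))
  · exact absurd e ho
  · have := S0283.result (hF.trans e.symm) (2 * (n + 3)) (by omega) (by omega)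
    exact Or.inr (Or.inl ⟨F, _, inferInstance, 2 * (n + 3), _, hF.trans e.symm, by omega, by omega,
      rc_iso_C h e.symm rfl (model_Ueven hn (hF.trans e.symm)) (by rwa [e])⟩)
  · obtain ⟨r, hr⟩ : qq S ⟨n + 1, by omega⟩ ∣ qq S ⟨n + 2, by omega⟩ :=
      (Nat.pow_dvd_pow_iff two_ne_zero).1 ⟨_, e.trans (pow_succ _ 2)⟩
    have e1 : qq S ⟨n + 1, by omega⟩ = r ^ 2 := by
      rw [hr, mul_pow, pow_succ _ 2] at e
      exact (Nat.eq_of_mul_eq_mul_left (by positivity) e).symm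
    have e2 : qq S ⟨n + 2, by omega⟩ = r ^ 3 := by rw [hr, e1, pow_succ r 2]
    have := S0283.result (hF.trans e1) (2 * (n + 3) + 1) (by omega) (by omega)
    exact Or.inr (Or.inl ⟨F, _, inferInstance, 2 * (n + 3) + 1, _, hF.trans e1, by omega, by omega,
      rc_iso_C h e1 e2 (model_Uodd hn (hF.trans e1)) (by rwa [← e1, ← e2])⟩)

section F4

theorem rc_rx_F {S : Tits G (Fin 4) W} (h : ∀ i j, orderOf (S.s i * S.s j) = mF i j) (i j : Fin 4) :
    orderOf ((titsRx S Fin.revPerm).s i * (titsRx S Fin.revPerm).s j) = mF i j :=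
  (h _ _).trans (by revert i j; decide)

theorem rc_qq_F {S : Tits G (Fin 4) W} (M : MH S) (h : ∀ i j, orderOf (S.s i * S.s j) = mF i j)
    (i : Fin 4) : qq S i = ![qq S 1, qq S 1, qq S 2, qq S 2] i := by
  fin_cases i
  · exact M.qq_eq (h 0 1)
  · rfl
  · rfl
  · exact M.qq_eq (h 3 2)

theorem rc_iso_F [IsSimpleGroup G] {S : Tits G (Fin 4) W}
    (h : ∀ i j, orderOf (S.s i * S.s j) = mF i j) {G' : Type} [Group G'] [Finite G']
    [IsSimpleGroup G'] {q t : ℕ} (hq : qq S 1 = q) (ht : qq S 2 = t)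
    (hM : HasModel G' mF ![q, q, t, t]) : Nonempty (G ≃* G') := by
  have M : MH S := mh_F (faith_of_simple S) h
  obtain ⟨W', _, _, S', h1, h2⟩ := rc_model hM
  have M' : MH S' := mh_F (faith_of_simple S') h1
  subst hq ht
  by_cases e : Bt S 1 2 ↔ Bt S' 1 2
  · exact iso_F M M' h h1 (fun i => (rc_qq_F M h i).trans (h2 i).symm) e
  have c1 := rcCs_of M (h 0 1) (h 1 2) (h 0 2)
  have c2 := rcCs_of M' (h1 0 1) (h1 1 2) (h1 0 2)
  rw [h2, h2] at c2
  obtain ⟨h3, h4⟩ := quad_cases M (h 0 1) (h 1 2) (h 0 2)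
  have ho : qq S 2 = qq S 1 ∧ Odd (qq S 1) := by
    by_contra ho
    exact e (c1.iff c2 h3.two_le ho)
  refine iso_F (mh_F (faith_of_simple _) (rc_rx_F h)) M' (rc_rx_F h) h1 (fun i => ?_) ?_
  · rw [qq_rx, rc_qq_F M h, h2, ho.1]
    fin_cases i <;> rfl
  · rw [Bt_rx]
    change Bt S 2 1 ↔ _
    rcases h4 with h4 | ⟨h4, h5 | h5 | h5⟩
    · have := h4.2.2 ho.2
      tauto
    · tauto
    · rw [ho.1] at h5
      exact absurd (rc_pow_ne h3.two_le (h5.trans (pow_one _).symm)) (by omega)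
    · rw [ho.1] at h5
      exact absurd (rc_pow_ne h3.two_le h5) (by omega)

theorem rc_F_aux [IsSimpleGroup G] {S : Tits G (Fin 4) W}
    (h : ∀ i j, orderOf (S.s i * S.s j) = mF i j) (e : qq S 2 = qq S 1 ∨ qq S 2 = qq S 1 ^ 2) :
    Lie.IsoF4 G ∨ Lie.Iso2E6 G := by
  have h1 := (quad_cases (mh_F (faith_of_simple S) h) (h 0 1) (h 1 2) (h 0 2)).1
  rcases e with e | e
  · obtain ⟨F, _, _, hF⟩ := rc_exists_field h1
    have := (Chev.isSimpleGroup_group (F := F) (D := Lie.chevF4) (by simp)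
      (by rintro (h | h) <;> cases h)).1
    refine Or.inl ⟨F, _, inferInstance, rc_iso_F h hF.symm (e.trans hF.symm) ?_⟩
    convert model_F4 (F := F) using 1
    ext i; fin_cases i <;> rfl
  · obtain ⟨F, _, _, hF⟩ := rc_exists_field (h1.pow two_ne_zero)
    have := (S1070.result h1 hF).1
    exact Or.inr ⟨F, _, _, _, h1, hF, rc_iso_F h rfl e (model_2E6 hF)⟩

end F4

theorem recog_F [IsSimpleGroup G] (S : Tits G (Fin 4) W)
    (h : ∀ i j, orderOf (S.s i * S.s j) = mF i j) : Lie.IsoF4 G ∨ Lie.Iso2E6 G := by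
  have M : MH S := mh_F (faith_of_simple S) h
  have h1 := (quad_cases M (h 0 1) (h 1 2) (h 0 2)).1.two_le
  have h2 := (quad_cases M (h 3 2) (h 2 1) (h 3 1)).1.two_le
  have flip : qq S 1 = qq S 2 ∨ qq S 1 = qq S 2 ^ 2 → Lie.IsoF4 G ∨ Lie.Iso2E6 G := fun e =>
    rc_F_aux (rc_rx_F h) (by rwa [qq_rx, qq_rx])
  rcases rcCs_of M (h 0 1) (h 1 2) (h 0 2) with ⟨-, e⟩ | ⟨-, e | e | e⟩
  · exact rc_F_aux h e
  · exact rc_F_aux h (Or.inl e.1)
  · exact flip (Or.inr e.symm)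
  rcases rcCs_of M (h 3 2) (h 2 1) (h 3 1) with ⟨-, e'⟩ | ⟨-, e' | e' | e'⟩
  · exact flip e'
  · exact flip (Or.inl e'.1)
  · exact rc_F_aux h (Or.inr e'.symm)
  · have : qq S 1 ^ 4 = qq S 1 ^ 9 := by
      calc qq S 1 ^ 4 = (qq S 1 ^ 2) ^ 2 := by ring
        _ = (qq S 2 ^ 2) ^ 3 := by rw [e']; ring
        _ = qq S 1 ^ 9 := by rw [e]; ring
    exact absurd (rc_pow_ne h1 this) (by omega)

end Cfsg.Agent.BNP
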