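import Mathlib
import Cfsg.Agent.BNP.Comm
import Cfsg.Agent.CT.SLn
import Cfsg.Agent.CT.Dn
import Cfsg.Agent.Chev.StCTE
import Cfsg.Prelude.Def_Classification2

/-!
Recognition of the simply laced types from coordinates along the edges of the diagram.
-/

set_option autoImplicit false
set_option linter.unusedSectionVars false

namespace Cfsg.Agent.BNP

open Cfsg Cfsg.Lie Cfsg.Agent.St Cfsg.Agent.Chev Cfsg.Agent.RootSub Cfsg.Agent.KSG Cfsg.Agent.CT.L
open scoped MatrixGroups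

variable {G ι W : Type*} [Group G] [Group W] [Finite W]

/-- Coordinates along the edges. -/
structure EH (T : Tits G ι W) : Prop where
  ex : ∀ a b, orderOf (T.s a * T.s b) = 3 →
    ∃ (F : Type) (_ : Field F) (_ : Fintype F), Nonempty (EdgeSys T a b F)
  next : ∀ a b c, orderOf (T.s a * T.s b) = 3 → orderOf (T.s b * T.s c) = 3 →
    ∀ (F F' : Type) [Field F] [Field F'] [Finite F] [Finite F'] (E : EdgeSys T a b F)
      (_ : EdgeSys T b c F'), ∃ E'' : EdgeSys T b c F, E''.x 0 1 = E.x 1 2 ∧ E''.x 1 0 = E.x 2 1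

variable {T : Tits G ι W}

theorem MH.commute_sup (M : MH T) {a b : ι} (h : orderOf (T.s a * T.s b) = 2) {x y : G}
    (hx : x ∈ X T (rt T.s 1 a) ⊔ X T (rt T.s 1 a)ᶜ) (hy : y ∈ X T (rt T.s 1 b) ⊔ X T (rt T.s 1 b)ᶜ) :
    Commute x y := by
  have hab : a ≠ b := by
    rintro rfl
    rw [T.cox.sq, orderOf_one] at h
    omega
  have h' : orderOf (T.s b * T.s a) = 2 := (ord_comm T.cox a b).trans h
  have e1 : bt T.s a b 1 = rt T.s 1 b := by simpa [h] using bt_last (T := T) a b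
  have e2 : bt T.s a b 2 = (rt T.s 1 a)ᶜ := by simpa [h] using bt_ord (T := T) a b
  have e5 : bt T.s b a 2 = (rt T.s 1 b)ᶜ := by simpa [h'] using bt_ord (T := T) b a
  have e3 : bt T.s a b 3 = (rt T.s 1 b)ᶜ := by
    rw [bt_succ, e5, tr_compl]
    exact congrArg _ ((bt_succ a b 0).symm.trans e1)
  have e4 : bt T.s b a 1 = rt T.s 1 a := by simpa [h'] using bt_last (T := T) b a
  have key : ∀ {A B : Subgroup G} {z y : G}, (∀ x ∈ A, Commute x z) → (∀ x ∈ B, Commute x z) →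
      y ∈ A ⊔ B → Commute y z := fun {A B z y} h1 h2 hy =>
    Subgroup.mem_centralizer_singleton_iff.1 ((show A ⊔ B ≤ Subgroup.centralizer {z} from sup_le
      (fun x hx => Subgroup.mem_centralizer_singleton_iff.2 (h1 x hx))
      (fun x hx => Subgroup.mem_centralizer_singleton_iff.2 (h2 x hx))) hy)
  refine key (fun x hx => (key (fun y hy => ?_) (fun y hy => ?_) hy).symm)
    (fun x hx => (key (fun y hy => ?_) (fun y hy => ?_) hy).symm) hx
  · exact (M.commute_bt hab (k := 0) hx (by rwa [e1])).symm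
  · exact (M.commute_bt hab.symm (k := 1) (by rwa [e4]) (by rwa [e5])).symm
  · exact M.commute_bt hab (k := 1) (by rwa [e1]) (by rwa [e2])
  · exact (M.commute_bt hab (k := 2) (by rwa [e2]) (by rwa [e3])).symm

/-- Coherent parametrisation along a rooted tree with parent map `p`. -/
theorem EH.coherent (H : EH T) [Finite ι] (r : ι) (p : ι → ι) (ht : ι → ℕ)
    (hp : ∀ i, i ≠ r → orderOf (T.s (p i) * T.s i) = 3 ∧ ht (p i) < ht i) (j₀ : ι)
    (hj₀ : orderOf (T.s j₀ * T.s r) = 3) :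
    ∃ (F : Type) (_ : Field F) (_ : Fintype F) (φ : ι → SL(2, F) →* G),
      (∀ i, (φ i).range = X T (rt T.s 1 i) ⊔ X T (rt T.s 1 i)ᶜ) ∧
      (∀ i, i ≠ r → Edge (φ (p i)) (φ i)) ∧ ∃ a b : G, a * b ≠ b * a := by
  classical
  obtain ⟨F, _, _, ⟨E₀⟩⟩ := H.ex _ _ hj₀
  let Good : ι → (SL(2, F) →* G) → Prop := fun i φ => ∃ a, orderOf (T.s a * T.s i) = 3 ∧
    ∃ E : EdgeSys T a i F, (∀ t, φ (xx t) = E.x 1 2 t) ∧ ∀ t, φ (yy t) = E.x 2 1 t
  have ex : ∀ a i, orderOf (T.s a * T.s i) = 3 → ∀ E : EdgeSys T a i F, ∃ φ : SL(2, F) →* G,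
      (∀ t, φ (xx t) = E.x 1 2 t) ∧ ∀ t, φ (yy t) = E.x 2 1 t := fun a i _ E =>
    (E.st.stRel (by simp) (by simp)).exists_hom
  obtain ⟨φ₀, g₀⟩ : ∃ φ, Good r φ := (ex _ _ hj₀ E₀).imp fun φ h => ⟨j₀, hj₀, E₀, h⟩
  have step : ∀ i φ, ∃ ψ, i ≠ r → Good (p i) φ → Good i ψ ∧ Edge φ ψ := by
    intro i φ
    by_cases K : i ≠ r ∧ Good (p i) φ
    swap
    · exact ⟨1, fun a b => (K ⟨a, b⟩).elim⟩
    obtain ⟨hi, a, ha, E, h1, h2⟩ := K
    obtain ⟨F', _, _, ⟨E'⟩⟩ := H.ex _ _ (hp i hi).1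
    obtain ⟨E'', h3, h4⟩ := H.next _ _ _ ha (hp i hi).1 F F' E E'
    obtain ⟨ψ, h5, h6⟩ := ex _ _ (hp i hi).1 E''
    exact ⟨ψ, fun _ _ => ⟨⟨_, (hp i hi).1, E'', h5, h6⟩, _, E''.st,
      fun t => ⟨h3 ▸ h1 t, h4 ▸ h2 t, h5 t, h6 t⟩⟩⟩
  choose f hf using step
  have key : ∀ m, ∃ φ : ι → SL(2, F) →* G, φ r = φ₀ ∧ ∀ i, i ≠ r → ht i < m →
      Good i (φ i) ∧ Edge (φ (p i)) (φ i) := by
    intro m
    induction m with
    | zero => exact ⟨fun _ => φ₀, rfl, by simp⟩
    | succ m ih =>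
      obtain ⟨φ, a, b⟩ := ih
      refine ⟨fun i => if i ≠ r ∧ ht i = m then f i (φ (p i)) else φ i, by simp [a],
        fun i hi hm => ?_⟩
      have := (hp i hi).2
      simp only [if_neg (show ¬ (p i ≠ r ∧ ht (p i) = m) by omega)]
      split_ifs with h
      · refine hf i _ hi ?_
        by_cases h' : p i = r
        · rw [h', a]; exact g₀
        · exact (b _ h' (by omega)).1
      · exact b i hi (by have : ht i ≠ m := fun e => h ⟨hi, e⟩; omega)
  obtain ⟨M, hM⟩ := (Set.finite_range ht).bddAbove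
  obtain ⟨φ, a, b⟩ := key (M + 1)
  have c := fun i hi => b i hi (Nat.lt_succ_of_le (hM ⟨i, rfl⟩))
  refine ⟨F, inferInstance, inferInstance, φ, fun i => ?_, fun i hi => (c i hi).2, E₀.x 0 1 1,
    E₀.x 1 2 1, fun h => ?_⟩
  · obtain ⟨a, -, E, h1, h2⟩ : Good i (φ i) := by
      by_cases h : i = r
      · rw [h, a]; exact g₀
      · exact (c i h).1
    refine le_antisymm (range_le (fun t => Subgroup.mem_sup_left (h1 t ▸ E.mem 1 2 (by simp) t))
      fun t => Subgroup.mem_sup_right (h2 t ▸ E.mem 2 1 (by simp) t)) (sup_le ?_ ?_)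
    · intro g hg
      obtain ⟨t, rfl⟩ := E.surj 1 2 (by simp) g hg
      exact ⟨_, h1 t⟩
    · intro g hg
      obtain ⟨t, rfl⟩ := E.surj 2 1 (by simp) g hg
      exact ⟨_, h2 t⟩
  · have := E₀.st.cmt 0 1 2 (by simp) (by simp) (by simp) 1 1
    rw [h, mul_inv_cancel_right, mul_inv_cancel] at this
    simpa using E₀.inj 0 2 (by simp) _ this.symm

variable [Finite G] [IsSimpleGroup G] {n : ℕ} {S : Tits G (Fin n) W}

theorem EH.recog_A (H : EH S) (M : MH S) (hn : 3 ≤ n)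
    (h : ∀ i j, orderOf (S.s i * S.s j) = mA n i j) : IsPSL G := by
  have : Nonempty (Fin n) := ⟨⟨0, by omega⟩⟩
  obtain ⟨F, _, _, φ, hr, hE, hG⟩ := H.coherent ⟨0, by omega⟩ (fun i => ⟨i - 1, by omega⟩)
    (fun i => i) (fun i hi => by
      have : i.val ≠ 0 := fun h => hi (Fin.ext h)
      simp only [h, mA, Fin.ext_iff]
      split_ifs <;> omega) ⟨1, by omega⟩ (by simp [h, mA])
  obtain ⟨Φ, hΦ⟩ := exists_hom_SL (φ := fun i => if h : i < n then φ ⟨i, h⟩ else 1) (n := n)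
    (by omega) (fun i hi => by
      rw [dif_pos (by omega : i < n), dif_pos (by omega : i + 1 < n)]
      exact hE ⟨i + 1, by omega⟩ (by simp)) fun i j a b g k => by
      rw [dif_pos (by omega : i < n), dif_pos b]
      refine M.commute_sup ?_ ((hr _).le ⟨g, rfl⟩) ((hr _).le ⟨k, rfl⟩)
      simp only [h, mA, Fin.ext_iff]
      split_ifs <;> omega
  have := Class.PSL_isSimpleGroup (ι := Fin (n + 1)) (F := F) (by simp; omega)
  refine ⟨F, inferInstance, inferInstance, n + 1, by omega, by omega, nonempty_equiv_quot hG Φ (QuotientGroup.mk' _)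
    (MonoidHom.range_eq_top.1 (top_le_iff.1 (M.gen_top.ge.trans (iSup_le fun i => ?_))))
    (QuotientGroup.mk'_surjective _) (QuotientGroup.ker_mk' _).le⟩
  have := hΦ i i.2
  rwa [dif_pos i.2, hr] at this

theorem EH.recog_D (H : EH S) (M : MH S) (hn : 4 ≤ n)
    (h : ∀ i j, orderOf (S.s i * S.s j) = mD n i j) : IsPOmegaPlus G := by
  obtain ⟨k, rfl⟩ : ∃ k, n = k + 3 := ⟨n - 3, by omega⟩
  obtain ⟨F, _, _, φ, hr, hE, hG⟩ := H.coherent ⟨0, by omega⟩
    (fun i => if i.val = k + 2 then ⟨k, by omega⟩ else ⟨i - 1, by omega⟩) (fun i => i)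
    (fun i hi => by
      have : 0 < i.val := Nat.pos_of_ne_zero fun h => hi (Fin.ext h)
      have := i.2
      clear hi
      by_cases a : i.val = k + 2
      · simp [a, h, mD, Fin.ext_iff]
      · simp only [a, if_false, h, mD, Fin.ext_iff]
        rw [if_neg (by omega), if_pos (by omega)]
        omega) ⟨1, by omega⟩ (by
      simp [h, mD])
  have hc : ∀ i j (a : i < k + 3) (b : j < k + 3), mD (k + 3) ⟨i, a⟩ ⟨j, b⟩ = 2 → ∀ g h,
      Commute (φ ⟨i, a⟩ g) (φ ⟨j, b⟩ h) := fun i j a b c g k =>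
    M.commute_sup ((h _ _).trans c) ((hr _).le ⟨g, rfl⟩) ((hr _).le ⟨k, rfl⟩)
  obtain ⟨X, R, hX⟩ := exists_stD (φ := fun i => if h : i < k + 3 then φ ⟨i, h⟩ else 1) (k := k)
    (fun i hi => by
      rw [dif_pos (by omega : i < k + 3), dif_pos (by omega : i + 1 < k + 3)]
      simpa [show i ≠ k + 1 by omega] using hE ⟨i + 1, by omega⟩ (by simp)) (by
      rw [dif_pos (by omega : k < k + 3), dif_pos (by omega : k + 2 < k + 3)]
      simpa using hE ⟨k + 2, by omega⟩ (by simp)) (fun i j a b => by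
      rw [dif_pos (by omega : i < k + 3), dif_pos (by omega : j < k + 3)]
      exact hc _ _ _ _ (by simp only [mD, Fin.ext_iff]; split_ifs <;> omega)) fun i a b => by
      rw [dif_pos (by omega : i < k + 3), dif_pos (by omega : k + 2 < k + 3)]
      exact hc _ _ _ _ (by simp only [mD, Fin.ext_iff]; split_ifs <;> omega)
  refine ⟨F, inferInstance, inferInstance, k + 3, hn, R.nonempty_equiv (by omega) hG fun K hK =>
    top_le_iff.1 (M.gen_top.ge.trans (iSup_le fun i => ?_))⟩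
  have := hX K hK i i.2
  rwa [dif_pos i.2, hr] at this

theorem EH.recog_E_aux {D : ChevalleyDatum}
    (hD : D ∈ [chevG2, chevB2, chevD4, chevF4, chevE6, chevE7, chevE8]) (h4 : 4 ≤ D.rank)
    (hOK : ∀ i j : Fin D.rank, i ≤ j → (adjE i j → A2OK D i j) ∧ (¬ adjE i j → A11OK D i j))
    {S : Tits G (Fin D.rank) W} (H : EH S) (M : MH S)
    (h : ∀ i j, orderOf (S.s i * S.s j) = mE D.rank i j) : D.IsGroupOver G := by
  obtain ⟨_⟩ := good_of_mem hD
  obtain ⟨T⟩ := exists_rootTable hD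
  have : Nonempty (Fin D.rank) := ⟨⟨0, by omega⟩⟩
  let p : Fin D.rank → Fin D.rank := fun i =>
    ⟨if i.val = 2 then 0 else if i.val = 1 then 3 else i.val - 1, by split_ifs <;> omega⟩
  obtain ⟨F, _, _, φ, hφ, hE, -⟩ := H.coherent ⟨0, by omega⟩ p
    (fun i => if i.val = 1 then 4 else i.val) (fun i hi => by
      have hi' : i.val ≠ 0 := fun e => hi (Fin.ext e)
      by_cases a : i.val = 2
      · simp [h, mE, p, a, Fin.ext_iff]
      by_cases b : i.val = 1
      · simp [h, mE, p, b, Fin.ext_iff]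
      simp only [h, mE, p, if_neg a, if_neg b, Fin.ext_iff]
      split_ifs <;> omega) ⟨2, by omega⟩ (by simp [h, mE])
  obtain ⟨y, hy, hy'⟩ := exists_of_edges hD φ adjE hOK (fun i j hij h => by
      by_cases h5 : i.val = 1
      · have : p i = j := Fin.ext (by simp only [adjE, p] at h ⊢; split_ifs <;> omega)
        exact (this ▸ hE i fun e => by simp [e] at h5).symm
      · have : p j = i := Fin.ext (by
          simp only [adjE, p, Fin.le_def] at h hij ⊢; split_ifs <;> omega)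
        exact this ▸ hE j fun e => by
          have e' : j.val = 0 := congrArg Fin.val e
          simp only [adjE, Fin.le_def] at h hij; omega)
    fun i j hij hadj a b => (M.commute_sup (by
      rw [h, mE, if_neg hij]
      exact if_neg hadj) ((hφ i).le ⟨a, rfl⟩) ((hφ j).le ⟨b, rfl⟩)).eq
  obtain ⟨θ, hθ⟩ := hy.exists_hom hD (by
    rintro (rfl | rfl) <;> exact absurd h4 (by decide)) (by
    rw [eq_top_iff, ← M.gen_top]
    refine iSup_le fun i => hφ i ▸ range_le (fun t => ?_) fun t => ?_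
    · exact (hy' i t).1 ▸ mem_Gs (T.simple_lt' i) t
    · exact (hy' i t).2 ▸ mem_Gs (T.neg_lt' (T.simple_lt' i)) t)
  have hs := surjective_of_hom θ hθ
  refine ⟨F, inferInstance, inferInstance, ⟨MulEquiv.ofBijective θ ⟨?_, hs⟩⟩⟩
  rcases θ.normal_ker.eq_bot_or_eq_top with h | h
  · exact θ.ker_eq_bot_iff.mp h
  · have := (isND_xC (F := F) T).nontrivial
    obtain ⟨a, ha⟩ := exists_ne (1 : D.group F)
    obtain ⟨a, rfl⟩ := hs a
    exact absurd (show a ∈ θ.ker from h ▸ trivial) ha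

theorem EH.recog_E (H : EH S) (M : MH S) (hn : n = 6 ∨ n = 7 ∨ n = 8)
    (h : ∀ i j, orderOf (S.s i * S.s j) = mE n i j) : IsExceptionalLieType G := by
  rcases hn with rfl | rfl | rfl
  · exact .inr (.inr (.inl (EH.recog_E_aux (D := chevE6) (by simp) (by decide) edgesE6 H M h)))
  · exact .inr (.inr (.inr (.inl
      (EH.recog_E_aux (D := chevE7) (by simp) (by decide) edgesE7 H M h))))
  · exact .inr (.inr (.inr (.inr (.inl
      (EH.recog_E_aux (D := chevE8) (by simp) (by decide) edgesE8 H M h)))))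

end Cfsg.Agent.BNP
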