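import Mathlib
import Cfsg.Agent.BNP.SimplyA
import Cfsg.Agent.BNP.Plane
import Cfsg.Agent.BNP.Edge

/-!
Recognition of the simply laced types.
-/

set_option autoImplicit false

namespace Cfsg.Agent.BNP

open Cfsg Cfsg.Agent.St

variable {G W : Type*} [Group G] [Group W] [Finite W] [Finite G]

theorem MH.eh {ι : Type*} {T : Tits G ι W} (M : MH T) : EH T where
  ex _ _ h := by
    obtain ⟨F, _, _, ⟨P⟩⟩ := exists_planeSys h
    exact ⟨F, inferInstance, inferInstance, exists_edgeSys M h P⟩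
  next _ _ _ h h' _ _ _ _ _ _ E E' := EdgeSys.next M h h' E E'

variable [IsSimpleGroup G] {n : ℕ} {S : Tits G (Fin n) W}

theorem recog_A (M : MH S) (hn : 3 ≤ n) (h : ∀ i j, orderOf (S.s i * S.s j) = mA n i j) :
    IsPSL G := M.eh.recog_A M hn h

theorem recog_D (M : MH S) (hn : 4 ≤ n) (h : ∀ i j, orderOf (S.s i * S.s j) = mD n i j) :
    IsPOmegaPlus G := M.eh.recog_D M hn h

theorem recog_E (M : MH S) (hn : n = 6 ∨ n = 7 ∨ n = 8)
    (h : ∀ i j, orderOf (S.s i * S.s j) = mE n i j) : IsExceptionalLieType G :=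
  M.eh.recog_E M hn h

end Cfsg.Agent.BNP
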