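import Mathlib
import Cfsg.Agent.St.Cox

/-!
The bilinear form of a finite irreducible Coxeter system (orders in `{2, 3, 4, 6, 8}`) is positive
definite.
-/

set_option autoImplicit false

namespace Cfsg.Agent.BNP.CC

open Cfsg.Agent.St Cfsg.Agent.Chev Finset Polynomial

/-- The value `-2 cos (π / m)` for the orders that occur. -/
noncomputable def av (m : ℕ) : ℝ :=
  if m = 1 then 2 else if m = 3 then -1 else if m = 4 then -√2 else if m = 6 then -√3 else
    if m = 8 then -√(2 + √2) else 0

theorem av_one : av 1 = 2 := by simp [av]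
theorem av_two : av 2 = 0 := by simp [av]
theorem av_three : av 3 = -1 := by simp [av]
theorem av_four : av 4 = -√2 := by simp [av]
theorem av_six : av 6 = -√3 := by simp [av]
theorem av_eight : av 8 = -√(2 + √2) := by simp [av]

theorem av_nonpos {m : ℕ} (h : m ≠ 1) : av m ≤ 0 := by
  unfold av
  split_ifs <;> simp_all

theorem one_le_sqrt2 : (1 : ℝ) ≤ √2 := Real.one_le_sqrt.2 (by norm_num)

theorem sqrt2_le_sqrt3 : √2 ≤ √3 := Real.sqrt_le_sqrt (by norm_num)

theorem sqrt3_le : √3 ≤ √(2 + √2) := Real.sqrt_le_sqrt (by linarith [one_le_sqrt2])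

theorem av_le6 {m : ℕ} (h : m = 6 ∨ m = 8) : av m ≤ -√3 := by
  rcases h with rfl | rfl
  · rw [av_six]
  · rw [av_eight]; linarith [sqrt3_le]

theorem av_le4 {m : ℕ} (h : m = 4 ∨ m = 6 ∨ m = 8) : av m ≤ -√2 := by
  rcases h with rfl | h
  · rw [av_four]
  · linarith [av_le6 h, sqrt2_le_sqrt3]

theorem av_le3 {m : ℕ} (h : m = 3 ∨ m = 4 ∨ m = 6 ∨ m = 8) : av m ≤ -1 := by
  rcases h with rfl | h
  · rw [av_three]
  · linarith [av_le4 h, one_le_sqrt2]

section refl

variable {B : Type*} [Fintype B] [DecidableEq B]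

/-- The basis vector. -/
def ev (i : B) : B → ℝ := Pi.single i 1

/-- The linear form `v ↦ ∑ j, A i j * v j`. -/
def co (A : B → B → ℝ) (i : B) : (B → ℝ) →ₗ[ℝ] ℝ where
  toFun v := ∑ j, A i j * v j
  map_add' u v := by simp [mul_add, Finset.sum_add_distrib]
  map_smul' c v := by simp [Finset.mul_sum, mul_left_comm]

omit [DecidableEq B] in
theorem co_apply (A : B → B → ℝ) (i : B) (v : B → ℝ) : co A i v = ∑ j, A i j * v j := rfl

theorem co_ev (A : B → B → ℝ) (i j : B) : co A i (ev j) = A i j := by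
  simp [co_apply, ev, Pi.single_apply]

/-- The simple reflection. -/
def rf (A : B → B → ℝ) (i : B) : Module.End ℝ (B → ℝ) :=
  LinearMap.id - (co A i).smulRight (ev i)

theorem rf_apply (A : B → B → ℝ) (i : B) (v : B → ℝ) : rf A i v = v - co A i v • ev i := rfl

theorem rf_left {A : B → B → ℝ} {i : B} (hi : A i i = 2) (j : B) (v : B → ℝ) (x y : ℝ) :
    rf A i (v + x • ev i + y • ev j) = v + (-x - co A i v - A i j * y) • ev i + y • ev j := by
  simp only [rf_apply, map_add, map_smul, co_ev, hi, smul_eq_mul]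
  module

theorem rf_right {A : B → B → ℝ} {j : B} (hj : A j j = 2) (i : B) (v : B → ℝ) (x y : ℝ) :
    rf A j (v + x • ev i + y • ev j) = v + x • ev i + (-y - co A j v - A j i * x) • ev j := by
  simp only [rf_apply, map_add, map_smul, co_ev, hj, smul_eq_mul]
  module

theorem rf_cubic {A : B → B → ℝ} {i j : B} (hi : A i i = 2) (hj : A j j = 2) (hs : A j i = A i j)
    {t : ℝ} (ht : t = A i j ^ 2 - 2) :
    aeval (rf A i * rf A j) ((X - 1) * (X ^ 2 - C t * X + 1) : ℝ[X]) = 0 := by
  have e : ((X - 1) * (X ^ 2 - C t * X + 1) : ℝ[X]) =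
      X * X * X - C (t + 1) * (X * X) + C (t + 1) * X - 1 := by
    rw [map_add, map_one]; ring
  rw [e]
  simp only [map_sub, map_add, map_mul, aeval_X, aeval_C, map_one]
  refine LinearMap.ext fun v => ?_
  have hv : v = v + (0 : ℝ) • ev i + (0 : ℝ) • ev j := by simp
  simp only [LinearMap.sub_apply, LinearMap.add_apply, Module.End.mul_apply,
    Module.algebraMap_end_apply, Module.End.one_apply, LinearMap.zero_apply]
  rw [hv]
  simp only [rf_left hi, rf_right hj, hs]
  subst ht
  module

theorem rf_pow {A : B → B → ℝ} {i j : B} (hi : A i i = 2) (hj : A j j = 2) (hs : A j i = A i j)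
    {t : ℝ} (ht : t = A i j ^ 2 - 2) {m : ℕ} (q : ℝ[X])
    (hq : X ^ m - 1 = q * ((X - 1) * (X ^ 2 - C t * X + 1))) : (rf A i * rf A j) ^ m = 1 := by
  have := congrArg (aeval (rf A i * rf A j)) hq
  rw [map_mul, rf_cubic hi hj hs ht, mul_zero, map_sub, map_pow, aeval_X, map_one] at this
  exact sub_eq_zero.1 this

theorem liftable (M : CoxeterMatrix B) (hm : ∀ i j, i ≠ j → M i j ∈ ({2, 3, 4, 6, 8} : Set ℕ)) :
    M.IsLiftable (rf fun i j => av (M i j)) := by
  intro i j
  obtain ⟨A, hA⟩ : ∃ A : B → B → ℝ, A = fun i j => av (M i j) := ⟨_, rfl⟩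
  rw [← hA]
  have hi : A i i = 2 := by simp [av_one, hA]
  have hj : A j j = 2 := by simp [av_one, hA]
  have hs : A j i = A i j := by simp only [hA, M.symmetric j i]
  have ha : A i j = av (M i j) := by rw [hA]
  by_cases hij : i = j
  · subst hij
    refine LinearMap.ext fun v => ?_
    rw [M.diagonal, pow_one, Module.End.mul_apply, Module.End.one_apply]
    simp only [rf_apply, map_sub, map_smul, co_ev, hi, smul_eq_mul]
    module
  have h2 : √2 ^ 2 = (2 : ℝ) := Real.sq_sqrt (by norm_num)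
  have h3 : √3 ^ 2 = (3 : ℝ) := Real.sq_sqrt (by norm_num)
  have h8 : √(2 + √2) ^ 2 = 2 + √2 := Real.sq_sqrt (by positivity)
  rcases hm i j hij with h | h | h | h | h
  · refine LinearMap.ext fun v => ?_
    have hv : v = v + (0 : ℝ) • ev i + (0 : ℝ) • ev j := by simp
    rw [h, Module.End.one_apply]
    conv_lhs => rw [hv]
    simp only [pow_succ, pow_zero, one_mul, Module.End.mul_apply, rf_left hi, rf_right hj,
      hs, ha, h, av_two]
    module
  · rw [h]
    refine rf_pow hi hj hs (t := -1) (by simp only [ha, h, av_three]; norm_num) 1 ?_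
    rw [map_neg, map_one]; ring
  · rw [h]
    refine rf_pow hi hj hs (t := 0) (by simp only [ha, h, av_four, neg_sq, h2]; norm_num) (X + 1) ?_
    rw [map_zero]; ring
  · rw [h]
    refine rf_pow hi hj hs (t := 1) (by simp only [ha, h, av_six, neg_sq, h3]; norm_num)
      ((X + 1) * (X ^ 2 + X + 1)) ?_
    rw [map_one]; ring
  · rw [Set.mem_singleton_iff] at h
    rw [h]
    refine rf_pow hi hj hs (t := √2) (by simp only [ha, h, av_eight, neg_sq, h8]; ring)
      ((X + 1) * (X ^ 2 + 1) * (X ^ 2 + C √2 * X + 1)) ?_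
    have : (C √2 : ℝ[X]) ^ 2 = 2 := by rw [← map_pow, h2]; rfl
    linear_combination ((X ^ 4 - 1) * X ^ 2 : ℝ[X]) * this

end refl

theorem pos_def {ι W : Type*} [Group W] [Finite W] [Fintype ι] {s : ι → W} (h : Cox s)
    (irr : ∀ I : Set ι, I.Nonempty → I ≠ Set.univ → ∃ i ∈ I, ∃ j, j ∉ I ∧ s i * s j ≠ s j * s i)
    (hm : ∀ i j, i ≠ j → orderOf (s i * s j) ∈ ({2, 3, 4, 6, 8} : Set ℕ)) (x : ι → ℝ)
    (hx : x ≠ 0) : 0 < ∑ i, ∑ j, av (orderOf (s i * s j)) * x i * x j := by
  classical
  cases nonempty_fintype W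
  set M := orderMatrix h.inv.sq h.inj with hM
  have hMa : ∀ i j, orderOf (s i * s j) = M i j := fun i j => rfl
  obtain ⟨cs, hcs⟩ := h.ex.exists_coxeterSystem h.inv M hMa
  have hl := liftable M hm
  set A : ι → ι → ℝ := fun i j => av (M i j) with hA
  let ρ : W →* Module.End ℝ (ι → ℝ) := cs.lift ⟨rf A, hl⟩
  have hρ : ∀ i, ρ (s i) = rf A i := fun i => by rw [← hcs]; exact cs.lift_apply_simple hl i
  let β : (ι → ℝ) → (ι → ℝ) → ℝ := fun u v => ∑ w, ρ w u ⬝ᵥ ρ w v
  have hinv : ∀ g u v, β (ρ g u) (ρ g v) = β u v := by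
    intro g u v
    simp only [β, ← Module.End.mul_apply, ← map_mul]
    exact Fintype.sum_equiv (Equiv.mulRight g) _ _ fun w => rfl
  have hsym : ∀ u v, β u v = β v u := fun u v => by simp only [β, dotProduct_comm]
  have hpos : ∀ u, u ≠ 0 → 0 < β u u := by
    intro u hu
    refine Finset.sum_pos' (fun w _ => ?_) ⟨1, mem_univ _, ?_⟩
    · exact Finset.sum_nonneg fun k _ => mul_self_nonneg _
    · rw [map_one, Module.End.one_apply]
      exact lt_of_le_of_ne (Finset.sum_nonneg fun k _ => mul_self_nonneg _)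
        fun e => hu (dotProduct_self_eq_zero.1 e.symm)
  have hkey : ∀ i v, 2 * β (ev i) v = co A i v * β (ev i) (ev i) := by
    intro i v
    have h1 := hinv (s i) (ev i) v
    have h2 : rf A i (ev i) = -ev i := by
      rw [rf_apply, co_ev]; simp only [hA, M.diagonal, av_one]; module
    rw [hρ, h2, rf_apply] at h1
    simp only [β, map_neg, map_sub, map_smul, neg_dotProduct, dotProduct_sub, dotProduct_smul,
      smul_eq_mul, Finset.sum_neg_distrib, Finset.sum_sub_distrib, ← Finset.mul_sum] at h1 ⊢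
    linarith
  have hev : ∀ i : ι, ev i ≠ 0 := fun i e => by simpa [ev] using congrFun e i
  obtain ⟨i0, -⟩ : ∃ i, x i ≠ 0 := Function.ne_iff.1 hx
  have hn : ∀ i, β (ev i) (ev i) = β (ev i0) (ev i0) := by
    by_contra hc
    push Not at hc
    obtain ⟨k, hk⟩ := hc
    obtain ⟨i, hi, j, hj, hij⟩ := irr {i | β (ev i) (ev i) = β (ev i0) (ev i0)} ⟨i0, rfl⟩
      fun e => hk (by have : k ∈ (Set.univ : Set ι) := trivial; rwa [← e] at this)
    apply hj
    have hne : i ≠ j := by rintro rfl; exact hij rfl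
    have h1 := hkey i (ev j)
    have h2 := hkey j (ev i)
    rw [co_ev] at h1 h2
    have h3 : A j i = A i j := by simp only [hA, M.symmetric j i]
    have h4 : A i j ≤ -1 := by
      refine av_le3 ?_
      rcases hm i j hne with e | e
      · exfalso
        apply hij
        have := pow_orderOf_eq_one (s i * s j)
        rw [e, pow_two] at this
        calc s i * s j = (s i * s j)⁻¹ := eq_inv_of_mul_eq_one_left this
          _ = s j * s i := by rw [mul_inv_rev, h.inv.inv_eq, h.inv.inv_eq]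
      · exact e
    rw [hsym, h3] at h2
    have h5 : A i j * (β (ev j) (ev j) - β (ev i) (ev i)) = 0 := by linarith
    rcases mul_eq_zero.1 h5 with e | e
    · linarith
    · have hi' : β (ev i) (ev i) = β (ev i0) (ev i0) := hi
      change β (ev j) (ev j) = β (ev i0) (ev i0)
      linarith
  have hxs : x = ∑ i, x i • ev i := by
    ext k; simp [ev, Finset.sum_apply, Pi.single_apply]
  have h1 : β x x = ∑ i, x i * β (ev i) x := by
    conv_lhs => rw [show β x x = β (∑ i, x i • ev i) x by rw [← hxs]]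
    simp only [β, map_sum, map_smul, sum_dotProduct, smul_dotProduct, smul_eq_mul, Finset.mul_sum]
    exact Finset.sum_comm
  have h2 : 2 * β x x = (∑ i, ∑ j, av (orderOf (s i * s j)) * x i * x j) * β (ev i0) (ev i0) := by
    rw [h1, Finset.mul_sum, Finset.sum_mul]
    refine Finset.sum_congr rfl fun i _ => ?_
    rw [mul_left_comm, hkey, hn, co_apply, ← mul_assoc, Finset.mul_sum _ fun j => A i j * x j]
    refine congrArg (· * β (ev i0) (ev i0)) (Finset.sum_congr rfl fun j _ => ?_)
    rw [hMa]; simp only [hA]; ring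
  have h3 := hpos x hx
  have h4 := hpos _ (hev i0)
  by_contra hc
  push Not at hc
  nlinarith

end Cfsg.Agent.BNP.CC
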