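import Mathlib
import Cfsg.Agent.BNP.CoxPos

/-!
Diagrams that cannot occur inside a diagram with positive definite form.
-/

set_option autoImplicit false

namespace Cfsg.Agent.BNP.CC

open Finset

variable {ι : Type*}

/-- The quadratic form of the diagram `M` restricted to `S`. -/
noncomputable def Qf (M : ι → ι → ℕ) (S : Finset ι) (x : ι → ℝ) : ℝ :=
  ∑ a ∈ S, ∑ b ∈ S, av (M a b) * x a * x b

/-- The diagram `M` is positive definite on `N`. -/
structure PD (N : Set ι) (M : ι → ι → ℕ) : Prop where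
  diag : ∀ i ∈ N, M i i = 1
  symm : ∀ i ∈ N, ∀ j ∈ N, M i j = M j i
  off : ∀ i ∈ N, ∀ j ∈ N, i ≠ j → M i j ≠ 1
  pos : ∀ S : Finset ι, (∀ i ∈ S, i ∈ N) → ∀ x : ι → ℝ, (∃ i ∈ S, x i ≠ 0) → 0 < Qf M S x

/-- An edge. -/
def e3 (m : ℕ) : Prop := m = 3 ∨ m = 4 ∨ m = 6 ∨ m = 8

/-- An edge of multiplicity at least two. -/
def e4 (m : ℕ) : Prop := m = 4 ∨ m = 6 ∨ m = 8

/-- An edge of multiplicity at least three. -/
def e6 (m : ℕ) : Prop := m = 6 ∨ m = 8

namespace PD

variable {N : Set ι} {M : ι → ι → ℕ}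

theorem comap (h : PD N M) {κ : Type*} {N' : Set κ} {M' : κ → κ → ℕ} (v : κ → ι)
    (hN : ∀ i ∈ N', v i ∈ N) (inj : ∀ i ∈ N', ∀ j ∈ N', v i = v j → i = j)
    (hM : ∀ i ∈ N', ∀ j ∈ N', M' i j = M (v i) (v j)) : PD N' M' where
  diag i hi := by rw [hM i hi i hi, h.diag _ (hN i hi)]
  symm i hi j hj := by rw [hM i hi j hj, hM j hj i hi, h.symm _ (hN i hi) _ (hN j hj)]
  off i hi j hj hij := by
    rw [hM i hi j hj]; exact h.off _ (hN i hi) _ (hN j hj) fun e => hij (inj i hi j hj e)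
  pos S hS x hx := by
    classical
    obtain ⟨i0, hi0, hx0⟩ := hx
    have hinj : ∀ i ∈ S, ∀ j ∈ S, v i = v j → i = j := fun i hi j hj =>
      inj i (hS i hi) j (hS j hj)
    let y : ι → ℝ := fun a => if ha : ∃ i ∈ S, v i = a then x ha.choose else 0
    have hy : ∀ i ∈ S, y (v i) = x i := by
      intro i hi
      have ha : ∃ j ∈ S, v j = v i := ⟨i, hi, rfl⟩
      simp only [y, dif_pos ha]
      rw [hinj _ ha.choose_spec.1 _ hi ha.choose_spec.2]
    have := h.pos (S.image v) (by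
      intro a ha
      obtain ⟨i, hi, rfl⟩ := mem_image.1 ha
      exact hN i (hS i hi)) y ⟨v i0, mem_image_of_mem v hi0, by rwa [hy i0 hi0]⟩
    unfold Qf at this ⊢
    rw [sum_image hinj] at this
    refine this.trans_eq (sum_congr rfl fun a ha => ?_)
    rw [sum_image hinj]
    refine sum_congr rfl fun b hb => ?_
    rw [hy a ha, hy b hb, hM a (hS a ha) b (hS b hb)]

theorem ins_eq [DecidableEq ι] (h : PD N M) {S : Finset ι} (hS : ∀ i ∈ S, i ∈ N) {j : ι}
    (hj : j ∈ N) (hjS : j ∉ S) (x : ι → ℝ) :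
    Qf M (insert j S) x = Qf M S x + 2 * x j ^ 2 + 2 * ∑ a ∈ S, av (M a j) * x a * x j := by
  unfold Qf
  rw [sum_insert hjS, sum_insert hjS, h.diag j hj, av_one]
  simp only [sum_insert hjS, sum_add_distrib]
  have : ∑ b ∈ S, av (M j b) * x j * x b = ∑ a ∈ S, av (M a j) * x a * x j :=
    sum_congr rfl fun a ha => by rw [h.symm j hj a (hS a ha)]; ring
  rw [this]; ring

theorem ins_le [DecidableEq ι] (h : PD N M) {S : Finset ι} (hS : ∀ i ∈ S, i ∈ N) {j : ι}
    (hj : j ∈ N) (hjS : j ∉ S) {x : ι → ℝ} (hx : ∀ i, 0 ≤ x i) {z : ι} (hz : z ∈ S) {c : ℝ}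
    (hc : av (M z j) ≤ -c) :
    Qf M (insert j S) x ≤ Qf M S x + 2 * x j ^ 2 - 2 * c * x z * x j := by
  rw [h.ins_eq hS hj hjS, ← add_sum_erase S _ hz]
  have h1 : ∑ a ∈ S.erase z, av (M a j) * x a * x j ≤ 0 := by
    refine sum_nonpos fun a ha => ?_
    have ha' := mem_of_mem_erase ha
    have := av_nonpos (h.off a (hS a ha') j hj fun e => hjS (e ▸ ha'))
    rw [mul_assoc]
    exact mul_nonpos_of_nonpos_of_nonneg this (mul_nonneg (hx _) (hx _))
  have h2 := mul_le_mul_of_nonneg_right hc (mul_nonneg (hx z) (hx j))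
  nlinarith

/-- Bound for the form of a tree given by a parent function. -/
theorem tree {M : ℕ → ℕ → ℕ} {n : ℕ} (h : PD (Set.Iio (n + 1)) M) (par : ℕ → ℕ)
    (hpar : ∀ i < n, par i ≤ i) (x c : ℕ → ℝ) (hx : ∀ i, 0 ≤ x i) (h0 : x 0 ≠ 0)
    (hc : ∀ i < n, av (M (par i) (i + 1)) ≤ -c i) :
    0 < 2 * x 0 ^ 2 + ∑ i ∈ range n, (2 * x (i + 1) ^ 2 - 2 * c i * x (par i) * x (i + 1)) := by
  have key : ∀ k ≤ n, Qf M (range (k + 1)) x ≤
      2 * x 0 ^ 2 + ∑ i ∈ range k, (2 * x (i + 1) ^ 2 - 2 * c i * x (par i) * x (i + 1)) := by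
    intro k hk
    induction k with
    | zero => simp [Qf, h.diag 0 (by simp), av_one]; nlinarith
    | succ k ih =>
      rw [range_add_one (n := k + 1), sum_range_succ]
      have := h.ins_le (S := range (k + 1)) (j := k + 1) (fun i hi => by simp at hi ⊢; omega)
        (by simp; omega) (by simp) hx (z := par k) (by have := hpar k (by omega); simp; omega)
        (hc k (by omega))
      linarith [ih (by omega)]
  exact (h.pos (range (n + 1)) (fun i hi => by simpa using hi) x ⟨0, by simp, h0⟩).trans_le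
    (key n le_rfl)

theorem sub (h : PD N M) (d : ι) (l : List ι) (hl : l.Nodup) (hN : ∀ i ∈ l, i ∈ N) :
    PD (Set.Iio l.length) fun i j => M (l.getD i d) (l.getD j d) := by
  refine h.comap (fun i => l.getD i d) (fun i hi => hN _ ?_) (fun i hi j hj e => ?_)
    fun _ _ _ _ => rfl
  · rw [List.getD_eq_getElem _ _ hi]; exact List.getElem_mem _
  · simp only [List.getD_eq_getElem _ _ hi, List.getD_eq_getElem _ _ hj] at e
    exact (hl.getElem_inj_iff).1 e

theorem no_G2 (h : PD N M) (a b c : ι) (hl : [a, b, c].Nodup) (hN : ∀ i ∈ [a, b, c], i ∈ N)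
    (h1 : e6 (M a b)) (h2 : e3 (M a c)) : False := by
  have := (h.sub a _ hl hN).tree (fun _ => 0) (by simp) (fun i => [2, √3, 1].getD i 0)
    (fun i => [√3, 1].getD i 0) (fun i => by rcases i with _ | _ | _ | i <;> simp) (by simp)
    (fun i hi => by
      simp only [List.length_cons, List.length_nil] at hi
      interval_cases i
      · exact av_le6 h1
      · exact av_le3 h2)
  have h3 : √3 * √3 = (3 : ℝ) := Real.mul_self_sqrt (by norm_num)
  simp [sum_range_succ] at this
  nlinarith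

theorem no_F4 (h : PD N M) (a b c d e : ι) (hl : [a, b, c, d, e].Nodup)
    (hN : ∀ i ∈ [a, b, c, d, e], i ∈ N) (h1 : e3 (M a b)) (h2 : e3 (M b c)) (h3 : e4 (M c d))
    (h4 : e3 (M d e)) : False := by
  have := (h.sub a _ hl hN).tree (fun i => i) (by simp) (fun i => [1, 2, 3, 2 * √2, √2].getD i 0)
    (fun i => [1, 1, √2, 1].getD i 0) (fun i => by rcases i with _ | _ | _ | _ | _ | i <;> simp)
    (by simp)
    (fun i hi => by
      simp only [List.length_cons, List.length_nil] at hi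
      interval_cases i
      · exact av_le3 h1
      · exact av_le3 h2
      · exact av_le4 h3
      · exact av_le3 h4)
  have h3 : √2 * √2 = (2 : ℝ) := Real.mul_self_sqrt (by norm_num)
  simp [sum_range_succ] at this
  nlinarith

theorem no_E6 (h : PD N M) (z a a' b b' c c' : ι) (hl : [z, a, a', b, b', c, c'].Nodup)
    (hN : ∀ i ∈ [z, a, a', b, b', c, c'], i ∈ N) (h1 : e3 (M z a)) (h2 : e3 (M a a'))
    (h3 : e3 (M z b)) (h4 : e3 (M b b')) (h5 : e3 (M z c)) (h6 : e3 (M c c')) : False := by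
  have := (h.sub a _ hl hN).tree (fun i => [0, 1, 0, 3, 0, 5].getD i 0)
    (fun i hi => by
      simp only [List.length_cons, List.length_nil] at hi
      interval_cases i <;> simp) (fun i => [3, 2, 1, 2, 1, 2, 1].getD i 0)
    (fun _ => 1) (fun i => by rcases i with _ | _ | _ | _ | _ | _ | _ | i <;> simp)
    (by simp)
    (fun i hi => by
      simp only [List.length_cons, List.length_nil] at hi
      interval_cases i
      exacts [av_le3 h1, av_le3 h2, av_le3 h3, av_le3 h4, av_le3 h5, av_le3 h6])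
  simp [sum_range_succ] at this
  norm_num at this

theorem no_E7 (h : PD N M) (z a a' a'' b b' b'' c : ι) (hl : [z, a, a', a'', b, b', b'', c].Nodup)
    (hN : ∀ i ∈ [z, a, a', a'', b, b', b'', c], i ∈ N) (h1 : e3 (M z a)) (h2 : e3 (M a a'))
    (h3 : e3 (M a' a'')) (h4 : e3 (M z b)) (h5 : e3 (M b b')) (h6 : e3 (M b' b''))
    (h7 : e3 (M z c)) : False := by
  have := (h.sub a _ hl hN).tree (fun i => [0, 1, 2, 0, 4, 5, 0].getD i 0)
    (fun i hi => by
      simp only [List.length_cons, List.length_nil] at hi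
      interval_cases i <;> simp) (fun i => [4, 3, 2, 1, 3, 2, 1, 2].getD i 0)
    (fun _ => 1) (fun i => by rcases i with _ | _ | _ | _ | _ | _ | _ | _ | i <;> simp)
    (by simp)
    (fun i hi => by
      simp only [List.length_cons, List.length_nil] at hi
      interval_cases i
      exacts [av_le3 h1, av_le3 h2, av_le3 h3, av_le3 h4, av_le3 h5, av_le3 h6, av_le3 h7])
  simp [sum_range_succ] at this
  norm_num at this

theorem no_E8 (h : PD N M) (z a1 a2 a3 a4 a5 b b' c : ι)
    (hl : [z, a1, a2, a3, a4, a5, b, b', c].Nodup)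
    (hN : ∀ i ∈ [z, a1, a2, a3, a4, a5, b, b', c], i ∈ N) (h1 : e3 (M z a1)) (h2 : e3 (M a1 a2))
    (h3 : e3 (M a2 a3)) (h4 : e3 (M a3 a4)) (h5 : e3 (M a4 a5)) (h6 : e3 (M z b))
    (h7 : e3 (M b b')) (h8 : e3 (M z c)) : False := by
  have := (h.sub z _ hl hN).tree (fun i => [0, 1, 2, 3, 4, 0, 6, 0].getD i 0)
    (fun i hi => by
      simp only [List.length_cons, List.length_nil] at hi
      interval_cases i <;> simp) (fun i => [6, 5, 4, 3, 2, 1, 4, 2, 3].getD i 0)
    (fun _ => 1) (fun i => by rcases i with _ | _ | _ | _ | _ | _ | _ | _ | _ | i <;> simp)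
    (by simp)
    (fun i hi => by
      simp only [List.length_cons, List.length_nil] at hi
      interval_cases i
      exacts [av_le3 h1, av_le3 h2, av_le3 h3, av_le3 h4, av_le3 h5, av_le3 h6, av_le3 h7,
        av_le3 h8])
  simp [sum_range_succ] at this
  norm_num at this

/-- A path `p 0, …, p r` in the diagram. -/
structure Path (N : Set ι) (M : ι → ι → ℕ) (p : ℕ → ι) (r : ℕ) : Prop where
  mem : ∀ i ≤ r, p i ∈ N
  inj : ∀ i ≤ r, ∀ j ≤ r, p i = p j → i = j
  adj : ∀ i < r, e3 (M (p i) (p (i + 1)))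

theorem path_le [DecidableEq ι] (h : PD N M) {p : ℕ → ι} {r : ℕ} (P : Path N M p r) {x : ι → ℝ}
    (hx : ∀ i, 0 ≤ x i) (h2 : ∀ i ≤ r, x (p i) = 2) : Qf M ((range (r + 1)).image p) x ≤ 8 := by
  have key : ∀ k ≤ r, Qf M ((range (k + 1)).image p) x ≤ 8 := by
    intro k hk
    induction k with
    | zero => simp [Qf, h.diag _ (P.mem 0 hk), av_one, h2 0 hk]; norm_num
    | succ k ih =>
      rw [range_add_one (n := k + 1), image_insert]
      have := h.ins_le (S := (range (k + 1)).image p) (j := p (k + 1)) (fun a ha => by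
          obtain ⟨i, hi, rfl⟩ := mem_image.1 ha
          exact P.mem i (by simp at hi; omega)) (P.mem _ hk) (fun ha => by
          obtain ⟨i, hi, e⟩ := mem_image.1 ha
          simp at hi
          have := P.inj i (by omega) _ hk e
          omega) hx (z := p k) (mem_image_of_mem _ (by simp)) (av_le3 (P.adj k (by omega)))
      rw [h2 _ hk, h2 k (by omega)] at this
      linarith [ih (by omega)]
  exact key r le_rfl

theorem no_FF (h : PD N M) {p : ℕ → ι} {r : ℕ} (P : Path N M p r) (a a' b b' : ι)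
    (hl : [a, a', b, b'].Nodup) (hN : ∀ i ∈ [a, a', b, b'], i ∈ N)
    (hp : ∀ i ≤ r, p i ∉ [a, a', b, b']) (h1 : e3 (M (p 0) a)) (h2 : e3 (M (p 0) a'))
    (h3 : e3 (M (p r) b)) (h4 : e3 (M (p r) b')) : False := by
  classical
  set S := (range (r + 1)).image p with hS
  have hSN : ∀ i ∈ S, i ∈ N := fun a ha => by
    obtain ⟨i, hi, rfl⟩ := mem_image.1 ha
    exact P.mem i (by simp at hi; omega)
  have hpS : ∀ i ≤ r, p i ∈ S := fun i hi => mem_image_of_mem _ (by simp; omega)
  have hn : ∀ u ∈ [a, a', b, b'], u ∉ S := fun u hu ha => by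
    obtain ⟨i, hi, rfl⟩ := mem_image.1 ha
    exact hp i (by simp at hi; omega) hu
  let x : ι → ℝ := fun u => if u ∈ S then 2 else 1
  have hx : ∀ i, 0 ≤ x i := fun i => by simp only [x]; split_ifs <;> norm_num
  have x2 : ∀ i ≤ r, x (p i) = 2 := fun i hi => if_pos (hpS i hi)
  have x1 : ∀ u ∈ [a, a', b, b'], x u = 1 := fun u hu => if_neg (hn u hu)
  simp only [List.nodup_cons, List.mem_cons, List.not_mem_nil, or_false, not_or, forall_eq_or_imp,
    forall_eq] at hl hN hn x1
  have k0 := h.path_le P hx x2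
  have k1 := h.ins_le hSN hN.1 hn.1 hx (hpS 0 (by omega)) (av_le3 h1)
  have k2 := h.ins_le (S := insert a S) (by simp [hN]; exact hSN) hN.2.1 (by simp; grind) hx
    (mem_insert_of_mem (hpS 0 (by omega))) (av_le3 h2)
  have k3 := h.ins_le (S := insert a' (insert a S)) (by simp [hN]; exact hSN) hN.2.2.1
    (by simp; grind) hx (mem_insert_of_mem (mem_insert_of_mem (hpS r le_rfl))) (av_le3 h3)
  have k4 := h.ins_le (S := insert b (insert a' (insert a S))) (by simp [hN]; exact hSN) hN.2.2.2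
    (by simp; grind) hx (mem_insert_of_mem (mem_insert_of_mem (mem_insert_of_mem (hpS r le_rfl))))
    (av_le3 h4)
  have k5 := h.pos (insert b' (insert b (insert a' (insert a S)))) (by simp [hN]; exact hSN) x
    ⟨b', by simp, by simp [x1]⟩
  simp only [x1, x2 0 (by omega), x2 r le_rfl] at k1 k2 k3 k4
  linarith

theorem no_FD (h : PD N M) {p : ℕ → ι} {r : ℕ} (P : Path N M p r) (a a' b : ι)
    (hl : [a, a', b].Nodup) (hN : ∀ i ∈ [a, a', b], i ∈ N)
    (hp : ∀ i ≤ r, p i ∉ [a, a', b]) (h1 : e3 (M (p 0) a)) (h2 : e3 (M (p 0) a'))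
    (h3 : e4 (M (p r) b)) : False := by
  classical
  set S := (range (r + 1)).image p with hS
  have hSN : ∀ i ∈ S, i ∈ N := fun a ha => by
    obtain ⟨i, hi, rfl⟩ := mem_image.1 ha
    exact P.mem i (by simp at hi; omega)
  have hpS : ∀ i ≤ r, p i ∈ S := fun i hi => mem_image_of_mem _ (by simp; omega)
  have hn : ∀ u ∈ [a, a', b], u ∉ S := fun u hu ha => by
    obtain ⟨i, hi, rfl⟩ := mem_image.1 ha
    exact hp i (by simp at hi; omega) hu
  let x : ι → ℝ := fun u => if u ∈ S then 2 else if u = b then √2 else 1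
  have hx : ∀ i, 0 ≤ x i := fun i => by simp only [x]; split_ifs <;> positivity
  have x2 : ∀ i ≤ r, x (p i) = 2 := fun i hi => if_pos (hpS i hi)
  simp only [List.nodup_cons, List.mem_cons, List.not_mem_nil, or_false, not_or, forall_eq_or_imp,
    forall_eq] at hl hN hn
  have xa : x a = 1 := by simp [x, hn, hl]
  have xa' : x a' = 1 := by simp [x, hn, hl]
  have xb : x b = √2 := by simp [x, hn]
  have k0 := h.path_le P hx x2
  have k1 := h.ins_le hSN hN.1 hn.1 hx (hpS 0 (by omega)) (av_le3 h1)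
  have k2 := h.ins_le (S := insert a S) (by simp [hN]; exact hSN) hN.2.1 (by simp; grind) hx
    (mem_insert_of_mem (hpS 0 (by omega))) (av_le3 h2)
  have k3 := h.ins_le (S := insert a' (insert a S)) (by simp [hN]; exact hSN) hN.2.2
    (by simp; grind) hx (mem_insert_of_mem (mem_insert_of_mem (hpS r le_rfl))) (av_le4 h3)
  have k5 := h.pos (insert b (insert a' (insert a S))) (by simp [hN]; exact hSN) x
    ⟨a, by simp, by simp [xa]⟩
  simp only [xa, xa', xb, x2 0 (by omega), x2 r le_rfl] at k1 k2 k3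
  have h3 : √2 * √2 = (2 : ℝ) := Real.mul_self_sqrt (by norm_num)
  nlinarith

theorem no_DD (h : PD N M) {p : ℕ → ι} {r : ℕ} (P : Path N M p r) (a b : ι)
    (hl : a ≠ b) (ha : a ∈ N) (hb : b ∈ N) (hp : ∀ i ≤ r, p i ≠ a ∧ p i ≠ b)
    (h1 : e4 (M (p 0) a)) (h3 : e4 (M (p r) b)) : False := by
  classical
  set S := (range (r + 1)).image p with hS
  have hSN : ∀ i ∈ S, i ∈ N := fun a ha => by
    obtain ⟨i, hi, rfl⟩ := mem_image.1 ha
    exact P.mem i (by simp at hi; omega)
  have hpS : ∀ i ≤ r, p i ∈ S := fun i hi => mem_image_of_mem _ (by simp; omega)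
  have hna : a ∉ S := fun ha => by
    obtain ⟨i, hi, e⟩ := mem_image.1 ha
    exact (hp i (by simp at hi; omega)).1 e
  have hnb : b ∉ S := fun ha => by
    obtain ⟨i, hi, e⟩ := mem_image.1 ha
    exact (hp i (by simp at hi; omega)).2 e
  let x : ι → ℝ := fun u => if u ∈ S then 2 else √2
  have hx : ∀ i, 0 ≤ x i := fun i => by simp only [x]; split_ifs <;> positivity
  have x2 : ∀ i ≤ r, x (p i) = 2 := fun i hi => if_pos (hpS i hi)
  have xa : x a = √2 := by simp [x, hna]
  have xb : x b = √2 := by simp [x, hnb]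
  have k0 := h.path_le P hx x2
  have k1 := h.ins_le hSN ha hna hx (hpS 0 (by omega)) (av_le4 h1)
  have k2 := h.ins_le (S := insert a S) (by simp [ha]; exact hSN) hb (by simp; grind) hx
    (mem_insert_of_mem (hpS r le_rfl)) (av_le4 h3)
  have k5 := h.pos (insert b (insert a S)) (by simp [ha, hb]; exact hSN) x
    ⟨a, by simp, by simp [xa]⟩
  simp only [xa, xb, x2 0 (by omega), x2 r le_rfl] at k1 k2
  have h3 : √2 * √2 = (2 : ℝ) := Real.mul_self_sqrt (by norm_num)
  nlinarith

end PD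

end Cfsg.Agent.BNP.CC
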