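import Mathlib
import Cfsg.Agent.BNP.CoxForb

/-!
Adding one node to a diagram of finite type.
-/

set_option autoImplicit false

namespace Cfsg.Agent.BNP.CC

open Finset

/-- Type `A`. -/
def nA (i j : ℕ) : ℕ := if i = j then 1 else if i + 1 = j ∨ j + 1 = i then 3 else 2

/-- Type `C`. -/
def nC (n i j : ℕ) : ℕ :=
  if i = j then 1 else if i + 1 = j ∨ j + 1 = i then (if i + 1 = n ∨ j + 1 = n then 4 else 3) else 2

/-- Type `D`. -/
def nD (n i j : ℕ) : ℕ :=
  if i = j then 1 else if (j = i + 1 ∧ j + 2 ≤ n) ∨ (i = j + 1 ∧ i + 2 ≤ n) ∨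
    (i + 3 = n ∧ j + 1 = n) ∨ (j + 3 = n ∧ i + 1 = n) then 3 else 2

/-- Type `E`. -/
def nE (i j : ℕ) : ℕ :=
  if i = j then 1 else if (i = 0 ∧ j = 2) ∨ (i = 2 ∧ j = 0) ∨ (i = 1 ∧ j = 3) ∨ (i = 3 ∧ j = 1) ∨
    (2 ≤ i ∧ j = i + 1) ∨ (2 ≤ j ∧ i = j + 1) then 3 else 2

/-- Type `F`. -/
def nF (i j : ℕ) : ℕ :=
  if i = j then 1 else if i + 1 = j ∨ j + 1 = i then (if i + j = 3 then 4 else 3) else 2

/-- Rank two. -/
def nI (m i j : ℕ) : ℕ := if i = j then 1 else m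

/-- The diagram `T` on `k` nodes with the node `k` attached to `a` by an edge with label `μ`. -/
def ext (T : ℕ → ℕ → ℕ) (k a μ i j : ℕ) : ℕ :=
  if i = k then (if j = k then 1 else if j = a then μ else 2)
  else if j = k then (if i = a then μ else 2) else T i j

/-- The list of model diagrams on `k` nodes. -/
def Md (k : ℕ) (T : ℕ → ℕ → ℕ) : Prop :=
  T = nA ∨ (2 ≤ k ∧ T = nC k) ∨ (4 ≤ k ∧ T = nD k) ∨ ((k = 6 ∨ k = 7 ∨ k = 8) ∧ T = nE) ∨
    (k = 4 ∧ T = nF) ∨ (k = 2 ∧ ∃ m, e6 m ∧ T = nI m)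

/-- After renumbering, `M` is the diagram `T`. -/
def Eqv (k : ℕ) (M T : ℕ → ℕ → ℕ) : Prop :=
  ∃ σ : ℕ → ℕ, (∀ i < k, σ i < k) ∧ (∀ i < k, ∀ j < k, σ i = σ j → i = j) ∧
    ∀ i < k, ∀ j < k, M (σ i) (σ j) = T i j

/-- After renumbering, `M` is one of the model diagrams. -/
def Res (k : ℕ) (M : ℕ → ℕ → ℕ) : Prop := ∃ T, Md k T ∧ Eqv k M T

theorem resA {k : ℕ} {M : ℕ → ℕ → ℕ} (h : Eqv k M nA) : Res k M := ⟨_, .inl rfl, h⟩
theorem resC {k : ℕ} {M : ℕ → ℕ → ℕ} (hk : 2 ≤ k) (h : Eqv k M (nC k)) : Res k M :=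
  ⟨_, .inr (.inl ⟨hk, rfl⟩), h⟩
theorem resD {k : ℕ} {M : ℕ → ℕ → ℕ} (hk : 4 ≤ k) (h : Eqv k M (nD k)) : Res k M :=
  ⟨_, .inr (.inr (.inl ⟨hk, rfl⟩)), h⟩
theorem resE {k : ℕ} {M : ℕ → ℕ → ℕ} (hk : k = 6 ∨ k = 7 ∨ k = 8) (h : Eqv k M nE) : Res k M :=
  ⟨_, .inr (.inr (.inr (.inl ⟨hk, rfl⟩))), h⟩
theorem resF {M : ℕ → ℕ → ℕ} (h : Eqv 4 M nF) : Res 4 M :=
  ⟨_, .inr (.inr (.inr (.inr (.inl ⟨rfl, rfl⟩)))), h⟩

theorem eqv_list {k : ℕ} {M T : ℕ → ℕ → ℕ} (l : List ℕ)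
    (h : (∀ i < k, l.getD i 0 < k) ∧ (∀ i < k, ∀ j < k, l.getD i 0 = l.getD j 0 → i = j) ∧
      ∀ i < k, ∀ j < k, M (l.getD i 0) (l.getD j 0) = T i j) : Eqv k M T := ⟨fun i => l.getD i 0, h⟩

attribute [local grind] ext nA nC nD nE nF nI e3 e4 e6

variable {k a μ : ℕ}

theorem stepA (hk : 1 ≤ k) (ha : a < k) (hμ : e3 μ) (h : PD (Set.Iio (k + 1)) (ext nA k a μ)) :
    Res (k + 1) (ext nA k a μ) := by
  by_cases h1 : k = 1
  · subst h1
    obtain rfl : a = 0 := by omega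
    rcases hμ with rfl | rfl | hμ
    · exact resA (eqv_list [0, 1] (by decide))
    · exact resC le_rfl (eqv_list [0, 1] (by decide))
    · exact ⟨nI μ, .inr (.inr (.inr (.inr (.inr ⟨rfl, μ, hμ, rfl⟩)))), fun i => i, fun _ h => h,
        fun _ _ _ _ h => h, by grind⟩
  rcases hμ with rfl | rfl | hμ
  · by_cases h2 : a + 1 = k
    · exact resA ⟨fun i => i, fun _ h => h, fun _ _ _ _ h => h, by grind⟩
    by_cases h3 : a = 0
    · exact resA ⟨fun i => if i = 0 then k else i - 1, by grind, by grind, by grind⟩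
    by_cases h4 : a + 2 = k
    · exact resD (by omega) ⟨fun i => i, fun _ h => h, fun _ _ _ _ h => h, by grind⟩
    by_cases h5 : a = 1
    · exact resD (by omega) ⟨fun i => if i = k then k else k - 1 - i, by grind, by grind, by grind⟩
    by_cases h6 : 3 ≤ a ∧ a + 4 ≤ k
    · refine (h.no_E7 a (a - 1) (a - 2) (a - 3) (a + 1) (a + 2) (a + 3) k (by simp; omega)
        (by simp; omega) ?_ ?_ ?_ ?_ ?_ ?_ ?_).elim <;> grind
    by_cases h7 : a + 6 ≤ k
    · refine (h.no_E8 a (a + 1) (a + 2) (a + 3) (a + 4) (a + 5) (a - 1) (a - 2) k (by simp; omega)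
        (by simp; omega) ?_ ?_ ?_ ?_ ?_ ?_ ?_ ?_).elim <;> grind
    by_cases h8 : 5 ≤ a
    · refine (h.no_E8 a (a - 1) (a - 2) (a - 3) (a - 4) (a - 5) (a + 1) (a + 2) k (by simp; omega)
        (by simp; omega) ?_ ?_ ?_ ?_ ?_ ?_ ?_ ?_).elim <;> grind
    have : (a = 2 ∧ k = 5) ∨ (a = 2 ∧ k = 6) ∨ (a = 2 ∧ k = 7) ∨ (a = 3 ∧ k = 6) ∨
      (a = 4 ∧ k = 7) := by omega
    rcases this with ⟨rfl, rfl⟩ | ⟨rfl, rfl⟩ | ⟨rfl, rfl⟩ | ⟨rfl, rfl⟩ | ⟨rfl, rfl⟩
    · exact resE (by simp) (eqv_list [0, 5, 1, 2, 3, 4] (by decide))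
    · exact resE (by simp) (eqv_list [0, 6, 1, 2, 3, 4, 5] (by decide))
    · exact resE (by simp) (eqv_list [0, 7, 1, 2, 3, 4, 5, 6] (by decide))
    · exact resE (by simp) (eqv_list [5, 6, 4, 3, 2, 1, 0] (by decide))
    · exact resE (by simp) (eqv_list [6, 7, 5, 4, 3, 2, 1, 0] (by decide))
  · by_cases h2 : a + 1 = k
    · exact resC (by omega) ⟨fun i => i, fun _ h => h, fun _ _ _ _ h => h, by grind⟩
    by_cases h3 : a = 0
    · exact resC (by omega) ⟨fun i => if i = k then k else k - 1 - i, by grind, by grind, by grind⟩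
    · refine (h.no_FD (p := fun _ => a) (r := 0) ⟨by simp; omega, by omega, by omega⟩ (a - 1)
        (a + 1) k (by simp; omega) (by simp; omega) (by simp; omega) ?_ ?_ ?_).elim <;> grind
  · by_cases h3 : a = 0
    · refine (h.no_G2 a k 1 (by simp; omega) (by simp; omega) ?_ ?_).elim <;> grind
    · refine (h.no_G2 a k (a - 1) (by simp; omega) (by simp; omega) ?_ ?_).elim <;> grind

theorem stepC (hk : 2 ≤ k) (ha : a < k) (hμ : e3 μ) (h : PD (Set.Iio (k + 1)) (ext (nC k) k a μ)) :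
    Res (k + 1) (ext (nC k) k a μ) := by
  rcases hμ with rfl | rfl | hμ
  · by_cases h1 : a = 0
    · exact resC (by omega) ⟨fun i => if i = 0 then k else i - 1, by grind, by grind, by grind⟩
    by_cases h2 : a + 1 = k
    · by_cases h3 : k = 2
      · subst h3
        obtain rfl : a = 1 := by omega
        exact resC (by omega) (eqv_list [2, 1, 0] (by decide))
      by_cases h4 : k = 3
      · subst h4
        obtain rfl : a = 2 := by omega
        exact resF (eqv_list [0, 1, 2, 3] (by decide))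
      refine (h.no_F4 (a - 3) (a - 2) (a - 1) a k (by simp; omega) (by simp; omega)
        ?_ ?_ ?_ ?_).elim <;> grind
    · refine (h.no_FD (p := fun i => a + i) (r := k - 2 - a) ⟨by simp; omega, by omega, by grind⟩
        (a - 1) k (k - 1) (by simp; omega) (by simp; omega) (by simp; omega) ?_ ?_ ?_).elim <;>
        grind
  · by_cases h2 : a + 1 = k
    · refine (h.no_DD (p := fun _ => a) (r := 0) ⟨by simp; omega, by omega, by omega⟩
        (a - 1) k (by omega) (by simp; omega) (by simp) (by omega) ?_ ?_).elim <;> grind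
    · refine (h.no_DD (p := fun i => a + i) (r := k - 2 - a) ⟨by simp; omega, by omega, by grind⟩
        k (k - 1) (by omega) (by simp) (by simp) (by omega) ?_ ?_).elim <;> grind
  · by_cases h3 : a = 0
    · refine (h.no_G2 a k 1 (by simp; omega) (by simp; omega) ?_ ?_).elim <;> grind
    · refine (h.no_G2 a k (a - 1) (by simp; omega) (by simp; omega) ?_ ?_).elim <;> grind

theorem stepD (hk : 4 ≤ k) (ha : a < k) (hμ : e3 μ) (h : PD (Set.Iio (k + 1)) (ext (nD k) k a μ)) :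
    Res (k + 1) (ext (nD k) k a μ) := by
  rcases hμ with rfl | rfl | hμ
  · by_cases h1 : a = 0
    · exact resD (by omega) ⟨fun i => if i = 0 then k else i - 1, by grind, by grind,
        by grind (splits := 30)⟩
    by_cases h2 : a + 3 ≤ k
    · refine (h.no_FF (p := fun i => a + i) (r := k - 3 - a) ⟨by simp; omega, by omega, by grind⟩
        (a - 1) k (k - 1) (k - 2) (by simp; omega) (by simp; omega) (by simp; omega)
        ?_ ?_ ?_ ?_).elim <;> grind
    by_cases h3 : 8 ≤ k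
    · refine (h.no_E8 (k - 3) (k - 4) (k - 5) (k - 6) (k - 7) (k - 8) a k (2 * k - 3 - a)
        (by simp; omega) (by simp; omega) ?_ ?_ ?_ ?_ ?_ ?_ ?_ ?_).elim <;> grind
    have : (a = 2 ∧ k = 4) ∨ (a = 3 ∧ k = 4) ∨ (a = 3 ∧ k = 5) ∨ (a = 4 ∧ k = 5) ∨
      (a = 4 ∧ k = 6) ∨ (a = 5 ∧ k = 6) ∨ (a = 5 ∧ k = 7) ∨ (a = 6 ∧ k = 7) := by omega
    rcases this with ⟨rfl, rfl⟩ | ⟨rfl, rfl⟩ | ⟨rfl, rfl⟩ | ⟨rfl, rfl⟩ | ⟨rfl, rfl⟩ | ⟨rfl, rfl⟩ |
      ⟨rfl, rfl⟩ | ⟨rfl, rfl⟩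
    · exact resD (by simp) (eqv_list [4, 2, 1, 0, 3] (by decide))
    · exact resD (by simp) (eqv_list [4, 3, 1, 0, 2] (by decide))
    · exact resE (by simp) (eqv_list [5, 4, 3, 2, 1, 0] (by decide))
    · exact resE (by simp) (eqv_list [5, 3, 4, 2, 1, 0] (by decide))
    · exact resE (by simp) (eqv_list [6, 5, 4, 3, 2, 1, 0] (by decide))
    · exact resE (by simp) (eqv_list [6, 4, 5, 3, 2, 1, 0] (by decide))
    · exact resE (by simp) (eqv_list [7, 6, 5, 4, 3, 2, 1, 0] (by decide))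
    · exact resE (by simp) (eqv_list [7, 5, 6, 4, 3, 2, 1, 0] (by decide))
  · by_cases h2 : a + 3 ≤ k
    · refine (h.no_FD (p := fun i => k - 3 - i) (r := k - 3 - a)
        ⟨by simp; omega, by omega, by grind⟩ (k - 1) (k - 2) k (by simp; omega) (by simp)
        (by simp; omega) ?_ ?_ ?_).elim <;> grind
    · refine (h.no_FD (p := fun i => if i = 0 then k - 3 else a) (r := 1)
        ⟨by grind, by grind, by grind⟩ (k - 4) (2 * k - 3 - a) k (by simp; omega) (by grind)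
        (by grind) ?_ ?_ ?_).elim <;> grind
  · by_cases h3 : a + 3 ≤ k
    · refine (h.no_G2 a k (a + 1) (by simp; omega) (by simp; omega) ?_ ?_).elim <;> grind
    · refine (h.no_G2 a k (k - 3) (by simp; omega) (by simp; omega) ?_ ?_).elim <;> grind

theorem stepE (hk : k = 6 ∨ k = 7 ∨ k = 8) (ha : a < k) (hμ : e3 μ)
    (h : PD (Set.Iio (k + 1)) (ext nE k a μ)) : Res (k + 1) (ext nE k a μ) := by
  rcases hμ with rfl | rfl | hμ
  · by_cases h0 : a = 0
    · subst h0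
      by_cases h6 : k = 6
      · subst h6
        exact resE (by simp) (eqv_list [5, 1, 4, 3, 2, 0, 6] (by decide))
      refine (h.no_E7 3 2 0 k 4 5 6 1 (by simp; omega) (by simp; omega)
        ?_ ?_ ?_ ?_ ?_ ?_ ?_).elim <;> grind
    by_cases h1 : a = 1
    · refine (h.no_E6 3 2 0 1 k 4 5 (by simp; omega) (by simp; omega)
        ?_ ?_ ?_ ?_ ?_ ?_).elim <;> grind
    by_cases h2 : a = 2
    · refine (h.no_FF (p := fun i => 2 + i) (r := 1) ⟨by simp; omega, by omega, by grind⟩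
        0 k 1 4 (by simp; omega) (by simp; omega) (by simp; omega) ?_ ?_ ?_ ?_).elim <;> grind
    by_cases h3 : a + 1 = k
    · by_cases h8 : k = 8
      · refine (h.no_E8 3 4 5 6 7 8 2 0 1 (by simp) (by simp; omega)
          ?_ ?_ ?_ ?_ ?_ ?_ ?_ ?_).elim <;> grind
      · exact resE (by omega) ⟨fun i => i, fun _ h => h, fun _ _ _ _ h => h, by grind⟩
    · refine (h.no_FF (p := fun i => 3 + i) (r := a - 3) ⟨by simp; omega, by omega, by grind⟩
        1 2 k (a + 1) (by simp; omega) (by simp; omega) (by simp; omega) ?_ ?_ ?_ ?_).elim <;> grind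
  · by_cases h0 : a = 0
    · refine (h.no_FD (p := fun i => if i = 2 then 0 else 3 - i) (r := 2)
        ⟨by grind, by grind, by grind⟩ 1 4 k (by simp; omega) (by simp; omega)
        (by grind) ?_ ?_ ?_).elim <;> grind
    by_cases h1 : a = 1
    · refine (h.no_FD (p := fun i => if i = 0 then 3 else 1) (r := 1)
        ⟨by grind, by grind, by grind⟩ 2 4 k (by simp; omega) (by simp; omega)
        (by grind) ?_ ?_ ?_).elim <;> grind
    by_cases h2 : a = 2
    · refine (h.no_FD (p := fun i => 3 - i) (r := 1)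
        ⟨by grind, by grind, by grind⟩ 1 4 k (by simp; omega) (by simp; omega)
        (by grind) ?_ ?_ ?_).elim <;> grind
    · refine (h.no_FD (p := fun i => 3 + i) (r := a - 3)
        ⟨by grind, by grind, by grind⟩ 1 2 k (by simp; omega) (by simp; omega)
        (by grind) ?_ ?_ ?_).elim <;> grind
  · by_cases h0 : a = 0
    · refine (h.no_G2 a k 2 (by simp; omega) (by simp; omega) ?_ ?_).elim <;> grind
    by_cases h1 : a = 1 ∨ a = 2
    · refine (h.no_G2 a k 3 (by simp; omega) (by simp; omega) ?_ ?_).elim <;> grind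
    · refine (h.no_G2 a k (a - 1) (by simp; omega) (by simp; omega) ?_ ?_).elim <;> grind

theorem stepF (ha : a < 4) (hμ : e3 μ) (h : PD (Set.Iio (4 + 1)) (ext nF 4 a μ)) : False := by
  rcases hμ with rfl | rfl | hμ
  · interval_cases a
    · refine h.no_F4 4 0 1 2 3 (by simp) (by simp) ?_ ?_ ?_ ?_ <;> grind
    · refine h.no_FD (p := fun _ => 1) (r := 0) ⟨by simp, by omega, by omega⟩ 0 4 2 (by simp)
        (by simp) (by simp) ?_ ?_ ?_ <;> grind
    · refine h.no_FD (p := fun _ => 2) (r := 0) ⟨by simp, by omega, by omega⟩ 3 4 1 (by simp)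
        (by simp) (by simp) ?_ ?_ ?_ <;> grind
    · refine h.no_F4 4 3 2 1 0 (by simp) (by simp) ?_ ?_ ?_ ?_ <;> grind
  · by_cases h1 : a ≤ 1
    · refine h.no_DD (p := fun i => 1 - i) (r := 1 - a) ⟨by simp; omega, by omega, by grind⟩ 2 4
        (by simp) (by simp) (by simp) (by omega) ?_ ?_ <;> grind
    · refine h.no_DD (p := fun i => 2 + i) (r := a - 2) ⟨by simp; omega, by omega, by grind⟩ 1 4
        (by simp) (by simp) (by simp) (by omega) ?_ ?_ <;> grind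
  · by_cases h3 : a = 0
    · refine h.no_G2 a 4 1 (by simp; omega) (by simp; omega) ?_ ?_ <;> grind
    · refine h.no_G2 a 4 (a - 1) (by simp; omega) (by simp; omega) ?_ ?_ <;> grind

theorem stepI {m : ℕ} (hm : e6 m) (ha : a < 2) (hμ : e3 μ)
    (h : PD (Set.Iio (2 + 1)) (ext (nI m) 2 a μ)) : False := by
  refine h.no_G2 a (1 - a) 2 (by simp; omega) (by simp; omega) ?_ ?_ <;> grind

theorem step {T : ℕ → ℕ → ℕ} (hk : 1 ≤ k) (hT : Md k T) (ha : a < k) (hμ : e3 μ)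
    (h : PD (Set.Iio (k + 1)) (ext T k a μ)) : Res (k + 1) (ext T k a μ) := by
  rcases hT with rfl | ⟨h1, rfl⟩ | ⟨h1, rfl⟩ | ⟨h1, rfl⟩ | ⟨rfl, rfl⟩ | ⟨rfl, m, hm, rfl⟩
  exacts [stepA hk ha hμ h, stepC h1 ha hμ h, stepD h1 ha hμ h, stepE h1 ha hμ h,
    (stepF ha hμ h).elim, (stepI hm ha hμ h).elim]

end Cfsg.Agent.BNP.CC
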