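import Mathlib
import Cfsg.Agent.BNP.Defs
import Cfsg.Agent.BNP.CoxStep

/-!
Classification of the finite irreducible Coxeter systems of rank at least three whose orders lie in
`{2, 3, 4, 6, 8}`.
-/

set_option autoImplicit false

namespace Cfsg.Agent.BNP

open Cfsg.Agent.St Cfsg.Agent.Chev Finset

namespace CC

theorem grow {ι : Type*} [Fintype ι] [DecidableEq ι] {M : ι → ι → ℕ} (h : PD Set.univ M)
    (hm : ∀ i j, i ≠ j → M i j = 2 ∨ e3 (M i j))
    (irr : ∀ I : Set ι, I.Nonempty → I ≠ Set.univ → ∃ i ∈ I, ∃ j, j ∉ I ∧ e3 (M i j))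
    {k : ℕ} (h1 : 1 ≤ k) (hk : k ≤ Fintype.card ι) :
    ∃ (v : ℕ → ι) (T : ℕ → ℕ → ℕ), (∀ i < k, ∀ j < k, v i = v j → i = j) ∧ Md k T ∧
      (∀ i < k, ∀ j < k, M (v i) (v j) = T i j) ∧ Qf M ((range k).image v) (fun _ => 1) ≤ 2 := by
  induction k, h1 using Nat.le_induction with
  | base =>
    obtain ⟨i0⟩ := Fintype.card_pos_iff.1 hk
    refine ⟨fun _ => i0, nA, by omega, .inl rfl, fun i hi j hj => ?_, ?_⟩
    · rw [h.diag _ trivial, nA, if_pos (by omega)]
    · simp [Qf, h.diag _ trivial, av_one]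
  | succ k h1 ih =>
    obtain ⟨v, T, inj, hT, hM, hQ⟩ := ih (by omega)
    set S := (range k).image v with hS
    have hc : S.card = k := by
      rw [hS, card_image_of_injOn, card_range]
      intro i hi j hj
      exact inj i (by simpa using hi) j (by simpa using hj)
    obtain ⟨z, hz, j, hj, hzj⟩ := irr S ⟨v 0, mem_image_of_mem v (by simp; omega)⟩ (by
      intro e
      have : S = univ := by rwa [← coe_univ, coe_inj] at e
      rw [this, card_univ] at hc
      omega)
    obtain ⟨a, ha, rfl⟩ := mem_image.1 hz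
    rw [mem_range] at ha
    replace hj : j ∉ S := hj
    have hvj : ∀ i < k, v i ≠ j := fun i hi e => hj (e ▸ mem_image_of_mem v (mem_range.2 hi))
    have h2 : ∀ b < k, b ≠ a → M (v b) j = 2 := by
      intro b hb hba
      refine (hm _ _ (hvj b hb)).resolve_right fun e => ?_
      have k1 := h.ins_eq (S := S) (fun _ _ => trivial) trivial hj fun _ => 1
      have k2 := h.pos (insert j S) (fun _ _ => trivial) (fun _ => 1) ⟨j, by simp, one_ne_zero⟩
      have hb' : v b ∈ S.erase (v a) :=
        mem_erase.2 ⟨fun e => hba (inj b hb a ha e), mem_image_of_mem v (mem_range.2 hb)⟩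
      rw [← add_sum_erase S _ hz, ← add_sum_erase _ _ hb'] at k1
      have k3 : ∑ x ∈ (S.erase (v a)).erase (v b), av (M x j) * 1 * 1 ≤ 0 := by
        refine sum_nonpos fun x hx => ?_
        have := av_nonpos (h.off x trivial j trivial fun e =>
          hj (e ▸ mem_of_mem_erase (mem_of_mem_erase hx)))
        linarith
      linarith [av_le3 e, av_le3 hzj]
    let w : ℕ → ι := fun i => if i = k then j else v i
    have winj : ∀ i < k + 1, ∀ i' < k + 1, w i = w i' → i = i' := by
      intro i hi i' hi' e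
      simp only [w] at e
      split_ifs at e with p q q
      · omega
      · exact absurd e.symm (hvj i' (by omega))
      · exact absurd e (hvj i (by omega))
      · exact inj i (by omega) i' (by omega) e
    have wM : ∀ i < k + 1, ∀ i' < k + 1, ext T k a (M (v a) j) i i' = M (w i) (w i') := by
      intro i hi i' hi'
      simp only [w, ext]
      split_ifs with p q r q r
      · exact (h.diag _ trivial).symm
      · rw [r, h.symm _ trivial _ trivial]
      · rw [h.symm _ trivial _ trivial, h2 i' (by omega) r]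
      · rw [r]
      · rw [h2 i (by omega) r]
      · rw [hM i (by omega) i' (by omega)]
    obtain ⟨T', hT', σ, s1, s2, s3⟩ := step h1 hT ha hzj
      (h.comap (N' := Set.Iio (k + 1)) w (fun _ _ => trivial) winj wM)
    refine ⟨fun i => w (σ i), T', fun i hi i' hi' e => s2 i hi i' hi'
      (winj _ (s1 i hi) _ (s1 i' hi') e), hT', fun i hi i' hi' => by
        rw [← wM _ (s1 i hi) _ (s1 i' hi'), s3 i hi i' hi'], ?_⟩
    have e : (range (k + 1)).image (fun i => w (σ i)) = insert j S := by
      refine eq_of_subset_of_card_le (fun x hx => ?_) ?_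
      · obtain ⟨i, hi, rfl⟩ := mem_image.1 hx
        have := s1 i (mem_range.1 hi)
        simp only [w]
        split_ifs with p
        · exact mem_insert_self _ _
        · exact mem_insert_of_mem (mem_image_of_mem v (mem_range.2 (by omega)))
      · rw [card_insert_of_notMem hj, hc, card_image_of_injOn, card_range]
        intro i hi i' hi' e
        have hi : i < k + 1 := by simpa using hi
        have hi' : i' < k + 1 := by simpa using hi'
        exact s2 i hi i' hi' (winj _ (s1 i hi) _ (s1 i' hi') e)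
    rw [e]
    have := h.ins_le (S := S) (fun _ _ => trivial) trivial hj (x := fun _ => 1)
      (fun _ => zero_le_one) hz (c := 1) (av_le3 hzj)
    linarith

end CC

open CC

theorem cox_classify {ι W : Type*} [Group W] [Finite W] [Finite ι] {s : ι → W} (h : Cox s)
    (h3 : 3 ≤ Nat.card ι)
    (irr : ∀ I : Set ι, I.Nonempty → I ≠ Set.univ → ∃ i ∈ I, ∃ j, j ∉ I ∧ s i * s j ≠ s j * s i)
    (hm : ∀ i j, i ≠ j → orderOf (s i * s j) ∈ ({2, 3, 4, 6, 8} : Set ℕ)) :
    (∃ (n : ℕ) (e : Fin n ≃ ι), 3 ≤ n ∧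
      ((∀ i j, orderOf (s (e i) * s (e j)) = mA n i j) ∨
       (∀ i j, orderOf (s (e i) * s (e j)) = mC n i j) ∨
       (4 ≤ n ∧ ∀ i j, orderOf (s (e i) * s (e j)) = mD n i j) ∨
       ((n = 6 ∨ n = 7 ∨ n = 8) ∧ ∀ i j, orderOf (s (e i) * s (e j)) = mE n i j))) ∨
    ∃ e : Fin 4 ≃ ι, ∀ i j, orderOf (s (e i) * s (e j)) = mF i j := by
  classical
  cases nonempty_fintype ι
  have hP : PD Set.univ fun i j => orderOf (s i * s j) := by
    refine ⟨fun i _ => by simp [h.sq], fun i _ j _ => ?_, fun i _ j _ hij e => ?_, fun S _ x hx => ?_⟩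
    · rw [← orderOf_inv, mul_inv_rev, h.inv.inv_eq, h.inv.inv_eq]
    · have := hm i j hij
      rw [e] at this
      simp at this
    · obtain ⟨i0, hi0, hx0⟩ := hx
      have := pos_def h irr hm (fun i => if i ∈ S then x i else 0) fun e => by
        simpa [hi0, hx0] using congrFun e i0
      refine this.trans_eq ?_
      simp only [Qf, mul_ite, mul_zero, ite_mul, zero_mul, sum_ite_mem, univ_inter]
      rw [sum_comm]
      simp only [sum_ite_mem, univ_inter]
      rw [sum_comm]
  rw [Nat.card_eq_fintype_card] at h3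
  obtain ⟨v, T, inj, hT, hM, -⟩ := grow hP (fun i j hij => hm i j hij) (fun I h1 h2 => by
    obtain ⟨i, hi, j, hj, hij⟩ := irr I h1 h2
    refine ⟨i, hi, j, hj, (hm i j (by rintro rfl; exact hij rfl)).resolve_left fun e => hij ?_⟩
    have := pow_orderOf_eq_one (s i * s j)
    rw [e, pow_two] at this
    calc s i * s j = (s i * s j)⁻¹ := eq_inv_of_mul_eq_one_left this
      _ = s j * s i := by rw [mul_inv_rev, h.inv.inv_eq, h.inv.inv_eq])
    (k := Fintype.card ι) (by omega) le_rfl
  generalize hn : Fintype.card ι = n at h3 inj hT hM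
  let e : Fin n ≃ ι := Equiv.ofBijective (fun i => v i)
    ((Fintype.bijective_iff_injective_and_card _).2
      ⟨fun i j hij => Fin.ext (inj _ i.2 _ j.2 hij), by simp [hn]⟩)
  have he : ∀ i j : Fin n, orderOf (s (e i) * s (e j)) = T i j := fun i j => hM _ i.2 _ j.2
  rcases hT with rfl | ⟨h1, rfl⟩ | ⟨h1, rfl⟩ | ⟨h1, rfl⟩ | ⟨rfl, rfl⟩ | ⟨rfl, -⟩
  · exact .inl ⟨n, e, h3, .inl fun i j => by simp only [he, nA, mA, Fin.ext_iff]⟩
  · exact .inl ⟨n, e, h3, .inr (.inl fun i j => by simp only [he, nC, mC, Fin.ext_iff])⟩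
  · exact .inl ⟨n, e, h3, .inr (.inr (.inl ⟨h1, fun i j => by
      simp only [he, nD, mD, Fin.ext_iff]⟩))⟩
  · exact .inl ⟨n, e, h3, .inr (.inr (.inr ⟨h1, fun i j => by
      simp only [he, nE, mE, Fin.ext_iff]⟩))⟩
  · exact .inr ⟨e, fun i j => by simp only [he, nF, mF, Fin.ext_iff]⟩
  · omega

end Cfsg.Agent.BNP
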